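import Mathlib
import Cfsg.Agent.H52.SnDefs
import Cfsg.Agent.H13.PCore

/-! SN-RED (helper52's S2942 project): if `C_X(V)` normalizes the Sylow 2-subgroup `T` and
`O₂(X)` centralizes `V`, then `O₂(X / C_X(V)) = 1` and `T ∩ C_X(V) ≤ O₂(X)`. -/

set_option autoImplicit false

open Cfsg

universe u

namespace Cfsg.Agent.H5.Sn

open Cfsg.Agent.H52.Sn

section
variable {X : Type u} [Group X] [Finite X]

/-- a normal subgroup `D` normalizing the Sylow 2-subgroup `T` meets `T` inside `O₂(X)` -/
theorem inf_sylow_le_pCore (T : Sylow 2 X) (D : Subgroup X) [hDn : D.Normal]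
    (hD : D ≤ Subgroup.normalizer ((T : Subgroup X) : Set X)) :
    D ⊓ (T : Subgroup X) ≤ pCore 2 X := by
  have hP : IsPGroup 2 ↥(D ⊓ (T : Subgroup X)) := T.isPGroup'.to_inf_right
  have hn : (D ⊓ (T : Subgroup X)).Normal := by
    constructor
    intro n hn x
    have h1 : x * n * x⁻¹ ∈ D := hDn.conj_mem n hn.1 x
    refine ⟨h1, ?_⟩
    let P' : Subgroup X := (D ⊓ (T : Subgroup X)).map (MulAut.conj x).toMonoidHom
    have hP' : IsPGroup 2 ↥P' := hP.map _
    have hP'D : P' ≤ D := by
      rintro _ ⟨m, hm, rfl⟩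
      exact hDn.conj_mem m hm.1 x
    have h2 := hP'.inf_normalizer_sylow T
    have h3 : P' ≤ P' ⊓ (T : Subgroup X) := by
      rw [← h2]
      exact le_inf le_rfl (hP'D.trans hD)
    have h4 : x * n * x⁻¹ ∈ P' := ⟨n, hn, rfl⟩
    exact (h3 h4).2
  exact Cfsg.Agent.H13.le_pCore hn hP

end

theorem red : StRed.{u} := by
  intro X _ _ T V _ hT hodd hO hC
  have : Fact (Nat.Prime 2) := ⟨Nat.prime_two⟩
  have hdvd : ¬ 2 ∣ T.index := by
    rw [← even_iff_two_dvd, Nat.not_even_iff_odd]; exact hodd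
  let S : Sylow 2 X := hT.toSylow hdvd
  have hCS : Subgroup.centralizer (V : Set X) ≤
      Subgroup.normalizer ((S : Subgroup X) : Set X) := hC
  have ha : T ⊓ Subgroup.centralizer (V : Set X) ≤ pCore 2 X := by
    rw [inf_comm]
    exact inf_sylow_le_pCore S _ hCS
  refine ⟨?_, ha⟩
  let D : Subgroup X := (pCore 2 (X ⧸ Subgroup.centralizer (V : Set X))).comap
    (QuotientGroup.mk' (Subgroup.centralizer (V : Set X)))
  have hpn : (pCore 2 (X ⧸ Subgroup.centralizer (V : Set X))).Normal :=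
    Cfsg.Agent.H13.pCore_normal 2 _
  have hDn : D.Normal := Subgroup.Normal.comap hpn _
  have hsurj : Function.Surjective (QuotientGroup.mk' (Subgroup.centralizer (V : Set X))) :=
    QuotientGroup.mk'_surjective _
  have hD1 : D ≤ T ⊔ Subgroup.centralizer (V : Set X) := by
    have h1 : pCore 2 (X ⧸ Subgroup.centralizer (V : Set X)) ≤
        ((S.mapSurjective hsurj : Sylow 2 (X ⧸ Subgroup.centralizer (V : Set X))) :
          Subgroup (X ⧸ Subgroup.centralizer (V : Set X))) :=
      (Cfsg.Agent.H13.pCore_isPGroup 2 _).le_sylow_of_normal _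
    rw [Sylow.coe_mapSurjective] at h1
    have h2 : D ≤ ((S : Subgroup X).map
        (QuotientGroup.mk' (Subgroup.centralizer (V : Set X)))).comap
        (QuotientGroup.mk' (Subgroup.centralizer (V : Set X))) := Subgroup.comap_mono h1
    rw [Subgroup.comap_map_eq, QuotientGroup.ker_mk'] at h2
    exact h2
  have hD2 : D ≤ Subgroup.normalizer ((S : Subgroup X) : Set X) :=
    hD1.trans (sup_le Subgroup.le_normalizer hCS)
  have hD3 : D ⊓ T ≤ Subgroup.centralizer (V : Set X) :=
    (inf_sylow_le_pCore S D hD2).trans hO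
  have hCD : Subgroup.centralizer (V : Set X) ≤ D := by
    intro c hc
    show QuotientGroup.mk' (Subgroup.centralizer (V : Set X)) c ∈
      pCore 2 (X ⧸ Subgroup.centralizer (V : Set X))
    rw [show QuotientGroup.mk' (Subgroup.centralizer (V : Set X)) c = 1 from
      (QuotientGroup.eq_one_iff c).mpr hc]
    exact one_mem _
  have hD4 : D ≤ Subgroup.centralizer (V : Set X) := by
    intro d hd
    obtain ⟨t, ht, c, hc, rfl⟩ := Subgroup.mem_sup_of_normal_right.mp (hD1 hd)
    have htD : t ∈ D := by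
      have := D.mul_mem hd (D.inv_mem (hCD hc))
      simpa using this
    exact Subgroup.mul_mem _ (hD3 ⟨htD, ht⟩) hc
  rw [eq_bot_iff]
  intro y hy
  obtain ⟨x, rfl⟩ := hsurj y
  have hx : x ∈ D := hy
  rw [Subgroup.mem_bot]
  exact (QuotientGroup.eq_one_iff x).mpr (hD4 hx)

example : StRed.{u} := red

end Cfsg.Agent.H5.Sn

#print axioms Cfsg.Agent.H5.Sn.red
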