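import Mathlib
import Cfsg.Agent.H52.SoDefs

/-! SO-ABS (helper52's S2943 project): the abstract uniqueness statement, from FINA, UNIQ, INJ. -/

set_option autoImplicit false

open Cfsg

universe u

namespace Cfsg.Agent.H5.Sn

open Cfsg.Agent.H52.Sn

open scoped commutatorElement

section
variable {X : Type u} [Group X]

/-- if generators commute modulo the normal subgroup `C`, the generated subgroups commute
modulo `C` -/
theorem commutator_closure_le (C : Subgroup X) [C.Normal] (S₁ S₂ : Set X)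
    (h : ∀ x ∈ S₁, ∀ y ∈ S₂, x * y * x⁻¹ * y⁻¹ ∈ C) :
    ⁅Subgroup.closure S₁, Subgroup.closure S₂⁆ ≤ C := by
  have h1 : ∀ y ∈ S₂, ∀ x ∈ Subgroup.closure S₁,
      Commute (QuotientGroup.mk' C x) (QuotientGroup.mk' C y) := by
    intro y hy
    have hle : Subgroup.closure S₁ ≤
        (Subgroup.centralizer ({QuotientGroup.mk' C y} : Set (X ⧸ C))).comap
          (QuotientGroup.mk' C) := by
      rw [Subgroup.closure_le]
      intro x hx
      show QuotientGroup.mk' C x ∈ Subgroup.centralizer ({QuotientGroup.mk' C y} : Set (X ⧸ C))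
      rw [Subgroup.mem_centralizer_singleton_iff]
      have h2 : QuotientGroup.mk' C (x * y * x⁻¹ * y⁻¹) = 1 :=
        (QuotientGroup.eq_one_iff _).mpr (h x hx y hy)
      rw [map_mul, map_mul, map_mul, map_inv, map_inv, mul_inv_eq_one, mul_inv_eq_iff_eq_mul] at h2
      exact h2
    intro x hx
    have := hle hx
    have h3 : QuotientGroup.mk' C x ∈
        Subgroup.centralizer ({QuotientGroup.mk' C y} : Set (X ⧸ C)) := this
    rw [Subgroup.mem_centralizer_singleton_iff] at h3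
    exact h3
  have h2 : ∀ x ∈ Subgroup.closure S₁, ∀ y ∈ Subgroup.closure S₂,
      Commute (QuotientGroup.mk' C x) (QuotientGroup.mk' C y) := by
    intro x hx
    have hle : Subgroup.closure S₂ ≤
        (Subgroup.centralizer ({QuotientGroup.mk' C x} : Set (X ⧸ C))).comap
          (QuotientGroup.mk' C) := by
      rw [Subgroup.closure_le]
      intro y hy
      show QuotientGroup.mk' C y ∈ Subgroup.centralizer ({QuotientGroup.mk' C x} : Set (X ⧸ C))
      rw [Subgroup.mem_centralizer_singleton_iff]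
      exact (h1 y hy x hx).symm
    intro y hy
    have h3 : QuotientGroup.mk' C y ∈
        Subgroup.centralizer ({QuotientGroup.mk' C x} : Set (X ⧸ C)) := hle hy
    rw [Subgroup.mem_centralizer_singleton_iff] at h3
    exact h3.symm
  rw [Subgroup.commutator_le]
  intro x hx y hy
  apply (QuotientGroup.eq_one_iff _).mp
  show QuotientGroup.mk' C ⁅x, y⁆ = 1
  rw [commutatorElement_def, map_mul, map_mul, map_mul, map_inv, map_inv, (h2 x hx y hy).eq]
  group

end

theorem abs (hA : StFinA.{u}) (hU : StUniq.{u}) (hI : StInj.{u}) : StAbs.{u} := by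
  intro X _ _ V T Q M J K₁ O₁ K₂ O₂ _ hV F1 F2 h41 h42 hne
  have hCn : (Subgroup.centralizer (V : Set X)).Normal := F1.hC
  have hMn : M.Normal := F1.hM
  -- `[C, J] ≤ Q`
  have hCJ : ⁅Subgroup.centralizer (V : Set X), J⁆ ≤ Q := by
    rw [Subgroup.commutator_le]
    intro c hc a ha
    apply F1.hTC
    have haT : a ∈ T := F1.hJT ha
    constructor
    · have h1 : c * a * c⁻¹ ∈ T := ((F1.hCT hc) a).mp haT
      have : ⁅c, a⁆ = (c * a * c⁻¹) * a⁻¹ := by rw [commutatorElement_def]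
      rw [this]
      exact T.mul_mem h1 (T.inv_mem haT)
    · have h1 : a * c⁻¹ * a⁻¹ ∈ Subgroup.centralizer (V : Set X) :=
        hCn.conj_mem _ (Subgroup.inv_mem _ hc) a
      have : ⁅c, a⁆ = c * (a * c⁻¹ * a⁻¹) := by rw [commutatorElement_def]; group
      rw [this]
      exact Subgroup.mul_mem _ hc h1
  -- `O_i ≤ C`
  have hO1 : O₁ ≤ Subgroup.centralizer (V : Set X) :=
    ((hA T _ Q M J K₁ O₁ F1.hT F1.hTi F1.hC F1.hQ F1.hM F1.hTC F1.hJM F1.hcomm F1.hKgen F1.hKJ
      F1.hOK F1.hO).1).trans F1.hQC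
  have hO2 : O₂ ≤ Subgroup.centralizer (V : Set X) :=
    ((hA T _ Q M J K₂ O₂ F2.hT F2.hTi F2.hC F2.hQ F2.hM F2.hTC F2.hJM F2.hcomm F2.hKgen F2.hKJ
      F2.hOK F2.hO).1).trans F2.hQC
  -- `K_i ≤ M`
  have hKM : ∀ K : Subgroup X, ⁅K, J⁆ = K → K ≤ M := by
    intro K hK
    rw [← hK]
    exact (Subgroup.commutator_mono le_rfl F1.hJM).trans (Subgroup.commutator_le_right K M)
  have hK1M := hKM K₁ F1.hKJ
  have hK2M := hKM K₂ F2.hKJ
  -- `[K₁, K₂] ≤ C`
  have hKK : ⁅K₁, K₂⁆ ≤ Subgroup.centralizer (V : Set X) := by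
    have := commutator_closure_le (Subgroup.centralizer (V : Set X))
      {g : X | g ∈ K₁ ∧ Odd (orderOf g)} {g : X | g ∈ K₂ ∧ Odd (orderOf g)}
      (fun x hx y hy => F1.hcomm x (hK1M hx.1) y (hK2M hy.1) hx.2 hy.2)
    rw [F1.hKgen, F2.hKgen] at this
    exact this
  have hsup := hU V K₁ K₂ O₁ O₂ hV F1.hOK hO1 F1.hO3 F2.hOK hO2 F2.hO3 hKK h41 h42 hne
  exact hI _ Q J K₁ K₂ F1.hC F1.hQ F1.hQ2 hCJ F1.hKgen F1.hKJ F1.hQK F2.hKgen F2.hKJ F2.hQK hsup

example (hA : StFinA.{u}) (hU : StUniq.{u}) (hI : StInj.{u}) : StAbs.{u} := abs hA hU hI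

end Cfsg.Agent.H5.Sn

#print axioms Cfsg.Agent.H5.Sn.abs
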