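import Mathlib
import Cfsg.Agent.H64.JzDefs
import Cfsg.Agent.S2950
import Cfsg.Agent.H12.SpConjG
import Cfsg.Agent.Helper55.UqBase
import Cfsg.Agent.H51.Local
import Cfsg.Agent.H31.X.CharP2

/-! JZ-OUT1 (helper64's S2951/S2952 project): if `T = S` and `N_G(J(S)) ⊄ L`, then the conjugate
of `K` by an element of `N_G(J(S))` outside `L` is a `J(S)`-component not contained in `L`. -/

set_option autoImplicit false

open Cfsg

universe u

namespace Cfsg.Agent.H5.Jz

open Cfsg.Agent.H64.Jz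

/-- A maximal 2-local subgroup is self-normalizing. -/
theorem normalizer_maxTwoLocal_le {G : Type u} [Group G] [Finite G] {L : Subgroup G}
    (hL : IsMaximalTwoLocal L) : Subgroup.normalizer (L : Set G) ≤ L := by
  obtain ⟨⟨Q, hQ2, hQ1, hLQ⟩, hmax⟩ := hL
  have hQL : Q ≤ L := by rw [hLQ]; exact Subgroup.le_normalizer
  have hLNQ : L ≤ Subgroup.normalizer (Q : Set G) := by rw [hLQ]
  have hQO : Q ≤ pCoreOf 2 L := Cfsg.Agent.H51.le_pCoreOf 2 hQL hLNQ hQ2
  have hO1 : pCoreOf 2 L ≠ ⊥ := by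
    intro h
    rw [h] at hQO
    exact hQ1 (le_bot_iff.mp hQO)
  have h2loc : IsTwoLocal (Subgroup.normalizer ((pCoreOf 2 L : Subgroup G) : Set G)) :=
    ⟨pCoreOf 2 L, Cfsg.Agent.H51.pCoreOf_isPGroup 2 L, hO1, rfl⟩
  have heq := hmax _ h2loc (Cfsg.Agent.H31.X.H54.le_normalizer_pCoreOf L)
  calc Subgroup.normalizer (L : Set G)
      ≤ Subgroup.normalizer ((pCoreOf 2 L : Subgroup G) : Set G) :=
        Cfsg.Agent.H31.X.H54.normalizer_le_normalizer_pCoreOf L
    _ = L := heq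

theorem out1 : StOut1.{u} := by
  intro G _ _ S M T K L hB hTS hN
  obtain ⟨⟨hchar, hNsol, hZ⟩, hO, hM, hMJ, hT, hTle, hK, hLmax, hKL⟩ := hB
  obtain ⟨g, hgN, hgL⟩ := SetLike.not_le_iff_exists.mp hN
  obtain ⟨L₀, hL₀max, hKL₀, huniq, -, -⟩ :=
    Cfsg.Agent.S2950.result hchar hNsol hZ hO S M hM hMJ T hT K hK
  have hLL₀ : L = L₀ := huniq L hLmax hKL
  have hJc : IsJComponent T K := hK.1.1
  have hgJ : (thompsonSubgroupOf 2 T).map (MulAut.conj g).toMonoidHom = thompsonSubgroupOf 2 T := by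
    rw [hTS]
    exact Subgroup.mem_normalizer_iff_map_conj_eq.mp hgN
  refine ⟨K.map (MulAut.conj g).toMonoidHom, ?_, ?_⟩
  · have h1 := Cfsg.Agent.H12.Sp.isJComponent_conj T K g hJc
    have h2 : thompsonSubgroupOf 2 (T.map (MulAut.conj g).toMonoidHom) = thompsonSubgroupOf 2 T := by
      rw [← Cfsg.Agent.H14.thompsonSubgroupOf_conj 2 g T]
      exact hgJ
    exact Cfsg.Agent.Helper55.Uq.isJComponent_congr h2 h1
  · intro hKg
    -- `L₂ := L^(g⁻¹)` is a 2-local containing `K ⊔ J(T)`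
    have hK2 : K ⊔ thompsonSubgroupOf 2 T ≤ L.map (MulAut.conj g⁻¹).toMonoidHom := by
      apply sup_le
      · rw [← Cfsg.Agent.H12.Sp.map_conj_conj_inv K g]
        exact Subgroup.map_mono hKg
      · have h3 := Cfsg.Agent.H12.Sp.map_conj_conj_inv (thompsonSubgroupOf 2 T) g
        rw [hgJ] at h3
        rw [← h3]
        exact Subgroup.map_mono (le_sup_right.trans hKL)
    have hL2loc : IsTwoLocal (L.map (MulAut.conj g⁻¹).toMonoidHom) := by
      obtain ⟨Q, hQ2, hQ1, hLQ⟩ := hLmax.1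
      refine ⟨Q.map (MulAut.conj g⁻¹).toMonoidHom, hQ2.map _, ?_, ?_⟩
      · intro h
        apply hQ1
        exact (Subgroup.map_eq_bot_iff_of_injective Q (MulAut.conj g⁻¹).injective).mp h
      · rw [hLQ]
        exact Subgroup.map_equiv_normalizer_eq Q (MulAut.conj g⁻¹)
    obtain ⟨L₃, hL₃max, hL₃⟩ := Cfsg.Agent.Helper55.Uq.exists_maximalTwoLocal hL2loc
    have h4 : L₃ = L₀ := huniq L₃ hL₃max (hK2.trans hL₃)
    have h5 : L.map (MulAut.conj g⁻¹).toMonoidHom ≤ L := by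
      have h := hL₃
      rw [h4, ← hLL₀] at h
      exact h
    have h6 : L.map (MulAut.conj g⁻¹).toMonoidHom = L := by
      apply Subgroup.eq_of_le_of_card_ge h5
      rw [Subgroup.card_map_of_injective (MulAut.conj g⁻¹).injective]
    have h7 : g⁻¹ ∈ Subgroup.normalizer (L : Set G) :=
      Subgroup.mem_normalizer_iff_map_conj_eq.mpr h6
    have h8 : g⁻¹ ∈ L := normalizer_maxTwoLocal_le hLmax h7
    exact hgL (by simpa using L.inv_mem h8)

example : StOut1.{u} := out1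

end Cfsg.Agent.H5.Jz

#print axioms Cfsg.Agent.H5.Jz.out1
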