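import Cfsg.Agent.H5.JkTrCore
import Cfsg.Agent.H15.J46.S2946c

/-! JK-TR (helper28's JZ-KILL sub-project, S2951/S2952): the exact Prop `StKTr`, via the
clash-free copy `Cfsg.Agent.H15.J46.s2946` of S2946. -/

set_option autoImplicit false

open Cfsg

universe u

namespace Cfsg.Agent.H5.Jk

open Cfsg.Agent.H28.Jk

/-- JK-TR: a `J(T)`-component `K` with `W_K ∩ C(K) = 1` conjugates every element of `W_K` into
`Ω₁Z(J(T)) ∩ W_K`. -/
theorem ktr : StKTr.{u} :=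
  ktr_of (fun hzn T K hT hT1 hK =>
    (Cfsg.Agent.H15.J46.s2946 hzn.1 hzn.2.1 hzn.2.2 T hT hT1 K hK _ rfl).1)

example : Cfsg.Agent.H28.Jk.StKTr.{u} := ktr

end Cfsg.Agent.H5.Jk

#print axioms Cfsg.Agent.H5.Jk.ktr
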