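import Mathlib
import Cfsg.Agent.H52.JxDefs
import Cfsg.Agent.H82.JvCaseA
import Cfsg.Agent.H43.JyVFacts
import Cfsg.Agent.H94.JyGood
import Cfsg.Agent.H51.Local

/-! JX-KA (S2953, helper52's JY-KILL2 project): the case `V ≤ Q₁` of the residual configuration is
impossible, via helper82's abstract count `H82.Jv.caseA` and helper43's `vfacts`; the two `P'`-side
facts (index 2 and inversion modulo `Q₁`) are taken as closed hypotheses. -/

set_option autoImplicit false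

open Cfsg

universe u

namespace Cfsg.Agent.H5.Jx

open Cfsg.Agent.H64.Jz Cfsg.Agent.H64.Jy Cfsg.Agent.H52.Jx

/-- `T ∖ O₂(K ⊔ T)` inverts `K` modulo `O₂(K ⊔ T)`. -/
def PInv : Prop := ∀ {G : Type u} [Group G] [Finite G] (S : Sylow 2 G) (M T K L : Subgroup G),
  Base S M T K L → ∀ x ∈ T, x ∉ pCoreOf 2 (K ⊔ T) → ∀ g ∈ K,
    x * g * x⁻¹ * g ∈ pCoreOf 2 (K ⊔ T)

/-- `O₂(K ⊔ T)` has index at most 2 in `T`. -/
def PDidx : Prop := ∀ {G : Type u} [Group G] [Finite G] (S : Sylow 2 G) (M T K L : Subgroup G),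
  Base S M T K L → ∀ a ∈ T, ∀ b ∈ T, a ∉ pCoreOf 2 (K ⊔ T) → b ∉ pCoreOf 2 (K ⊔ T) →
    a * b ∈ pCoreOf 2 (K ⊔ T)

/-- An element of odd order of a subgroup `K` with `|K : O₂(K)| = 3` has order dividing 3. -/
theorem pow_three_of_odd {G : Type u} [Group G] (K : Subgroup G)
    (hrel3 : (pCoreOf 2 K).relIndex K = 3) (k : G) (hkK : k ∈ K) (hkodd : Odd (orderOf k)) :
    k ^ 3 = 1 := by
  have hn : ((pCoreOf 2 K).subgroupOf K).Normal :=
    Subgroup.normal_subgroupOf_of_le_normalizer (Cfsg.Agent.H51.le_normalizer_pCoreOf 2 K)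
  have h := Subgroup.pow_index_mem ((pCoreOf 2 K).subgroupOf K) (⟨k, hkK⟩ : ↥K)
  have hidx : ((pCoreOf 2 K).subgroupOf K).index = 3 := hrel3
  rw [hidx] at h
  have hO3 : k ^ 3 ∈ pCoreOf 2 K := by
    have := Subgroup.mem_subgroupOf.mp h
    simpa using this
  obtain ⟨n, hn⟩ := (Cfsg.Agent.H51.pCoreOf_isPGroup 2 K) ⟨k ^ 3, hO3⟩
  have hn' : (k ^ 3) ^ 2 ^ n = 1 := congrArg Subtype.val hn
  have hd1 : orderOf (k ^ 3) ∣ 2 ^ n := orderOf_dvd_of_pow_eq_one hn'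
  have hd2 : orderOf (k ^ 3) ∣ orderOf k := orderOf_pow_dvd 3
  have hcop : Nat.Coprime (orderOf k) (2 ^ n) :=
    Nat.Coprime.pow_right n (Nat.coprime_two_right.mpr hkodd)
  have h1 : orderOf (k ^ 3) = 1 :=
    Nat.Coprime.eq_one_of_dvd (Nat.Coprime.coprime_dvd_left hd2 hcop) hd1
  exact orderOf_eq_one_iff.mp h1

/-- If `J(T) ⊄ Q`, some elementary abelian subgroup of `T` of largest order is not inside `Q`. -/
theorem exists_max_elem_not_le {G : Type u} [Group G] [Finite G] (T Q : Subgroup G)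
    (hJQ : ¬ thompsonSubgroupOf 2 T ≤ Q) :
    ∃ A : Subgroup G, A ≤ T ∧ (∀ x ∈ A, x * x = 1) ∧
      (∀ B : Subgroup G, B ≤ T → (∀ x ∈ B, x * x = 1) → Nat.card ↥B ≤ Nat.card ↥A) ∧
      ¬ A ≤ Q := by
  classical
  obtain ⟨A0, hA0, hA0Q⟩ : ∃ A0 ∈ maxElementaryAbelianSubgroups 2 ↥T,
      ¬ A0.map T.subtype ≤ Q := by
    by_contra hcon
    push Not at hcon
    apply hJQ
    unfold thompsonSubgroupOf thompsonSubgroup
    rw [Subgroup.map_le_iff_le_comap]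
    apply sSup_le
    intro A hA
    rw [← Subgroup.map_le_iff_le_comap]
    exact hcon A hA
  refine ⟨A0.map T.subtype, Subgroup.map_subtype_le _, ?_, ?_, hA0Q⟩
  · rintro _ ⟨y, hy, rfl⟩
    have h2 : y ^ 2 = 1 := hA0.1.2 y hy
    have : ((y ^ 2 : ↥T) : G) = 1 := by rw [h2]; rfl
    rw [pow_two] at this
    exact this
  · intro B hBT hB2
    have hBc : ∀ x ∈ B, ∀ y ∈ B, x * y = y * x := by
      intro x hx y hy
      have h1 := hB2 (x * y) (B.mul_mem hx hy)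
      have hx1 := hB2 x hx
      have hy1 := hB2 y hy
      have e1 : x * y = (x * y)⁻¹ := eq_inv_of_mul_eq_one_left h1
      have e2 : x⁻¹ = x := (eq_inv_of_mul_eq_one_left hx1).symm
      have e3 : y⁻¹ = y := (eq_inv_of_mul_eq_one_left hy1).symm
      rw [e1, mul_inv_rev, e2, e3]
    let B' : Subgroup ↥T := B.subgroupOf T
    have hB'comm : IsMulCommutative B' :=
      ⟨⟨fun x y => Subtype.ext (Subtype.ext
        (hBc x.1.1 (Subgroup.mem_subgroupOf.mp x.2) y.1.1 (Subgroup.mem_subgroupOf.mp y.2)))⟩⟩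
    have hB'sq : ∀ x ∈ B', x ^ 2 = 1 := by
      intro x hx
      rw [pow_two]
      exact Subtype.ext (hB2 x.1 (Subgroup.mem_subgroupOf.mp hx))
    have hle := hA0.2 B' ⟨hB'comm, hB'sq⟩
    have hc1 : Nat.card ↥B' = Nat.card ↥B :=
      Nat.card_congr (Subgroup.subgroupOfEquivOfLe hBT).toEquiv
    have hc2 : Nat.card ↥(A0.map T.subtype) = Nat.card ↥A0 :=
      Subgroup.card_map_of_injective T.subtype_injective
    rw [hc2, ← hc1]
    exact hle

/-- JX-KA modulo the two `P'`-side facts. -/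
theorem ka_of_pside (hPF : StPF.{u}) (hInv : PInv.{u}) (hDidx : PDidx.{u}) : StKA.{u} := by
  intro G _ _ S M K L T' K' L' hR hVQ
  classical
  obtain ⟨hB, hNS, hB', hne⟩ := hR
  obtain ⟨-, -, -, hV4, hV2, hVS, hNV, hSL, -, -, -, -, hTI⟩ :=
    Cfsg.Agent.H43.Jy.vfacts S M K L T' K' L' hB hNS hB' hne
  have hB'0 := hB'
  obtain ⟨-, -, -, -, -, hT'S, hK', -, -⟩ := hB'
  have hJc : IsJComponent T' K' := hK'.1.1
  have hK'nL : ¬ K' ≤ L := hK'.2.1
  obtain ⟨hgen, hcomm, hrel3, -, -, -⟩ := hJc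
  obtain ⟨hQT, -, hPN⟩ := hPF S L T' K' L' hB'0
  -- an element of order 3 of `K'` outside `L`
  obtain ⟨k, hkK, hkodd, hkL⟩ : ∃ k ∈ K', Odd (orderOf k) ∧ k ∉ L := by
    by_contra hcon
    push Not at hcon
    apply hK'nL
    intro x hx
    have hx' : x ∈ Subgroup.closure {g : G | g ∈ K' ∧ Odd (orderOf g)} := by
      rw [hgen]; exact hx
    exact (Subgroup.closure_le L).mpr (fun g hg => hcon g hg.1 hg.2) hx'
  have hk3 : k ^ 3 = 1 := pow_three_of_odd K' hrel3 k hkK hkodd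
  -- `J(T') ⊄ Q₁`
  have hJQ : ¬ thompsonSubgroupOf 2 T' ≤ pCoreOf 2 (K' ⊔ T') := fun h =>
    Cfsg.Agent.H94.Jy.not_le_normalizer hgen hcomm hrel3
      (Cfsg.Agent.H51.pCoreOf_isPGroup 2 _) h (le_sup_left.trans hPN)
  obtain ⟨A, hAT, hAe, hmax, hAQ⟩ := exists_max_elem_not_le T' _ hJQ
  obtain ⟨a, haA, haQ⟩ := SetLike.not_le_iff_exists.mp hAQ
  have hLN : ∀ x ∈ L, x ∈ Subgroup.normalizer (Vof L : Set G) := by
    intro x hx; rw [hNV]; exact hx
  refine Cfsg.Agent.H82.Jv.caseA T' (pCoreOf 2 (K' ⊔ T')) (Vof L) A k a hQT hVQ hV4 hV2 ?_ ?_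
    (hPN (Subgroup.mem_sup_left hkK)) hk3 ?_ hAT hAe hmax haA ?_ ?_ ?_
  · intro g hg
    exact hLN g (hTI g hg)
  · intro q hq
    exact hLN q (hSL (hT'S (hQT hq)))
  · intro h
    rw [hNV] at h
    exact hkL h
  · exact hLN a (hSL (hT'S (hAT haA)))
  · exact hInv S L T' K' L' hB'0 a (hAT haA) haQ k hkK
  · intro t ht
    by_cases h : t ∈ pCoreOf 2 (K' ⊔ T')
    · left; exact h
    · right; exact hDidx S L T' K' L' hB'0 t (hAT ht) a (hAT haA) h haQ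

end Cfsg.Agent.H5.Jx

#print axioms Cfsg.Agent.H5.Jx.ka_of_pside
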