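import Mathlib
import Cfsg.Agent.H28.JkDefs
import Cfsg.Agent.H51.JcNORM

/-! JK-TR (helper28's JZ-KILL sub-project, S2951/S2952): a `J(T)`-component `K` with
`W_K ∩ C(K) = 1` conjugates every element of `W_K` into `Ω₁Z(J(T)) ∩ W_K`.  This file contains
the abstract core and the statement modulo the first conjunct of S2946. -/

set_option autoImplicit false

open Cfsg

universe u

namespace Cfsg.Agent.H5.Jk

open Cfsg.Agent.H28.Jk

/-- In a subgroup of order 4, three distinct nontrivial elements exhaust the nontrivial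
elements. -/
theorem four_elems {G : Type u} [Group G] (W : Subgroup G) (hW4 : Nat.card ↥W = 4)
    (x₁ x₂ x₃ : G) (h₁ : x₁ ∈ W) (h₂ : x₂ ∈ W) (h₃ : x₃ ∈ W) (n₁ : x₁ ≠ 1) (n₂ : x₂ ≠ 1)
    (n₃ : x₃ ≠ 1) (d₁₂ : x₁ ≠ x₂) (d₁₃ : x₁ ≠ x₃) (d₂₃ : x₂ ≠ x₃) :
    ∀ u ∈ W, u = 1 ∨ u = x₁ ∨ u = x₂ ∨ u = x₃ := by
  classical
  have hfin : Finite ↥W := Nat.finite_of_card_ne_zero (by rw [hW4]; norm_num)
  have hft : Fintype ↥W := Fintype.ofFinite _
  have ha : (⟨x₁, h₁⟩ : ↥W) ≠ 1 := fun h => n₁ (congrArg Subtype.val h)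
  have hb : (⟨x₂, h₂⟩ : ↥W) ≠ 1 := fun h => n₂ (congrArg Subtype.val h)
  have hc : (⟨x₃, h₃⟩ : ↥W) ≠ 1 := fun h => n₃ (congrArg Subtype.val h)
  have hab : (⟨x₁, h₁⟩ : ↥W) ≠ ⟨x₂, h₂⟩ := fun h => d₁₂ (congrArg Subtype.val h)
  have hac : (⟨x₁, h₁⟩ : ↥W) ≠ ⟨x₃, h₃⟩ := fun h => d₁₃ (congrArg Subtype.val h)
  have hbc : (⟨x₂, h₂⟩ : ↥W) ≠ ⟨x₃, h₃⟩ := fun h => d₂₃ (congrArg Subtype.val h)
  have hs : ({1, ⟨x₁, h₁⟩, ⟨x₂, h₂⟩, ⟨x₃, h₃⟩} : Finset ↥W).card = 4 := by
    rw [Finset.card_insert_of_notMem, Finset.card_insert_of_notMem,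
      Finset.card_insert_of_notMem, Finset.card_singleton]
    · simpa using hbc
    · simp only [Finset.mem_insert, Finset.mem_singleton, not_or]
      exact ⟨hab, hac⟩
    · simp only [Finset.mem_insert, Finset.mem_singleton, not_or]
      exact ⟨ha.symm, hb.symm, hc.symm⟩
  have huniv := Finset.eq_univ_of_card _ (hs.trans (by rw [← Nat.card_eq_fintype_card, hW4]))
  intro u hu
  have hmem : (⟨u, hu⟩ : ↥W) ∈ ({1, ⟨x₁, h₁⟩, ⟨x₂, h₂⟩, ⟨x₃, h₃⟩} : Finset ↥W) := by
    rw [huniv]; exact Finset.mem_univ _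
  simp only [Finset.mem_insert, Finset.mem_singleton] at hmem
  rcases hmem with h | h | h | h
  · left; exact congrArg Subtype.val h
  · right; left; exact congrArg Subtype.val h
  · right; right; left; exact congrArg Subtype.val h
  · right; right; right; exact congrArg Subtype.val h

/-- An element of odd order commuting with `v` after squaring commutes with `v`. -/
theorem commute_of_sq_of_odd {G : Type u} [Group G] (y v : G) (hy : Odd (orderOf y))
    (h : Commute (y * y) v) : Commute y v := by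
  obtain ⟨m, hm⟩ := hy
  have e : (y * y) ^ (m + 1) = y := by
    rw [← pow_two, ← pow_mul]
    have : 2 * (m + 1) = orderOf y + 1 := by omega
    rw [this, pow_succ, pow_orderOf_eq_one, one_mul]
  rw [← e]
  exact h.pow_left (m + 1)

/-- An element of odd order normalizing but not centralizing a four-group `W` is transitive on
the nontrivial elements of `W`. -/
theorem four_trans {G : Type u} [Group G] (W : Subgroup G) (hW4 : Nat.card ↥W = 4)
    (hW2 : ∀ w ∈ W, w * w = 1) (y : G) (hyodd : Odd (orderOf y))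
    (hyW : ∀ w ∈ W, y * w * y⁻¹ ∈ W) (hny : ∃ v ∈ W, y * v * y⁻¹ ≠ v) :
    ∀ w ∈ W, w ≠ 1 → ∀ t ∈ W, t ≠ 1 →
      t = w ∨ t = y * w * y⁻¹ ∨ t = y * (y * w * y⁻¹) * y⁻¹ := by
  have conj_ne : ∀ x : G, x ≠ 1 → y * x * y⁻¹ ≠ 1 := by
    intro x hx h
    apply hx
    have : x = y⁻¹ * (y * x * y⁻¹) * y := by group
    rw [this, h]; group
  have fix_iff : ∀ x : G, y * x * y⁻¹ = x ↔ Commute y x := by
    intro x
    constructor
    · intro h
      exact mul_inv_eq_iff_eq_mul.mp h
    · intro h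
      exact mul_inv_eq_iff_eq_mul.mpr h.eq
  -- `y` fixes no nontrivial element of `W`
  have nofix : ∀ w ∈ W, w ≠ 1 → y * w * y⁻¹ ≠ w := by
    intro w hw hw1 hfix
    obtain ⟨v, hv, hvne⟩ := hny
    have hv1 : v ≠ 1 := by
      intro h
      apply hvne
      rw [h]; group
    have hvw : v ≠ w := by
      intro h
      apply hvne
      rw [h]; exact hfix
    have hwinv : w⁻¹ = w := (eq_inv_of_mul_eq_one_left (hW2 w hw)).symm
    have hwv : w * v ∈ W := W.mul_mem hw hv
    have hwv1 : w * v ≠ 1 := by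
      intro h
      apply hvw
      have : v = w⁻¹ := (eq_inv_of_mul_eq_one_right h).symm ▸ rfl
      rw [this, hwinv]
    have hwvw : w ≠ w * v := by
      intro h
      apply hv1
      have h' : w * 1 = w * v := by rw [mul_one]; exact h
      exact (mul_left_cancel h').symm
    have hvwv : v ≠ w * v := by
      intro h
      apply hw1
      have h' : 1 * v = w * v := by rw [one_mul]; exact h
      exact (mul_right_cancel h').symm
    have hall := four_elems W hW4 w v (w * v) hw hv hwv hw1 hv1 hwv1 (Ne.symm hvw) hwvw hvwv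
    have hcv : y * v * y⁻¹ ∈ W := hyW v hv
    rcases hall _ hcv with h | h | h | h
    · exact conj_ne v hv1 h
    · -- y v y⁻¹ = w = y w y⁻¹
      apply hvw
      have : y * v * y⁻¹ = y * w * y⁻¹ := by rw [h, hfix]
      exact mul_left_cancel (mul_right_cancel this)
    · exact hvne h
    · -- y v y⁻¹ = w v, so y² fixes v
      have h2 : y * (y * v * y⁻¹) * y⁻¹ = v := by
        rw [h]
        have : y * (w * v) * y⁻¹ = (y * w * y⁻¹) * (y * v * y⁻¹) := by group
        rw [this, hfix, h, ← mul_assoc, hW2 w hw, one_mul]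
      have h3 : Commute (y * y) v := by
        have : (y * y) * v * (y * y)⁻¹ = v := by
          have e : (y * y) * v * (y * y)⁻¹ = y * (y * v * y⁻¹) * y⁻¹ := by group
          rw [e, h2]
        exact mul_inv_eq_iff_eq_mul.mp this
      exact hvne ((fix_iff v).mpr (commute_of_sq_of_odd y v hyodd h3))
  intro w hw hw1 t ht ht1
  have hb : y * w * y⁻¹ ∈ W := hyW w hw
  have hc : y * (y * w * y⁻¹) * y⁻¹ ∈ W := hyW _ hb
  have hb1 : y * w * y⁻¹ ≠ 1 := conj_ne w hw1
  have hc1 : y * (y * w * y⁻¹) * y⁻¹ ≠ 1 := conj_ne _ hb1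
  have d12 : w ≠ y * w * y⁻¹ := fun h => nofix w hw hw1 h.symm
  have d23 : y * w * y⁻¹ ≠ y * (y * w * y⁻¹) * y⁻¹ := fun h => nofix _ hb hb1 h.symm
  have d13 : w ≠ y * (y * w * y⁻¹) * y⁻¹ := by
    intro h
    have h3 : Commute (y * y) w := by
      have : (y * y) * w * (y * y)⁻¹ = w := by
        have e : (y * y) * w * (y * y)⁻¹ = y * (y * w * y⁻¹) * y⁻¹ := by group
        rw [e, ← h]
      exact mul_inv_eq_iff_eq_mul.mp this
    exact nofix w hw hw1 ((fix_iff w).mpr (commute_of_sq_of_odd y w hyodd h3))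
  rcases four_elems W hW4 w _ _ hw hb hc hw1 hb1 hc1 d12 d13 d23 t ht with h | h | h | h
  · exact absurd h ht1
  · left; exact h
  · right; left; exact h
  · right; right; exact h

/-- The first conjunct of S2946, as a hypothesis. -/
def StZ0W : Prop := ∀ {G : Type u} [Group G] [Finite G], Cfsg.Agent.H58.Uq.ZN G →
  ∀ (T K : Subgroup G), IsPGroup 2 ↥T → T ≠ ⊥ → IsJComponent T K →
  Nat.card ↥(omegaCenterOf (thompsonSubgroupOf 2 T) ⊓ wOf K) = 2

/-- JK-TR modulo the first conjunct of S2946. -/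
theorem ktr_of (h46 : StZ0W.{u}) : StKTr.{u} := by
  intro G _ _ hZN T K hT hT1 hK hfix w hw
  classical
  have hK' : IsJComponent T K := hK
  obtain ⟨hgen, -, -, -, hW4, hW2⟩ := hK
  have hKW : ∀ k ∈ K, ∀ v ∈ wOf K, k * v * k⁻¹ ∈ wOf K := by
    intro k hk v hv
    exact Cfsg.Agent.H51.Jc.wOf_norm (K := K) (J := ⊥) bot_le k (Subgroup.mem_sup_left hk) v hv
  by_cases hw1 : w = 1
  · refine ⟨1, K.one_mem, ?_, ?_⟩
    · rw [hw1]; simp
    · rw [hw1]; simp
  -- a nontrivial element of `Z₀ ∩ W`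
  have hcard := h46 hZN T K hT hT1 hK'
  obtain ⟨t, htmem, ht1⟩ : ∃ t, t ∈ omegaCenterOf (thompsonSubgroupOf 2 T) ⊓ wOf K ∧ t ≠ 1 := by
    by_contra hcon
    push Not at hcon
    have hbot : omegaCenterOf (thompsonSubgroupOf 2 T) ⊓ wOf K = ⊥ := by
      rw [Subgroup.eq_bot_iff_forall]
      exact hcon
    rw [hbot] at hcard
    simp at hcard
  -- an odd-order element of `K` not centralizing `W`
  obtain ⟨y, hyK, hyodd, v, hv, hvne⟩ : ∃ y ∈ K, Odd (orderOf y) ∧ ∃ v ∈ wOf K, y * v * y⁻¹ ≠ v := by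
    by_contra hcon
    push Not at hcon
    have hle0 : Subgroup.closure {g : G | g ∈ K ∧ Odd (orderOf g)} ≤
        Subgroup.centralizer (wOf K : Set G) := by
      rw [Subgroup.closure_le]
      rintro y ⟨hyK, hyodd⟩
      rw [SetLike.mem_coe, Subgroup.mem_centralizer_iff]
      intro v hv
      have := hcon y hyK hyodd v hv
      exact (mul_inv_eq_iff_eq_mul.mp this).symm
    have hle : K ≤ Subgroup.centralizer (wOf K : Set G) := by
      intro k hk
      have hk' : k ∈ Subgroup.closure {g : G | g ∈ K ∧ Odd (orderOf g)} := by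
        rw [hgen]; exact hk
      exact hle0 hk'
    have hWC : wOf K ≤ Subgroup.centralizer (K : Set G) := by
      intro v hv
      rw [Subgroup.mem_centralizer_iff]
      intro k hk
      exact (Subgroup.mem_centralizer_iff.mp (hle hk) v hv).symm
    have hWbot : wOf K = ⊥ := by
      have := inf_eq_left.mpr hWC
      rw [hfix] at this
      exact this.symm
    rw [hWbot] at hW4
    simp at hW4
  have htr := four_trans (wOf K) hW4 hW2 y hyodd (hKW y hyK) ⟨v, hv, hvne⟩ w hw hw1 t htmem.2 ht1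
  rcases htr with h | h | h
  · refine ⟨1, K.one_mem, ?_, ?_⟩
    · have : (1 : G) * w * 1⁻¹ = t := by rw [h]; group
      rw [this]; exact htmem.1
    · have : (1 : G) * w * 1⁻¹ = t := by rw [h]; group
      rw [this]; exact htmem.2
  · refine ⟨y, hyK, ?_, ?_⟩
    · rw [← h]; exact htmem.1
    · rw [← h]; exact htmem.2
  · refine ⟨y * y, K.mul_mem hyK hyK, ?_, ?_⟩
    · have : (y * y) * w * (y * y)⁻¹ = t := by rw [h]; group
      rw [this]; exact htmem.1
    · have : (y * y) * w * (y * y)⁻¹ = t := by rw [h]; group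
      rw [this]; exact htmem.2

end Cfsg.Agent.H5.Jk

#print axioms Cfsg.Agent.H5.Jk.ktr_of
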