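import Mathlib
import Cfsg.Prelude.Def_Characters
import Cfsg.Agent.Lib.Gallagher
import Cfsg.Agent.Lib.CliffordCorr
import Cfsg.Agent.H82.PermChar
import Cfsg.Agent.H83.Gagola2
import Cfsg.Agent.H4.Clifford

/-!
# Invariant characters with abelian quotient (helper5)

`H ⊴ T`, `θ ∈ Irr(H)` is `T`-invariant and `T/H` is abelian.  Then `θ^T = e ∑_{ψ ∈ C} ψ` where
all `ψ ∈ C` restrict to `e θ` and `e² |C| |H| = |T|` (`abelian_over_invariant`).
-/

set_option autoImplicit false
set_option linter.unusedSectionVars false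
set_option linter.style.haveILetI false

namespace Cfsg.Agent.H5

open Cfsg Cfsg.Agent.H4 Cfsg.Agent.Clifford
open scoped ComplexConjugate

universe u

section AbInv

variable {T : Type u} [Group T] [Fintype T] (H : Subgroup T) [hH : H.Normal] [Fintype H]

/-- An irreducible character lying over an invariant irreducible character `θ` of a normal
subgroup restricts to a multiple of `θ`. -/
theorem res_of_invariant {θ : H → ℂ} (hθ : IsIrrCharacter H θ)
    (hinv : ∀ t : T, conjChar H θ t = θ) {ψ : T → ℂ} (hψ : IsIrrCharacter T ψ)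
    (h1 : classInner (fun h : H => ψ h) θ ≠ 0) :
    (fun h : H => ψ h) = classInner (fun h : H => ψ h) θ • θ := by
  have h := clifford_res H hψ hθ h1
  have hset : {φ : H → ℂ | ∃ g : T, φ = conjChar H θ g} = {θ} := by
    ext φ
    simp only [Set.mem_setOf_eq, Set.mem_singleton_iff]
    constructor
    · rintro ⟨g, rfl⟩
      exact hinv g
    · rintro rfl
      exact ⟨1, (hinv 1).symm⟩
  rw [hset, finsum_mem_singleton] at h
  exact h

/-- If `T/H` is abelian, an irreducible character with `H` in its kernel is linear. -/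
theorem linear_of_ker (hab : ∀ x y : T, x * y * x⁻¹ * y⁻¹ ∈ H) (β : IrrCharacter T)
    (hker : ∀ x ∈ H, β.1 x = β.1 1) :
    β.1 1 = 1 ∧ ∀ a b : T, β.1 (a * b) = β.1 a * β.1 b := by
  obtain ⟨χ', hχ'⟩ := Cfsg.Agent.H82.exists_deflate H β hker
  have hcomm : ∀ a b : T ⧸ H, a * b = b * a := by
    intro a b
    obtain ⟨x, rfl⟩ := QuotientGroup.mk_surjective a
    obtain ⟨y, rfl⟩ := QuotientGroup.mk_surjective b
    rw [← QuotientGroup.mk_mul, ← QuotientGroup.mk_mul, QuotientGroup.eq]
    have := hab y⁻¹ x⁻¹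
    have e : (x * y)⁻¹ * (y * x) = y⁻¹ * x⁻¹ * y⁻¹⁻¹ * x⁻¹⁻¹ := by group
    rw [e]
    exact this
  obtain ⟨h1, hmul⟩ := Cfsg.Agent.H83.IsIrrCharacter.linear_of_comm hcomm χ'.2
  rw [← hχ']
  refine ⟨?_, fun a b => ?_⟩
  · rw [Cfsg.Agent.H82.inflate_apply, QuotientGroup.mk_one]
    exact h1
  · rw [Cfsg.Agent.H82.inflate_apply, Cfsg.Agent.H82.inflate_apply,
      Cfsg.Agent.H82.inflate_apply, QuotientGroup.mk_mul, hmul]

/-- A multiplicative irreducible character has absolute value one. -/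
theorem linear_norm (β : IrrCharacter T) (h1 : β.1 1 = 1)
    (hmul : ∀ a b : T, β.1 (a * b) = β.1 a * β.1 b) (x : T) : β.1 x * conj (β.1 x) = 1 := by
  rw [← Cfsg.Agent.H82.irr_inv β x, ← hmul, mul_inv_cancel, h1]

/-- The product of a unimodular character and an irreducible character is irreducible. -/
theorem mul_linear_irr {β ψ : T → ℂ} (hβ : IsCharacter T β)
    (hβnorm : ∀ x, β x * conj (β x) = 1) (hψ : IsIrrCharacter T ψ) :
    IsIrrCharacter T (β * ψ) := by
  apply isIrrCharacter_of_norm_one (isCharacter_mul hβ (isCharacter_of_isIrrCharacter hψ))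
  have := irr_inner_self ⟨ψ, hψ⟩
  rw [← this]
  unfold classInner
  congr 1
  refine Finset.sum_congr rfl fun x _ => ?_
  simp only [Pi.mul_apply, map_mul]
  linear_combination (ψ x * conj (ψ x)) * hβnorm x

open Classical in
/-- For `T/H` abelian, the permutation character `(1_H)^T` is the sum of the irreducible
characters with `H` in the kernel. -/
theorem permChar_eq_sum (hab : ∀ x y : T, x * y * x⁻¹ * y⁻¹ ∈ H) :
    indFun H (fun _ : H => (1 : ℂ)) =
      ∑ᶠ β : IrrCharacter T, (if ∀ x ∈ H, β.1 x = β.1 1 then (1 : ℂ) else 0) • β.1 := by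
  rw [classFunction_eq_finsum (indFun_isClassFunction H (fun _ : H => (1 : ℂ)))]
  congr 1
  funext β
  congr 1
  split_ifs with hker
  · rw [frobenius_reciprocity H _ _ (irr_isClassFunction β)]
    unfold classInner
    have hN0 : (Nat.card H : ℂ) ≠ 0 := (neZero_card_complex H).out
    have h3 : ∀ x : H, (1 : ℂ) * conj (β.1 (x : T)) = 1 := by
      intro x
      rw [hker x x.2, (linear_of_ker H hab β hker).1, one_mul, map_one]
    simp only [h3, Finset.sum_const, Finset.card_univ, nsmul_eq_mul, mul_one]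
    rw [← Nat.card_eq_fintype_card, inv_mul_cancel₀ hN0]
  · apply Cfsg.Agent.H82.classInner_permChar_eq_zero H β
    intro hle
    rw [Subgroup.normalCore_eq_self] at hle
    exact hker (fun x hx => hle hx)

/-- **Invariant character with abelian quotient.**  If `θ ∈ Irr(H)` is `T`-invariant and `T/H`
is abelian, then `θ^T = e ∑_{ψ ∈ C} ψ`, the members of `C` are irreducible and restrict to
`e θ`, and `e² |C| |H| = |T|`. -/
theorem abelian_over_invariant {θ : H → ℂ} (hθ : IsIrrCharacter H θ)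
    (hinv : ∀ t : T, conjChar H θ t = θ) (hab : ∀ x y : T, x * y * x⁻¹ * y⁻¹ ∈ H) :
    ∃ (e : ℕ) (C : Finset (T → ℂ)), 0 < e ∧
      (∀ ψ ∈ C, IsIrrCharacter T ψ ∧ (fun h : H => ψ h) = (e : ℂ) • θ) ∧
      indFun H θ = (e : ℂ) • ∑ ψ ∈ C, ψ ∧ e ^ 2 * C.card * Nat.card H = Nat.card T := by
  classical
  letI := fintypeIrr T
  have hθc := isCharacter_of_isIrrCharacter hθ
  have hθ1 : θ 1 ≠ 0 := Cfsg.Agent.H82.irr_one_ne_zero ⟨θ, hθ⟩
  set Φ : T → ℂ := indFun H θ with hΦ
  have hΦc : IsCharacter T Φ := isCharacter_indFun H θ hθc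
  have hΦcf : IsClassFunction T Φ := indFun_isClassFunction H θ
  have hidx : (H.index : ℂ) ≠ 0 := by
    have : H.index ≠ 0 := Subgroup.index_ne_zero_of_finite
    exact_mod_cast this
  have hΦ1 : Φ 1 = (H.index : ℂ) * θ 1 := indFun_one_eq H θ
  -- a constituent of `Φ`
  have hex : ∃ ψ₀ : IrrCharacter T, classInner Φ ψ₀.1 ≠ 0 := by
    by_contra hcon
    push Not at hcon
    have h0 := eq_zero_of_inner_irr_eq_zero hΦcf hcon
    have : Φ 1 = 0 := by rw [h0]; rfl
    rw [hΦ1] at this
    rcases mul_eq_zero.mp this with h | h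
    · exact hidx h
    · exact hθ1 h
  obtain ⟨ψ₀, hψ₀⟩ := hex
  -- multiplicities
  have hmult : ∀ ψ : IrrCharacter T, classInner (fun h : H => ψ.1 h) θ =
      conj (classInner Φ ψ.1) := by
    intro ψ
    rw [hΦ, frobenius_reciprocity H θ ψ.1 (irr_isClassFunction ψ), classInner_conj_symm]
  obtain ⟨e, he⟩ := classInner_isCharacter_nat hΦc (isCharacter_of_isIrrCharacter ψ₀.2)
  have he0 : e ≠ 0 := by
    rintro rfl
    exact hψ₀ (by rw [he]; simp)
  have hres₀ : (fun h : H => ψ₀.1 h) = (e : ℂ) • θ := by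
    have h1 : classInner (fun h : H => ψ₀.1 h) θ = (e : ℂ) := by
      rw [hmult, he, Complex.conj_natCast]
    have h2 := res_of_invariant H hθ hinv ψ₀.2 (by rw [h1]; exact_mod_cast he0)
    rw [h1] at h2
    exact h2
  -- `e Φ = (1_H)^T ψ₀`
  have hkey : (e : ℂ) • Φ = indFun H (fun _ : H => (1 : ℂ)) * ψ₀.1 := by
    rw [← indFun_mul_res H (fun _ : H => (1 : ℂ)) (irr_isClassFunction ψ₀)]
    have : ((fun _ : H => (1 : ℂ)) * fun h : H => ψ₀.1 h) = (e : ℂ) • θ := by
      rw [← hres₀]
      funext h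
      simp
    rw [this, hΦ]
    funext g
    rw [Pi.smul_apply, indFun_apply, indFun_apply, smul_eq_mul, Finset.mul_sum, Finset.mul_sum,
      Finset.mul_sum]
    refine Finset.sum_congr rfl fun x _ => ?_
    by_cases hx : x⁻¹ * g * x ∈ H
    · rw [extendByZero_of_mem _ _ hx, extendByZero_of_mem _ _ hx, Pi.smul_apply, smul_eq_mul]
      ring
    · rw [extendByZero_of_not_mem _ _ hx, extendByZero_of_not_mem _ _ hx]
      ring
  -- every constituent of `Φ` restricts to `e θ` and has multiplicity `e`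
  have hall : ∀ ψ : IrrCharacter T, classInner Φ ψ.1 ≠ 0 →
      (fun h : H => ψ.1 h) = (e : ℂ) • θ ∧ classInner Φ ψ.1 = e := by
    intro ψ hψ
    have h1 : classInner ((e : ℂ) • Φ) ψ.1 ≠ 0 := by
      rw [classInner_smul_left]
      exact mul_ne_zero (by exact_mod_cast he0) hψ
    rw [hkey, permChar_eq_sum H hab, finsum_irr_eq_sum, Finset.sum_mul, classInner_sum_left] at h1
    obtain ⟨β, -, hβ⟩ := Finset.exists_ne_zero_of_sum_ne_zero h1
    by_cases hker : ∀ x ∈ H, β.1 x = β.1 1
    · rw [if_pos hker, one_smul] at hβ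
      obtain ⟨hβ1, hβmul⟩ := linear_of_ker H hab β hker
      have hirr : IsIrrCharacter T (β.1 * ψ₀.1) :=
        mul_linear_irr (isCharacter_of_isIrrCharacter β.2) (linear_norm β hβ1 hβmul) ψ₀.2
      have hEq : β.1 * ψ₀.1 = ψ.1 := eq_of_classInner_ne_zero hirr ψ.2 hβ
      have hres : (fun h : H => ψ.1 h) = (e : ℂ) • θ := by
        rw [← hres₀, ← hEq]
        funext h
        rw [Pi.mul_apply, hker h h.2, hβ1, one_mul]
      refine ⟨hres, ?_⟩
      have h2 := hmult ψ
      rw [hres, classInner_smul_left, irr_inner_self ⟨θ, hθ⟩, mul_one] at h2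
      have h3 := congrArg (starRingEnd ℂ) h2
      rw [Complex.conj_conj, Complex.conj_natCast] at h3
      exact h3.symm
    · rw [if_neg hker, zero_smul, zero_mul, classInner_zero_left] at hβ
      exact absurd rfl hβ
  -- the set `C`
  set C₀ : Finset (IrrCharacter T) := Finset.univ.filter (fun ψ => classInner Φ ψ.1 ≠ 0) with hC₀
  have hinjval : Function.Injective (fun ψ : IrrCharacter T => (ψ.1 : T → ℂ)) :=
    fun a b h => Subtype.ext h
  have hΦexp : Φ = (e : ℂ) • ∑ ψ ∈ C₀, ψ.1 := by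
    have h := classFunction_eq_finsum hΦcf
    rw [finsum_irr_eq_sum] at h
    rw [Finset.smul_sum, hC₀, Finset.sum_filter]
    conv_lhs => rw [h]
    refine Finset.sum_congr rfl fun ψ _ => ?_
    by_cases hψ : classInner Φ ψ.1 = 0
    · rw [if_neg (not_not.mpr hψ), hψ, zero_smul]
    · rw [if_pos hψ, (hall ψ hψ).2]
  refine ⟨e, C₀.image (fun ψ : IrrCharacter T => (ψ.1 : T → ℂ)), Nat.pos_of_ne_zero he0, ?_, ?_, ?_⟩
  · intro ψ hψ
    obtain ⟨ψ', hψ', rfl⟩ := Finset.mem_image.mp hψ
    rw [hC₀, Finset.mem_filter] at hψ'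
    exact ⟨ψ'.2, (hall ψ' hψ'.2).1⟩
  · rw [Finset.sum_image (fun a _ b _ h => hinjval h)]
    exact hΦexp
  · rw [Finset.card_image_of_injective _ hinjval]
    -- degrees
    have hdeg : Φ 1 = (e : ℂ) * (C₀.card : ℂ) * ((e : ℂ) * θ 1) := by
      conv_lhs => rw [hΦexp]
      rw [Pi.smul_apply, Finset.sum_apply, smul_eq_mul]
      have : ∀ ψ ∈ C₀, (ψ.1 : T → ℂ) 1 = (e : ℂ) * θ 1 := by
        intro ψ hψ
        rw [hC₀, Finset.mem_filter] at hψ
        have := congrFun (hall ψ hψ.2).1 1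
        simp only [OneMemClass.coe_one, Pi.smul_apply, smul_eq_mul] at this
        exact this
      rw [Finset.sum_congr rfl this, Finset.sum_const, nsmul_eq_mul]
      ring
    rw [hΦ1] at hdeg
    have h2 : (H.index : ℂ) = ((e ^ 2 * C₀.card : ℕ) : ℂ) := by
      push_cast
      have h3 : ((H.index : ℂ) - (e : ℂ) ^ 2 * (C₀.card : ℂ)) * θ 1 = 0 := by
        linear_combination hdeg
      rcases mul_eq_zero.mp h3 with h | h
      · exact sub_eq_zero.mp h
      · exact absurd h hθ1
    have h4 : H.index = e ^ 2 * C₀.card := by exact_mod_cast h2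
    rw [← h4]
    exact Subgroup.index_mul_card H

end AbInv

/-- Linearity of induction over a scaled finite sum. -/
theorem indFun_smul_sum {G : Type u} [Group G] [Fintype G] (A : Subgroup G) {ι : Type*}
    (s : Finset ι) (c : ℂ) (f : ι → A → ℂ) :
    indFun A (c • ∑ i ∈ s, f i) = c • ∑ i ∈ s, indFun A (f i) := by
  classical
  funext g
  have hext : ∀ y : G, extendByZero A (c • ∑ i ∈ s, f i) y =
      c * ∑ i ∈ s, extendByZero A (f i) y := by
    intro y
    by_cases hy : y ∈ A
    · simp only [extendByZero_of_mem _ _ hy, Pi.smul_apply, Finset.sum_apply, smul_eq_mul]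
    · simp only [extendByZero_of_not_mem _ _ hy, Finset.sum_const_zero, mul_zero]
  simp only [indFun_apply, Pi.smul_apply, Finset.sum_apply, smul_eq_mul, hext]
  simp only [Finset.mul_sum]
  rw [Finset.sum_comm]
  refine Finset.sum_congr rfl fun i _ => ?_
  refine Finset.sum_congr rfl fun x _ => ?_
  ring

end Cfsg.Agent.H5
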