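import Cfsg.Agent.H88.AltFDefs

/-!
Piece S5165-GEN of the team project S5165 (helper88): every even element of the normalizer of the
base group is, up to some `dEl u`, a product of even `p`-elements of that normalizer (helper5).
-/

set_option autoImplicit false

namespace Cfsg.Agent.H5.AltF

open Cfsg Cfsg.Agent.H88.AltF

section aux

variable {I : Type} (E : Type) {p : ℕ}

theorem baseP_mul_fibP (τ : Equiv.Perm I) (f : I → ZMod p) :
    baseP E p τ * fibP E f = fibP E (f ∘ ⇑τ⁻¹) * baseP E p τ := by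
  ext (⟨i, x⟩ | e) <;> simp

theorem baseP_mul_diagP (τ : Equiv.Perm I) (b : I → (ZMod p)ˣ) :
    baseP E p τ * diagP E b = diagP E (b ∘ ⇑τ⁻¹) * baseP E p τ := by
  ext (⟨i, x⟩ | e) <;> simp

theorem baseP_pow (τ : Equiv.Perm I) (n : ℕ) : baseP E p (τ ^ n) = baseP E p τ ^ n := by
  induction n with
  | zero => rw [pow_zero, pow_zero, baseP_one]
  | succ n ih => rw [pow_succ, pow_succ, baseP_mul, ih]

theorem fibP_nsmul (n : ℕ) (f : I → ZMod p) : fibP E (n • f) = fibP E f ^ n := by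
  induction n with
  | zero => rw [zero_smul, pow_zero, fibP_zero]
  | succ n ih => rw [succ_nsmul, fibP_add, ih, pow_succ]

theorem fibP_pow_p (f : I → ZMod p) : fibP E f ^ p = 1 := by
  rw [← fibP_nsmul]
  have h : p • f = 0 := by
    funext i
    simp [nsmul_eq_mul]
  rw [h, fibP_zero]

theorem baseP_mem_normalizer (τ : Equiv.Perm I) :
    baseP E p τ ∈ Subgroup.normalizer ((baseB I E p : Subgroup (Equiv.Perm (Pt I E p))) :
      Set (Equiv.Perm (Pt I E p))) := by
  rw [Subgroup.mem_normalizer_iff]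
  intro h
  constructor
  · rintro ⟨f, rfl⟩
    refine ⟨f ∘ ⇑τ⁻¹, ?_⟩
    rw [baseP_mul_fibP, mul_inv_cancel_right]
  · rintro ⟨f', hf'⟩
    refine ⟨f' ∘ ⇑(τ⁻¹)⁻¹, ?_⟩
    have h1 : h = (baseP E p τ)⁻¹ * fibP E f' * baseP E p τ := by rw [hf']; group
    rw [h1, ← baseP_inv, baseP_mul_fibP, mul_assoc, ← baseP_mul, inv_mul_cancel, baseP_one,
      mul_one]

theorem sign_of_pow_eq_one {α : Type} [Fintype α] [DecidableEq α] {n : ℕ} (hn : Odd n)
    (y : Equiv.Perm α) (hy : y ^ n = 1) : Equiv.Perm.sign y = 1 := by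
  have h1 : Equiv.Perm.sign y ^ n = 1 := by rw [← map_pow, hy, map_one]
  rcases Int.units_eq_one_or (Equiv.Perm.sign y) with h | h
  · exact h
  · rw [h, Odd.neg_one_pow hn] at h1
    exact absurd h1 (by decide)

theorem exists_order_pow {α : Type} {n : ℕ} (hn : n.Prime)
    (y : Equiv.Perm α) (hy : y ^ n = 1) : ∃ k : ℕ, orderOf y = n ^ k := by
  rcases (Nat.dvd_prime hn).mp (orderOf_dvd_of_pow_eq_one hy) with h | h
  · exact ⟨0, by rw [h, pow_zero]⟩
  · exact ⟨1, by rw [h, pow_one]⟩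

theorem sign_baseP [Fintype I] [DecidableEq I] [Fintype E] [DecidableEq E] [NeZero p]
    (τ : Equiv.Perm I) : Equiv.Perm.sign (baseP E p τ) = Equiv.Perm.sign τ ^ p := by
  have h : baseP E p τ =
      Equiv.Perm.sumCongr (Equiv.prodCongrLeft fun _ : ZMod p => τ) (Equiv.refl E) := by
    ext (⟨i, x⟩ | e) <;> rfl
  rw [h, Equiv.Perm.sign_sumCongr, Equiv.Perm.sign_prodCongrLeft, Finset.prod_const,
    Finset.card_univ, ZMod.card, Equiv.Perm.sign_refl, mul_one]

theorem sign_dEl [Fintype I] [DecidableEq I] [Fintype E] [DecidableEq E] [NeZero p]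
    (j : ZMod p ↪ I) (u : (ZMod p)ˣ) : Equiv.Perm.sign (dEl E j u) = 1 := by
  unfold dEl
  rw [sign_sqP]
  have h : (Equiv.prodCongr (Units.mulLeft u⁻¹) (Units.mulLeft u) :
      Equiv.Perm (ZMod p × ZMod p)) =
      (Equiv.prodCongrLeft fun _ : ZMod p => (Units.mulLeft u⁻¹ : Equiv.Perm (ZMod p))) *
        (Equiv.prodCongrRight fun _ : ZMod p => (Units.mulLeft u : Equiv.Perm (ZMod p))) := by
    ext ⟨k, x⟩ <;> rfl
  have h2 : Equiv.Perm.sign (Units.mulLeft u⁻¹ : Equiv.Perm (ZMod p)) *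
      Equiv.Perm.sign (Units.mulLeft u : Equiv.Perm (ZMod p)) = 1 := by
    rw [← map_mul]
    have h3 : (Units.mulLeft u⁻¹ : Equiv.Perm (ZMod p)) * Units.mulLeft u = 1 := by
      ext x; simp
    rw [h3, map_one]
  rw [h, map_mul, Equiv.Perm.sign_prodCongrLeft, Equiv.Perm.sign_prodCongrRight,
    Finset.prod_const, Finset.prod_const, ← mul_pow, h2, one_pow]

theorem dEl_eq (j : ZMod p ↪ I) (u : (ZMod p)ˣ) (b : I → (ZMod p)ˣ)
    (h1 : ∀ k, b (j k) = u) (h0 : ∀ i, i ∉ Set.range j → b i = 1) :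
    dEl E j u = diagP E b *
      baseP E p ((Units.mulLeft u⁻¹ : Equiv.Perm (ZMod p)).viaEmbedding j) := by
  ext (⟨i, x⟩ | e)
  · by_cases hi : i ∈ Set.range j
    · obtain ⟨k, rfl⟩ := hi
      unfold dEl
      rw [sqP_apply, Equiv.Perm.mul_apply, baseP_inl, Equiv.Perm.viaEmbedding_apply, diagP_inl,
        h1]
      rfl
    · unfold dEl
      rw [sqP_apply_of_notMem E j _ i hi, Equiv.Perm.mul_apply, baseP_inl,
        Equiv.Perm.viaEmbedding_apply_of_notMem _ _ _ hi, diagP_inl, h0 i hi]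
      simp
  · unfold dEl
    rw [sqP_apply_inr]
    simp

theorem prod_b [Fintype I] [NeZero p] (j : ZMod p ↪ I) (u : (ZMod p)ˣ) (b : I → (ZMod p)ˣ)
    (h1 : ∀ k, b (j k) = u) (h0 : ∀ i, i ∉ Set.range j → b i = 1) : ∏ i, b i = u ^ p := by
  classical
  rw [← Finset.prod_subset (Finset.subset_univ (Finset.univ.map j)) (fun i _ hi => h0 i (by
      rintro ⟨k, hk⟩
      exact hi (Finset.mem_map.mpr ⟨k, Finset.mem_univ _, hk⟩))), Finset.prod_map]
  simp only [h1, Finset.prod_const, Finset.card_univ, ZMod.card]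

end aux

theorem gen (hN : StmtNormB) (hA : StmtAltGen) (hD : StmtDiagK) : StmtGen := by
  intro I E _ _ _ _ _ p _ hp2 hcard j g hg hsign
  classical
  haveI : NeZero p := ⟨(Fact.out : p.Prime).ne_zero⟩
  have hodd : Odd p := (Fact.out : p.Prime).odd_of_ne_two hp2
  obtain ⟨f, a, σ, rfl⟩ := hN I E p g hg
  obtain ⟨u, hu⟩ : ∃ u : (ZMod p)ˣ, u = (∏ i, a i)⁻¹ := ⟨_, rfl⟩
  obtain ⟨b, hb⟩ : ∃ b : I → (ZMod p)ˣ, b = fun i => if i ∈ Set.range j then u else 1 :=
    ⟨_, rfl⟩
  have hb1 : ∀ k, b (j k) = u := by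
    intro k; rw [hb]; exact if_pos ⟨k, rfl⟩
  have hb0 : ∀ i, i ∉ Set.range j → b i = 1 := by
    intro i hi; rw [hb]; exact if_neg hi
  obtain ⟨ρ, hρ⟩ : ∃ ρ : Equiv.Perm I,
      ρ = (Units.mulLeft u⁻¹ : Equiv.Perm (ZMod p)).viaEmbedding j := ⟨_, rfl⟩
  have hdEl : dEl E j u = diagP E b * baseP E p ρ := by
    rw [hρ]; exact dEl_eq E j u b hb1 hb0
  have hprod_b : ∏ i, b i = u ^ p := prod_b j u b hb1 hb0
  have hup : u ^ p = u := by
    have h := ZMod.units_pow_card_sub_one_eq_one p u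
    calc u ^ p = u ^ (p - 1 + 1) := by rw [Nat.sub_add_cancel (Fact.out : p.Prime).one_le]
      _ = u := by rw [pow_succ, h, one_mul]
  obtain ⟨a', ha'⟩ : ∃ a' : I → (ZMod p)ˣ, a' = a * (b ∘ ⇑σ⁻¹) := ⟨_, rfl⟩
  have hprod : ∏ i, a' i = 1 := by
    rw [ha']
    simp only [Pi.mul_apply, Function.comp_apply]
    rw [Finset.prod_mul_distrib, Equiv.prod_comp σ⁻¹ b, hprod_b, hup, hu, mul_inv_cancel]
  have key : fibP E f * diagP E a * baseP E p σ * dEl E j u =
      fibP E f * diagP E a' * baseP E p (σ * ρ) := by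
    rw [hdEl, ha', diagP_mul, baseP_mul]
    calc fibP E f * diagP E a * baseP E p σ * (diagP E b * baseP E p ρ)
        = fibP E f * diagP E a * (baseP E p σ * diagP E b) * baseP E p ρ := by group
      _ = fibP E f * diagP E a * (diagP E (b ∘ ⇑σ⁻¹) * baseP E p σ) * baseP E p ρ := by
          rw [baseP_mul_diagP]
      _ = fibP E f * (diagP E a * diagP E (b ∘ ⇑σ⁻¹)) * (baseP E p σ * baseP E p ρ) := by group
  refine ⟨u, ?_⟩
  rw [key]
  have hK_alt : ∀ y ∈ pGen p (baseB I E p), Equiv.Perm.sign y = 1 := by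
    intro y hy
    unfold pGen at hy
    induction hy using Subgroup.closure_induction with
    | mem y hy => exact hy.1
    | one => exact map_one _
    | mul x y _ _ hx hy => rw [map_mul, hx, hy, mul_one]
    | inv x _ hx => rw [map_inv, hx, inv_one]
  have hfib : fibP E f ∈ pGen p (baseB I E p) := by
    apply Subgroup.subset_closure
    have hpow : fibP E f ^ p = 1 := fibP_pow_p E f
    exact ⟨sign_of_pow_eq_one hodd _ hpow, Subgroup.le_normalizer (fibP_mem_baseB E f),
      exists_order_pow (Fact.out : p.Prime) _ hpow⟩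
  have hdiag : diagP E a' ∈ pGen p (baseB I E p) := hD I E p hp2 hcard a' hprod
  have hbase_mem : ∀ τ ∈ Subgroup.closure {c : Equiv.Perm I | orderOf c = p},
      baseP E p τ ∈ pGen p (baseB I E p) := by
    intro τ hτ
    induction hτ using Subgroup.closure_induction with
    | mem c hc =>
      apply Subgroup.subset_closure
      have hc' : orderOf c = p := hc
      have hpow : baseP E p c ^ p = 1 := by
        rw [← baseP_pow, ← hc', pow_orderOf_eq_one, baseP_one]
      exact ⟨sign_of_pow_eq_one hodd _ hpow, baseP_mem_normalizer E c,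
        exists_order_pow (Fact.out : p.Prime) _ hpow⟩
    | one => rw [baseP_one]; exact one_mem _
    | mul x y _ _ hx hy => rw [baseP_mul]; exact mul_mem hx hy
    | inv x _ hx => rw [baseP_inv]; exact inv_mem hx
  have hs1 : Equiv.Perm.sign (baseP E p (σ * ρ)) = 1 := by
    have h1 : Equiv.Perm.sign (fibP E f * diagP E a' * baseP E p (σ * ρ)) = 1 := by
      rw [← key, map_mul, hsign, sign_dEl, mul_one]
    rw [map_mul, map_mul, hK_alt _ hfib, hK_alt _ hdiag, one_mul, one_mul] at h1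
    exact h1
  have hs2 : Equiv.Perm.sign (σ * ρ) = 1 := by
    rw [sign_baseP] at hs1
    rcases Int.units_eq_one_or (Equiv.Perm.sign (σ * ρ)) with h | h
    · exact h
    · rw [h, Odd.neg_one_pow hodd] at hs1
      exact absurd hs1 (by decide)
  exact mul_mem (mul_mem hfib hdiag) (hbase_mem _ (hA I p hp2 hcard (σ * ρ) hs2))

end Cfsg.Agent.H5.AltF
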