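import Mathlib

/-!
# BRM-RSYL (team project S0996 / S4700, helper21)

An element `z` of prime order `p` whose centralizer is `zpowers z` generates a Sylow
`p`-subgroup.
-/

set_option autoImplicit false

namespace Cfsg.Agent.H5.BRM

theorem sylow_of_self_centralizing {G : Type*} [Group G] [Finite G] (p : ℕ) [Fact p.Prime]
    (z : G) (hz : orderOf z = p)
    (hC : Subgroup.centralizer ({z} : Set G) = Subgroup.zpowers z) :
    ∃ P : Sylow p G, (P : Subgroup G) = Subgroup.zpowers z := by
  classical
  have hp : p.Prime := Fact.out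
  have hcard : Nat.card (Subgroup.zpowers z) = p := by rw [Nat.card_zpowers, hz]
  have hpg : IsPGroup p (Subgroup.zpowers z) :=
    IsPGroup.of_card (n := 1) (by rw [hcard, pow_one])
  obtain ⟨Q, hQ⟩ := hpg.exists_le_sylow
  refine ⟨Q, le_antisymm ?_ hQ⟩
  have hzQ : z ∈ (Q : Subgroup G) := hQ (Subgroup.mem_zpowers z)
  have hz1 : z ≠ 1 := by
    intro h
    rw [h, orderOf_one] at hz
    exact hp.one_lt.ne' hz.symm
  have : Nontrivial (Q : Subgroup G) :=
    ⟨⟨⟨z, hzQ⟩, 1, fun h => hz1 (by simpa using congrArg Subtype.val h)⟩⟩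
  have hQp : IsPGroup p (Q : Subgroup G) := Q.isPGroup'
  have hcn : Nontrivial (Subgroup.center (Q : Subgroup G)) := hQp.center_nontrivial
  obtain ⟨⟨c, hc⟩, hcne⟩ := exists_ne (1 : Subgroup.center (Q : Subgroup G))
  have hcomm : ∀ q : G, ∀ hq : q ∈ (Q : Subgroup G), q * (c : G) = (c : G) * q := by
    intro q hq
    have h1 := Subgroup.mem_center_iff.mp hc ⟨q, hq⟩
    have h2 := congrArg Subtype.val h1
    simpa using h2
  have hcz : (c : G) ∈ Subgroup.zpowers z := by
    rw [← hC, Subgroup.mem_centralizer_singleton_iff]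
    exact (hcomm z hzQ).symm
  have hc1 : (c : G) ≠ 1 := by
    intro h
    apply hcne
    ext
    simpa using h
  have hoc : orderOf (c : G) = p := by
    have hdvd0 : orderOf (c : G) ∣ orderOf z := orderOf_dvd_of_mem_zpowers hcz
    have hdvd : orderOf (c : G) ∣ p := by
      have h := hdvd0
      rw [hz] at h
      exact h
    rcases (Nat.dvd_prime hp).mp hdvd with h1 | h1
    · exact absurd (orderOf_eq_one_iff.mp h1) hc1
    · exact h1
  have hcle : Subgroup.zpowers (c : G) ≤ Subgroup.zpowers z := by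
    rw [Subgroup.zpowers_le]; exact hcz
  have heq : Subgroup.zpowers (c : G) = Subgroup.zpowers z := by
    apply Subgroup.eq_of_le_of_card_ge hcle
    rw [Nat.card_zpowers, Nat.card_zpowers, hoc, hz]
  have hzc : z ∈ Subgroup.zpowers (c : G) := heq ▸ Subgroup.mem_zpowers z
  obtain ⟨k, hk⟩ := Subgroup.mem_zpowers_iff.mp hzc
  intro q hq
  rw [← hC, Subgroup.mem_centralizer_singleton_iff, ← hk]
  have hcq : Commute q (c : G) := hcomm q hq
  exact (hcq.zpow_right k).eq

end Cfsg.Agent.H5.BRM
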