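import Mathlib
import Cfsg.Prelude.Def_Blocks
import Cfsg.Prelude.Def_OddOrderLocal
import Cfsg.Agent.H20.FirstMain
import Cfsg.Agent.H20.LocalChar
import Cfsg.Agent.H20.SecondMain3
import Cfsg.Agent.H79.ExtFirstMain
import Cfsg.Agent.H84.ThirdMain
import Cfsg.Agent.H80.MaxConj2
import Cfsg.Agent.H80.EqvIrr
import Cfsg.Agent.Lib.Clifford
import Cfsg.Agent.Lib.Helper30.PiCore

/-!
# helper5: kernels of blocks along block induction

`icc f ξ` is the induced central character of a function `ξ` on `H` along a homomorphism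
`f : H →* X`; `IndVia M f ξ χ` says it is congruent to the central character of `χ`.

* `IndVia.trans` : transitivity.
* `ker_iff` : if `IndVia M f ξ χ` for irreducible `ξ`, `χ`, `f` injective and `K` a normal
  subgroup of `X` of order prime to `p`, then `χ` is trivial on `K` iff `ξ` is trivial on the
  preimage of `K`.
-/

set_option autoImplicit false
set_option linter.unusedSectionVars false
set_option linter.style.haveILetI false
set_option linter.unusedVariables false

namespace Cfsg.Agent.H5.BlockKer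

open Cfsg Cfsg.Agent.H20 Cfsg.Agent.H4

universe u

variable {p : ℕ} [Fact p.Prime] {M : Ideal AlgInt}

section Icc

variable {H X G : Type u} [Group H] [Fintype H] [Group X] [Fintype X] [Group G] [Fintype G]

open scoped Classical in
/-- Induced central character along a homomorphism. -/
noncomputable def icc (f : H →* X) (ξ : H → ℂ) (x : X) : ℂ :=
  ∑ h : H, if IsConj x (f h) then ξ h / ξ 1 else 0

/-- `ξ` on `H` induces (the block of) `χ` on `X` along `f`. -/
def IndVia (M : Ideal AlgInt) (f : H →* X) (ξ : H → ℂ) (χ : X → ℂ) : Prop :=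
  ∀ x : X, MemLocalIdeal M (icc f ξ x - centralChar χ x)

theorem icc_subtype (K : Subgroup X) [Fintype K] (ξ : K → ℂ) (x : X) :
    icc K.subtype ξ x = inducedCentralChar K ξ x := by
  classical
  rw [Cfsg.Agent.H79.inducedCentralChar_eq_sum_ite]
  rfl

open scoped Classical in
theorem icc_comp_equiv {H' : Type u} [Group H'] [Fintype H'] (e : H' ≃* H) (f : H →* X)
    (ξ : H → ℂ) (x : X) :
    icc (f.comp e.toMonoidHom) (fun h' => ξ (e h')) x = icc f ξ x := by
  unfold icc
  apply Fintype.sum_equiv e.toEquiv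
  intro y
  simp

open scoped Classical in
theorem icc_congr_conj (f f' : H →* X) (hff' : ∀ h, IsConj (f h) (f' h)) (ξ : H → ℂ) (x : X) :
    icc f ξ x = icc f' ξ x := by
  unfold icc
  apply Finset.sum_congr rfl
  intro h _
  have : IsConj x (f h) ↔ IsConj x (f' h) :=
    ⟨fun h1 => h1.trans (hff' h), fun h1 => h1.trans (hff' h).symm⟩
  simp only [this]

open scoped Classical in
/-- fibre sums of `ξ / ξ 1`. -/
noncomputable def fib (f : H →* X) (ξ : H → ℂ) (x : X) : ℂ :=
  ∑ h : H, if f h = x then ξ h / ξ 1 else 0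

open scoped Classical in
theorem sum_fib (f : H →* X) (ξ : H → ℂ) (S : Finset X) :
    ∑ x ∈ S, fib f ξ x = ∑ h : H, if f h ∈ S then ξ h / ξ 1 else 0 := by
  unfold fib
  rw [Finset.sum_comm]
  apply Finset.sum_congr rfl
  intro h _
  rw [Finset.sum_ite_eq]

open scoped Classical in
theorem sum_conjClosed_mem (hMp : M.IsPrime) (f : H →* X) (ξ : H → ℂ) (χ : X → ℂ)
    (hχ : IsClassFunction X χ) (h : IndVia M f ξ χ) (S : Finset X)
    (hS : ∀ x ∈ S, ∀ a : X, a * x * a⁻¹ ∈ S) :
    MemLocalIdeal M ((∑ h : H, if f h ∈ S then ξ h / ξ 1 else 0) - ∑ x ∈ S, χ x / χ 1) := by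
  have key := Cfsg.Agent.H84.sum_mem_of_class_sums (localIdeal M hMp)
    (fun x => fib f ξ x - χ x / χ 1) ?_ S hS
  · rw [Finset.sum_sub_distrib, sum_fib] at key
    exact key
  · intro x
    rw [Finset.sum_sub_distrib, sum_fib]
    have e1 : (∑ h : H, if f h ∈ Finset.univ.filter (fun y => IsConj x y) then ξ h / ξ 1 else 0)
        = icc f ξ x := by
      unfold icc
      apply Finset.sum_congr rfl
      intro h _
      simp only [Finset.mem_filter, Finset.mem_univ, true_and]
    have e2 : ∑ y ∈ Finset.univ.filter (fun y => IsConj x y), χ y / χ 1 = centralChar χ x := by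
      rw [← Finset.sum_div, Cfsg.Agent.H84.sum_conj_class hχ]
      rfl
    rw [e1, e2]
    exact h x

open scoped Classical in
theorem icc_comp_sub_mem (hMp : M.IsPrime) (f : H →* X) (g : X →* G) (ξ : H → ℂ) (χ : X → ℂ)
    (hχ : IsClassFunction X χ) (h : IndVia M f ξ χ) (y : G) :
    MemLocalIdeal M (icc (g.comp f) ξ y - icc g χ y) := by
  have key := sum_conjClosed_mem hMp f ξ χ hχ h (Finset.univ.filter (fun x => IsConj y (g x))) ?_
  · have e1 : (∑ h : H, if f h ∈ Finset.univ.filter (fun x => IsConj y (g x))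
        then ξ h / ξ 1 else 0) = icc (g.comp f) ξ y := by
      unfold icc
      apply Finset.sum_congr rfl
      intro h _
      simp only [Finset.mem_filter, Finset.mem_univ, true_and, MonoidHom.comp_apply]
    have e2 : ∑ x ∈ Finset.univ.filter (fun x => IsConj y (g x)), χ x / χ 1 = icc g χ y := by
      unfold icc
      rw [Finset.sum_filter]
    rw [e1, e2] at key
    exact key
  · intro x hx a
    rw [Finset.mem_filter] at hx ⊢
    refine ⟨Finset.mem_univ _, ?_⟩
    rw [map_mul, map_mul, map_inv]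
    exact hx.2.trans (isConj_iff.mpr ⟨g a, rfl⟩)

theorem IndVia.trans (hMp : M.IsPrime) {f : H →* X} {g : X →* G} {ξ : H → ℂ} {χ : X → ℂ}
    {χ₀ : G → ℂ} (hχ : IsClassFunction X χ) (h1 : IndVia M f ξ χ) (h2 : IndVia M g χ χ₀) :
    IndVia M (g.comp f) ξ χ₀ := fun y => by
  have := memLocalIdeal_add hMp (icc_comp_sub_mem hMp f g ξ χ hχ h1 y) (h2 y)
  convert this using 1
  ring

/-- Conversely: from the composite and the first step, get the second step. -/
theorem IndVia.of_comp (hMp : M.IsPrime) {f : H →* X} {g : X →* G} {ξ : H → ℂ} {χ : X → ℂ}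
    {χ₀ : G → ℂ} (hχ : IsClassFunction X χ) (h1 : IndVia M f ξ χ)
    (h2 : IndVia M (g.comp f) ξ χ₀) : IndVia M g χ χ₀ := fun y => by
  have := memLocalIdeal_sub hMp (h2 y) (icc_comp_sub_mem hMp f g ξ χ hχ h1 y)
  convert this using 1
  ring

open scoped Classical in
theorem icc_id (χ : X → ℂ) (hχ : IsClassFunction X χ) (x : X) :
    icc (MonoidHom.id X) χ x = centralChar χ x := by
  unfold icc
  simp only [MonoidHom.id_apply]
  rw [← Finset.sum_filter, ← Finset.sum_div, Cfsg.Agent.H84.sum_conj_class hχ]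
  rfl

theorem indVia_id_of_sameBlock (χ χ' : X → ℂ) (hχ : IsClassFunction X χ)
    (h : SameBlock M χ χ') : IndVia M (MonoidHom.id X) χ χ' := fun x => by
  rw [icc_id χ hχ]
  exact h x

open scoped Classical in
theorem sum_normal_mem (hMp : M.IsPrime) (f : H →* X) (ξ : H → ℂ) (χ : X → ℂ)
    (hχ : IsClassFunction X χ) (h : IndVia M f ξ χ) (K : Subgroup X) [K.Normal] :
    MemLocalIdeal M ((∑ h : H, if f h ∈ K then ξ h / ξ 1 else 0)
      - ∑ x : X, if x ∈ K then χ x / χ 1 else 0) := by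
  have key := sum_conjClosed_mem hMp f ξ χ hχ h (Finset.univ.filter (fun x => x ∈ K)) ?_
  · have e1 : (∑ h : H, if f h ∈ Finset.univ.filter (fun x => x ∈ K)
        then ξ h / ξ 1 else 0) = ∑ h : H, if f h ∈ K then ξ h / ξ 1 else 0 := by
      apply Finset.sum_congr rfl
      intro h _
      simp only [Finset.mem_filter, Finset.mem_univ, true_and]
    rw [e1, Finset.sum_filter] at key
    exact key
  · intro x hx a
    rw [Finset.mem_filter] at hx ⊢
    exact ⟨Finset.mem_univ _, Subgroup.Normal.conj_mem inferInstance x hx.2 a⟩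

end Icc

section Ker

variable {H X : Type u} [Group H] [Fintype H] [Group X] [Fintype X]

open scoped Classical in
theorem sum_subgroup_eq (K : Subgroup X) [Fintype K] (F : X → ℂ) :
    ∑ k : K, F k = ∑ x : X, if x ∈ K then F x else 0 := by
  rw [← Finset.sum_filter]
  exact (Finset.sum_subtype (Finset.univ.filter (· ∈ K)) (by simp) F).symm

open scoped Classical in
theorem sum_ite_mem_one (K : Subgroup X) :
    ∑ x : X, (if x ∈ K then (1 : ℂ) else 0) = (Nat.card K : ℂ) := by
  letI : Fintype K := Fintype.ofFinite _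
  rw [← sum_subgroup_eq K (fun _ => (1 : ℂ))]
  simp [Nat.card_eq_fintype_card]

open scoped Classical in
/-- An irreducible character either is trivial on a normal subgroup or sums to zero on it. -/
theorem trivial_or_sum_eq_zero (χ : IrrCharacter X) (K : Subgroup X) [K.Normal] :
    (∀ k ∈ K, χ.1 k = χ.1 1) ∨ ∑ x : X, (if x ∈ K then χ.1 x else 0) = 0 := by
  letI : Fintype K := Fintype.ofFinite _
  by_cases h0 : ∑ x : X, (if x ∈ K then χ.1 x else 0) = 0
  · exact Or.inr h0
  left
  have hone : IsIrrCharacter K (fun _ => (1 : ℂ)) := Cfsg.Agent.H80.isIrrCharacter_one K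
  have h1 : classInner (fun n : K => χ.1 n) (fun _ => (1 : ℂ)) ≠ 0 := by
    unfold classInner
    simp only [map_one, mul_one]
    rw [sum_subgroup_eq K χ.1]
    apply mul_ne_zero _ h0
    apply inv_ne_zero
    exact_mod_cast Nat.card_pos.ne'
  have hcl := Cfsg.Agent.Clifford.clifford_res (N := K) χ.2 hone h1
  have hset : {ψ : K → ℂ | ∃ g : X, ψ = Cfsg.Agent.Clifford.conjChar K (fun _ => (1 : ℂ)) g}
      = {fun _ => (1 : ℂ)} := by
    ext ψ
    constructor
    · rintro ⟨g, rfl⟩
      rfl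
    · intro hψ
      exact ⟨1, hψ⟩
  rw [hset, finsum_mem_singleton] at hcl
  intro k hk
  have e1 := congrFun hcl ⟨k, hk⟩
  have e2 := congrFun hcl ⟨1, K.one_mem⟩
  simp only [Pi.smul_apply, smul_eq_mul, mul_one] at e1 e2
  rw [e1, e2]

open scoped Classical in
/-- Kernel transfer along block induction. -/
theorem ker_iff (hM : IsPModular p M) (f : H →* X) (hf : Function.Injective f)
    (ξ : IrrCharacter H) (χ : IrrCharacter X) (h : IndVia M f ξ.1 χ.1) (K : Subgroup X)
    [K.Normal] (hK : ¬ p ∣ Nat.card K) :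
    (∀ k ∈ K, χ.1 k = χ.1 1) ↔ (∀ h : H, f h ∈ K → ξ.1 h = ξ.1 1) := by
  have hMp := isPrime_of_isPModular hM
  have key := sum_normal_mem hMp f ξ.1 χ.1 (irr_isClassFunction χ) h K
  have hξ1 := irr_one_ne_zero ξ
  have hχ1 := irr_one_ne_zero χ
  have hK' : ¬ p ∣ Nat.card (K.comap f) := by
    intro hdvd
    apply hK
    have e1 : Nat.card ((K.comap f).map f) = Nat.card (K.comap f) :=
      Subgroup.card_map_of_injective hf
    rw [← e1] at hdvd
    exact dvd_trans hdvd (Subgroup.card_dvd_of_le (Subgroup.map_comap_le f K))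
  have triv_sum_χ : (∀ k ∈ K, χ.1 k = χ.1 1) →
      ∑ x : X, (if x ∈ K then χ.1 x / χ.1 1 else 0) = (Nat.card K : ℂ) := by
    intro ht
    rw [← sum_ite_mem_one K]
    apply Finset.sum_congr rfl
    intro x _
    by_cases hx : x ∈ K
    · rw [if_pos hx, if_pos hx, ht x hx, div_self hχ1]
    · rw [if_neg hx, if_neg hx]
  have triv_sum_ξ : (∀ h : H, f h ∈ K → ξ.1 h = ξ.1 1) →
      ∑ h : H, (if f h ∈ K then ξ.1 h / ξ.1 1 else 0) = (Nat.card (K.comap f) : ℂ) := by
    intro ht
    rw [← sum_ite_mem_one (K.comap f)]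
    apply Finset.sum_congr rfl
    intro x _
    by_cases hx : f x ∈ K
    · rw [if_pos hx, if_pos (show x ∈ K.comap f from hx), ht x hx, div_self hξ1]
    · rw [if_neg hx, if_neg (show ¬ x ∈ K.comap f from hx)]
  have zero_sum_χ : ¬ (∀ k ∈ K, χ.1 k = χ.1 1) →
      ∑ x : X, (if x ∈ K then χ.1 x / χ.1 1 else 0) = 0 := by
    intro hnt
    rcases trivial_or_sum_eq_zero χ K with h1 | h1
    · exact absurd h1 hnt
    · have : ∑ x : X, (if x ∈ K then χ.1 x / χ.1 1 else 0)
          = (∑ x : X, (if x ∈ K then χ.1 x else 0)) / χ.1 1 := by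
        rw [Finset.sum_div]
        apply Finset.sum_congr rfl
        intro x _
        split_ifs <;> simp
      rw [this, h1, zero_div]
  have zero_sum_ξ : ¬ (∀ h : H, f h ∈ K → ξ.1 h = ξ.1 1) →
      ∑ h : H, (if f h ∈ K then ξ.1 h / ξ.1 1 else 0) = 0 := by
    intro hnt
    rcases trivial_or_sum_eq_zero ξ (K.comap f) with h1 | h1
    · exact absurd (fun h hh => h1 h hh) hnt
    · have : ∑ h : H, (if f h ∈ K then ξ.1 h / ξ.1 1 else 0)
          = (∑ h : H, (if h ∈ K.comap f then ξ.1 h else 0)) / ξ.1 1 := by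
        rw [Finset.sum_div]
        apply Finset.sum_congr rfl
        intro x _
        by_cases hx : f x ∈ K
        · rw [if_pos hx, if_pos (show x ∈ K.comap f from hx)]
        · rw [if_neg hx, if_neg (show ¬ x ∈ K.comap f from hx), zero_div]
      rw [this, h1, zero_div]
  constructor
  · intro hχ
    by_contra hnt
    rw [triv_sum_χ hχ, zero_sum_ξ hnt, zero_sub] at key
    have := memLocalIdeal_neg key
    rw [neg_neg] at this
    exact hK ((memLocalIdeal_natCast_iff hM _).mp this)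
  · intro hξ
    by_contra hnt
    rw [triv_sum_ξ hξ, zero_sum_χ hnt, sub_zero] at key
    exact hK' ((memLocalIdeal_natCast_iff hM _).mp key)

/-- Characters in one block are simultaneously trivial on a normal `p'`-subgroup. -/
theorem ker_iff_of_sameBlock (hM : IsPModular p M) (χ χ' : IrrCharacter X)
    (h : SameBlock M χ.1 χ'.1) (K : Subgroup X) [K.Normal] (hK : ¬ p ∣ Nat.card K) :
    (∀ k ∈ K, χ'.1 k = χ'.1 1) ↔ (∀ k ∈ K, χ.1 k = χ.1 1) := by
  have := ker_iff hM (MonoidHom.id X) Function.injective_id χ χ'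
    (indVia_id_of_sameBlock χ.1 χ'.1 (irr_isClassFunction χ) h) K hK
  simpa using this

end Ker

section PiCore

variable {H X : Type u} [Group H] [Finite H] [Group X] [Finite X]

/-- the preimage of `O_π` under an injective hom lies in `O_π`. -/
theorem mem_piCore_of_map_mem (π : Set ℕ) (f : H →* X) (hf : Function.Injective f) (h : H)
    (hh : f h ∈ piCore π X) : h ∈ piCore π H := by
  have hn : ((piCore π X).comap f).Normal := inferInstance
  have hπ : Cfsg.Agent.Lib.Helper30.IsPi π ((piCore π X).comap f) := by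
    intro q hq hdvd
    have e1 : Nat.card (((piCore π X).comap f).map f) = Nat.card ((piCore π X).comap f) :=
      Subgroup.card_map_of_injective hf
    rw [← e1] at hdvd
    exact Cfsg.Agent.Lib.Helper30.piCore_isPi π q hq
      (dvd_trans hdvd (Subgroup.card_dvd_of_le (Subgroup.map_comap_le f _)))
  exact Cfsg.Agent.Lib.Helper30.le_piCore hn hπ hh

/-- `O_π` is preserved by isomorphisms. -/
theorem map_mem_piCore_equiv (π : Set ℕ) (e : H ≃* X) (h : H) (hh : h ∈ piCore π H) :
    e h ∈ piCore π X := by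
  apply mem_piCore_of_map_mem π e.symm.toMonoidHom e.symm.injective
  simpa using hh

theorem not_dvd_card_piCore (π : Set ℕ) (hpπ : p ∈ π) :
    ¬ p ∣ Nat.card (piCore {q | q ∉ π} X) := fun hdvd =>
  Cfsg.Agent.Lib.Helper30.piCore_isPi {q | q ∉ π} p (Fact.out) hdvd hpπ

end PiCore

section PiCoreOf

variable {G : Type u} [Group G] [Finite G]

open Cfsg.Agent.Lib.Helper30 in
/-- `O_π(C)` is normalized by `N_G(C)`. -/
theorem normalizer_le_normalizer_piCoreOf (π : Set ℕ) (C : Subgroup G) :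
    Subgroup.normalizer (C : Set G) ≤ Subgroup.normalizer (piCoreOf π C : Set G) := by
  rw [Subgroup.le_normalizer_iff]
  intro n hn k hk
  have hL'C : (piCoreOf π C).map (MulAut.conj n).toMonoidHom ≤ C := by
    rintro _ ⟨a, ha, rfl⟩
    exact (Subgroup.mem_normalizer_iff.mp hn a).mp (piCoreOf_le π C ha)
  have hCn : C ≤ Subgroup.normalizer
      (((piCoreOf π C).map (MulAut.conj n).toMonoidHom : Subgroup G) : Set G) := by
    rw [Subgroup.le_normalizer_iff]
    rintro c hc _ ⟨a, ha, rfl⟩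
    refine ⟨n⁻¹ * c * n * a * (n⁻¹ * c * n)⁻¹, ?_, ?_⟩
    · have hc' : n⁻¹ * c * n ∈ C := by
        have := (Subgroup.mem_normalizer_iff.mp (inv_mem hn) c).mp hc
        simpa using this
      exact (Subgroup.le_normalizer_iff.mp (le_normalizer_piCoreOf π C)) _ hc' a ha
    · show n * (n⁻¹ * c * n * a * (n⁻¹ * c * n)⁻¹) * n⁻¹ = c * (n * a * n⁻¹) * c⁻¹
      group
  have hπ : IsPi π ((piCoreOf π C).map (MulAut.conj n).toMonoidHom) := by
    intro q hq hdvd
    rw [Subgroup.card_map_of_injective (MulAut.conj n).injective] at hdvd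
    exact piCoreOf_isPi π C q hq hdvd
  exact le_piCoreOf hL'C hCn hπ ⟨k, hk, rfl⟩

open Cfsg.Agent.Lib.Helper30 in
/-- For a normal `p`-subgroup `P` of `Y` (with `p ∈ π`) and an embedding `f : Y → G` whose image
contains `C_G(f P)`: `f` maps `O_π'(Y)` into `O_π'(N_G(f P))`. -/
theorem map_piCore_mem_piCoreOf_normalizer {Y : Type u} [Group Y] [Finite Y] (π : Set ℕ)
    (hpπ : p ∈ π) (f : Y →* G) (hf : Function.Injective f) (P : Subgroup Y) [P.Normal]
    (hP : IsPGroup p P)
    (hC : Subgroup.centralizer ((P.map f : Subgroup G) : Set G) ≤ f.range) (y : Y)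
    (hy : y ∈ piCore {q | q ∉ π} Y) :
    f y ∈ piCoreOf {q | q ∉ π} (Subgroup.normalizer ((P.map f : Subgroup G) : Set G)) := by
  classical
  letI : Fintype G := Fintype.ofFinite G
  have hLπ : IsPi {q | q ∉ π} ((piCore {q | q ∉ π} Y).map f) := by
    intro q hq hdvd
    rw [Subgroup.card_map_of_injective hf] at hdvd
    exact piCore_isPi _ q hq hdvd
  have hdisj : Disjoint (piCore {q | q ∉ π} Y) P := by
    rw [disjoint_iff]
    apply Subgroup.inf_eq_bot_of_coprime
    obtain ⟨k, hk⟩ := IsPGroup.iff_card.mp hP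
    rw [hk]
    apply Nat.Coprime.pow_right
    rw [Nat.coprime_comm, Nat.Prime.coprime_iff_not_dvd Fact.out]
    exact not_dvd_card_piCore π hpπ
  have hLC : (piCore {q | q ∉ π} Y).map f ≤ Subgroup.centralizer ((P.map f : Subgroup G) : Set G) := by
    rintro _ ⟨a, ha, rfl⟩
    rw [Subgroup.mem_centralizer_iff]
    rintro _ ⟨b, hb, rfl⟩
    have hcomm := Subgroup.commute_of_normal_of_disjoint (piCore {q | q ∉ π} Y) P inferInstance
      inferInstance hdisj a b ha hb
    rw [← map_mul, ← map_mul, hcomm.eq]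
  have hCnL : Subgroup.centralizer ((P.map f : Subgroup G) : Set G)
      ≤ Subgroup.normalizer (((piCore {q | q ∉ π} Y).map f : Subgroup G) : Set G) := by
    rw [Subgroup.le_normalizer_iff]
    rintro c hc _ ⟨a, ha, rfl⟩
    obtain ⟨b, rfl⟩ := hC hc
    exact ⟨b * a * b⁻¹, (piCore_normal _ Y).conj_mem a ha b, by simp⟩
  have h1 := le_piCoreOf hLC hCnL hLπ
  have h2 : piCoreOf {q | q ∉ π} (Subgroup.centralizer ((P.map f : Subgroup G) : Set G))
      ≤ piCoreOf {q | q ∉ π} (Subgroup.normalizer ((P.map f : Subgroup G) : Set G)) := by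
    apply le_piCoreOf ((piCoreOf_le _ _).trans (Subgroup.centralizer_le_normalizer _))
    · refine le_trans ?_ (normalizer_le_normalizer_piCoreOf _ _)
      rw [Subgroup.le_normalizer_iff]
      intro n hn c hc
      exact conj_mem_centralizer_of_normalizer (P.map f) hn hc
    · exact piCoreOf_isPi _ _
  exact h2 (h1 ⟨y, hy, rfl⟩)

end PiCoreOf

section Up

variable {G : Type u} [Group G] [Fintype G]

theorem map_mem_normalizer_map {Y : Type u} [Group Y] (f : Y →* G) (P : Subgroup Y) [P.Normal]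
    (y : Y) : f y ∈ Subgroup.normalizer ((P.map f : Subgroup G) : Set G) := by
  have h : f.range ≤ Subgroup.normalizer ((P.map f : Subgroup G) : Set G) := by
    rw [Subgroup.le_normalizer_iff]
    rintro _ ⟨a, rfl⟩ _ ⟨b, hb, rfl⟩
    exact ⟨a * b * a⁻¹, Subgroup.Normal.conj_mem inferInstance b hb a, by simp⟩
  exact h ⟨y, rfl⟩

open scoped Classical in
/-- **Up-step.**  Let `f : Y → G` be an embedding, `P` a normal `p`-subgroup of `Y` such that
`C_G(f P) ≤ f Y`.  Every irreducible character of `Y` induces, along `f`, a block of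
`N_G(f P)`. -/
theorem exists_indVia_normalizer (hM : IsPModular p M) {Y : Type u} [Group Y] [Fintype Y]
    (f : Y →* G) (hf : Function.Injective f) (P : Subgroup Y) [P.Normal] (hP : IsPGroup p P)
    (Q : Subgroup G) (hQ : Q = P.map f)
    (hC : Subgroup.centralizer (Q : Set G) ≤ f.range)
    [Fintype (Subgroup.normalizer (Q : Set G))]
    (hfN : ∀ y, f y ∈ Subgroup.normalizer (Q : Set G))
    (ξ : IrrCharacter Y) :
    ∃ χ₂ : IrrCharacter (Subgroup.normalizer (Q : Set G)),
      IndVia M (f.codRestrict (Subgroup.normalizer (Q : Set G)) hfN) ξ.1 χ₂.1 := by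
  have hMp := isPrime_of_isPModular hM
  obtain ⟨f', hf'⟩ : ∃ f' : Y →* Subgroup.normalizer (Q : Set G),
    f' = f.codRestrict (Subgroup.normalizer (Q : Set G)) hfN := ⟨_, rfl⟩
  rw [← hf']
  have hf'v : ∀ y, ((f' y : Subgroup.normalizer (Q : Set G)) : G) = f y := by
    intro y; rw [hf']; rfl
  have hf'inj : Function.Injective f' := fun a b hab => hf (by rw [← hf'v, ← hf'v, hab])
  letI : Fintype f'.range := Fintype.ofFinite _
  let e : Y ≃* f'.range := MonoidHom.ofInjective hf'inj
  let ξ₀ : IrrCharacter f'.range := Cfsg.Agent.H80.eqvIrr e ξ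
  have hQN : Q ≤ Subgroup.normalizer (Q : Set G) := Subgroup.le_normalizer
  have hP' : IsPGroup p (Q.subgroupOf (Subgroup.normalizer (Q : Set G))) := by
    rw [hQ]
    exact (hP.map f).comap_of_injective _ (Subgroup.subtype_injective _)
  have hPH : Q.subgroupOf (Subgroup.normalizer (Q : Set G)) ≤ f'.range := by
    intro n hn
    have hn' : (n : G) ∈ P.map f := by rw [← hQ]; exact Subgroup.mem_subgroupOf.mp hn
    obtain ⟨b, hb, hbn⟩ := hn'
    exact ⟨b, Subtype.ext (by rw [hf'v, hbn])⟩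
  have hCH : Subgroup.centralizer ((Q.subgroupOf (Subgroup.normalizer (Q : Set G)) :
      Subgroup (Subgroup.normalizer (Q : Set G))) : Set (Subgroup.normalizer (Q : Set G)))
      ≤ f'.range := by
    intro n hn
    have : (n : G) ∈ Subgroup.centralizer (Q : Set G) := by
      rw [Subgroup.mem_centralizer_iff] at hn ⊢
      intro q hq
      have := hn ⟨q, hQN hq⟩ (Subgroup.mem_subgroupOf.mpr hq)
      exact congrArg Subtype.val this
    obtain ⟨b, hb⟩ := hC this
    exact ⟨b, Subtype.ext (by rw [hf'v, hb])⟩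
  have hHN : f'.range ≤ Subgroup.normalizer ((Q.subgroupOf (Subgroup.normalizer (Q : Set G)) :
      Subgroup (Subgroup.normalizer (Q : Set G))) : Set (Subgroup.normalizer (Q : Set G))) := by
    haveI : (Q.subgroupOf (Subgroup.normalizer (Q : Set G))).Normal :=
      Subgroup.normal_in_normalizer
    exact le_of_le_of_eq le_top (Subgroup.normalizer_eq_top_iff.mpr inferInstance).symm
  obtain ⟨χ₂, hind, -⟩ := exists_isInducedBlock hM hP' hPH hCH hHN ξ₀
  refine ⟨χ₂, fun n => ?_⟩
  have h1 := hind.2.2 ξ₀ (Cfsg.Agent.H80.mem_blockOf_self hMp ξ₀) χ₂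
    (Cfsg.Agent.H80.mem_blockOf_self hMp χ₂) n
  rw [← icc_subtype] at h1
  have h2 : icc f'.range.subtype ξ₀.1 n = icc f' ξ.1 n := by
    rw [← icc_comp_equiv e f'.range.subtype ξ₀.1 n]
    have e1 : (fun h' => ξ₀.1 (e h')) = ξ.1 := by
      funext y
      show (Cfsg.Agent.H80.eqvIrr e ξ).1 (e y) = ξ.1 y
      rw [Cfsg.Agent.H80.eqvIrr_apply, MulEquiv.symm_apply_apply]
    have e2 : f'.range.subtype.comp e.toMonoidHom = f' := by
      ext y
      rfl
    rw [e1, e2]
  rw [h2] at h1
  exact h1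

end Up

section Transport

variable {G : Type u} [Group G] [Fintype G]

theorem exists_isDefectGroup (hM : IsPModular p M) (χ : IrrCharacter G) :
    ∃ D : Subgroup G, IsDefectGroup p M (blockOf M χ.1) D := by
  classical
  obtain ⟨k0, hk0⟩ := Cfsg.Agent.S0906.result p M hM _ ⟨χ, rfl⟩
  obtain ⟨Q⟩ : Nonempty (Sylow p (Subgroup.centralizer ({k0} : Set G))) := inferInstance
  exact ⟨_, k0, hk0, Q, rfl⟩

/-- conjugation isomorphism of normalizers -/
noncomputable def conjNormEquiv (D : Subgroup G) (x : G) :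
    ↥(Subgroup.normalizer (D : Set G)) ≃*
      ↥(Subgroup.normalizer ((D.map (MulAut.conj x).toMonoidHom : Subgroup G) : Set G)) :=
  ((MulAut.conj x).subgroupMap (Subgroup.normalizer (D : Set G))).trans
    (MulEquiv.subgroupCongr (Subgroup.map_equiv_normalizer_eq D (MulAut.conj x)))

theorem conjNormEquiv_coe (D : Subgroup G) (x : G) (n : ↥(Subgroup.normalizer (D : Set G))) :
    ((conjNormEquiv D x n : _) : G) = x * n * x⁻¹ := rfl

/-- **Transport to the Brauer correspondent.**  If `Q` is a second defect group of `B` and `χ₂`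
is an irreducible character of `N_G(Q)` inducing `B`, then some isomorphism
`φ : N_G(D) ≃ N_G(Q)` carries `χ₂` into the Brauer correspondent `B₁`. -/
theorem exists_equiv_sameBlock (hM : IsPModular p M) (χ₀ : IrrCharacter G) (D : Subgroup G)
    (hBD : IsDefectGroup p M (blockOf M χ₀.1) D)
    [Fintype (Subgroup.normalizer (D : Set G))]
    (ξ₁ : IrrCharacter (Subgroup.normalizer (D : Set G)))
    (hB₁ : IsInducedBlock M (Subgroup.normalizer (D : Set G)) (blockOf M ξ₁.1) (blockOf M χ₀.1))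
    (hB₁D : IsDefectGroup p M (blockOf M ξ₁.1) (D.subgroupOf (Subgroup.normalizer (D : Set G))))
    (Q : Subgroup G) (hQ : IsDefectGroup p M (blockOf M χ₀.1) Q)
    [Fintype (Subgroup.normalizer (Q : Set G))]
    (χ₂ : IrrCharacter (Subgroup.normalizer (Q : Set G)))
    (hχ₂ : IndVia M (Subgroup.normalizer (Q : Set G)).subtype χ₂.1 χ₀.1) :
    ∃ φ : ↥(Subgroup.normalizer (D : Set G)) ≃* ↥(Subgroup.normalizer (Q : Set G)),
      SameBlock M ξ₁.1 (fun n => χ₂.1 (φ n)) := by
  classical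
  have hMp := isPrime_of_isPModular hM
  obtain ⟨x, hx⟩ := Cfsg.Agent.H80.isDefectGroup_conj_eq p hM ⟨χ₀, rfl⟩ hBD hQ
  subst hx
  obtain ⟨φ, hφ⟩ : ∃ φ, φ = conjNormEquiv D x := ⟨_, rfl⟩
  obtain ⟨χ₂', hχ₂'⟩ : ∃ χ₂', χ₂' = Cfsg.Agent.H80.eqvIrr φ.symm χ₂ := ⟨_, rfl⟩
  have hval : χ₂'.1 = fun n => χ₂.1 (φ n) := by
    funext n
    rw [hχ₂', Cfsg.Agent.H80.eqvIrr_symm_apply]
  have hind' : IndVia M (Subgroup.normalizer (D : Set G)).subtype χ₂'.1 χ₀.1 := by
    intro g
    have h1 := hχ₂ g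
    rw [← icc_comp_equiv φ _ χ₂.1 g] at h1
    rw [icc_congr_conj _ (Subgroup.normalizer (D : Set G)).subtype (fun n =>
      isConj_iff.mpr ⟨x⁻¹, by
        show x⁻¹ * ((φ n : _) : G) * x⁻¹⁻¹ = (n : G)
        rw [hφ, conjNormEquiv_coe]
        group⟩)] at h1
    rw [hval]
    exact h1
  have hi2 := Cfsg.Agent.H79.isInducedBlock_of_congr hMp (Subgroup.normalizer (D : Set G)) χ₂' χ₀
    (fun g => by rw [← icc_subtype]; exact hind' g)
  have hu := first_main_unique hM D (isPGroup_of_isDefectGroup hBD) χ₀ ξ₁ χ₂' hB₁D hB₁ hi2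
  have hmem : χ₂' ∈ blockOf M ξ₁.1 := hu ▸ Cfsg.Agent.H80.mem_blockOf_self hMp χ₂'
  refine ⟨φ, ?_⟩
  rw [← hval]
  exact hmem

end Transport

section ClaimD

variable {G : Type u} [Group G] [Fintype G]

/-- If `Q` is not a defect group of `B` but a block of `N_G(Q)` induces `B`, the defect groups of
that block are strictly bigger than `Q`. -/
theorem card_lt_of_not_defect (hM : IsPModular p M) (χ₀ : IrrCharacter G) (Q : Subgroup G)
    (hQp : IsPGroup p Q) [Fintype (Subgroup.normalizer (Q : Set G))]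
    (χ₂ : IrrCharacter (Subgroup.normalizer (Q : Set G)))
    (hχ₂G : IndVia M (Subgroup.normalizer (Q : Set G)).subtype χ₂.1 χ₀.1)
    (hcase : ¬ IsDefectGroup p M (blockOf M χ₀.1) Q)
    (D₂ : Subgroup (Subgroup.normalizer (Q : Set G)))
    (hD₂ : IsDefectGroup p M (blockOf M χ₂.1) D₂) :
    Q.subgroupOf (Subgroup.normalizer (Q : Set G)) ≤ D₂ ∧ Nat.card Q < Nat.card D₂ := by
  classical
  have hMp := isPrime_of_isPModular hM
  haveI hQn : (Q.subgroupOf (Subgroup.normalizer (Q : Set G))).Normal :=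
    Subgroup.normal_in_normalizer
  have hQ'p : IsPGroup p (Q.subgroupOf (Subgroup.normalizer (Q : Set G))) :=
    hQp.comap_of_injective _ (Subgroup.subtype_injective _)
  have hQD₂ : Q.subgroupOf (Subgroup.normalizer (Q : Set G)) ≤ D₂ :=
    Cfsg.Agent.H79.normal_le_defectGroup hM _ hQ'p χ₂ D₂ hD₂
  refine ⟨hQD₂, ?_⟩
  have hcardQ : Nat.card (Q.subgroupOf (Subgroup.normalizer (Q : Set G))) = Nat.card Q :=
    Nat.card_congr (Subgroup.subgroupOfEquivOfLe Subgroup.le_normalizer).toEquiv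
  by_contra hnot
  push Not at hnot
  have heq : Q.subgroupOf (Subgroup.normalizer (Q : Set G)) = D₂ :=
    Subgroup.eq_of_le_of_card_ge hQD₂ (by rw [hcardQ]; exact hnot)
  rw [← heq] at hD₂
  obtain ⟨χ₀', hdef', hind'⟩ := first_main_i hM Q hQp χ₂ hD₂
  have hsb : SameBlock M χ₀.1 χ₀'.1 := fun g => by
    have h1 := hχ₂G g
    have h2 := hind'.2.2 χ₂ (Cfsg.Agent.H80.mem_blockOf_self hMp χ₂) χ₀'
      (Cfsg.Agent.H80.mem_blockOf_self hMp χ₀') g
    rw [← icc_subtype] at h2
    have := memLocalIdeal_sub hMp h2 h1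
    convert this using 1
    ring
  apply hcase
  rw [← Cfsg.Agent.H80.blockOf_eq_of_sameBlock hMp hsb]
  exact hdef'

/-- **Down-step**: pass to the Brauer correspondent in `N_X(D₂)`. -/
theorem down_step (hM : IsPModular p M) {X : Type u} [Group X] [Fintype X] (f : X →* G)
    (hf : Function.Injective f) (χ : IrrCharacter X) (χ₀ : G → ℂ) (hind : IndVia M f χ.1 χ₀)
    (D₂ : Subgroup X) (hD₂ : IsDefectGroup p M (blockOf M χ.1) D₂)
    (hCX : Subgroup.centralizer ((D₂.map f : Subgroup G) : Set G) ≤ f.range)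
    [Fintype (Subgroup.normalizer (D₂ : Set X))] :
    ∃ ξ₃ : IrrCharacter (Subgroup.normalizer (D₂ : Set X)),
      IndVia M (Subgroup.normalizer (D₂ : Set X)).subtype ξ₃.1 χ.1 ∧
      IndVia M (f.comp (Subgroup.normalizer (D₂ : Set X)).subtype) ξ₃.1 χ₀ ∧
      Subgroup.centralizer ((((D₂.subgroupOf (Subgroup.normalizer (D₂ : Set X))).map
        (f.comp (Subgroup.normalizer (D₂ : Set X)).subtype) : Subgroup G)) : Set G)
        ≤ (f.comp (Subgroup.normalizer (D₂ : Set X)).subtype).range := by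
  classical
  have hMp := isPrime_of_isPModular hM
  obtain ⟨ξ₃, -, hξ₃ind⟩ := first_main_exists hM D₂ (isPGroup_of_isDefectGroup hD₂) χ hD₂
  have hind3 : IndVia M (Subgroup.normalizer (D₂ : Set X)).subtype ξ₃.1 χ.1 := fun x => by
    rw [icc_subtype]
    exact hξ₃ind.2.2 ξ₃ (Cfsg.Agent.H80.mem_blockOf_self hMp ξ₃) χ
      (Cfsg.Agent.H80.mem_blockOf_self hMp χ) x
  refine ⟨ξ₃, hind3, IndVia.trans hMp (irr_isClassFunction χ) hind3 hind, ?_⟩
  have hmap : (D₂.subgroupOf (Subgroup.normalizer (D₂ : Set X))).map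
      (f.comp (Subgroup.normalizer (D₂ : Set X)).subtype) = D₂.map f := by
    rw [← Subgroup.map_map, Subgroup.map_subgroupOf_eq_of_le Subgroup.le_normalizer]
  rw [hmap]
  intro g hg
  obtain ⟨x, rfl⟩ := hCX hg
  have hx : x ∈ Subgroup.centralizer (D₂ : Set X) := by
    rw [Subgroup.mem_centralizer_iff] at hg ⊢
    intro d hd
    apply hf
    rw [map_mul, map_mul]
    exact hg (f d) ⟨d, hd, rfl⟩
  exact ⟨⟨x, Subgroup.centralizer_le_normalizer _ hx⟩, rfl⟩

/-- **Claim D**: descent of `O_π'` into kernels. -/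
theorem claimD (hM : IsPModular p M) (π : Set ℕ) (hpπ : p ∈ π) (χ₀ : IrrCharacter G)
    (D : Subgroup G) (hBD : IsDefectGroup p M (blockOf M χ₀.1) D)
    [Fintype (Subgroup.normalizer (D : Set G))]
    (ξ₁ : IrrCharacter (Subgroup.normalizer (D : Set G)))
    (hB₁ : IsInducedBlock M (Subgroup.normalizer (D : Set G)) (blockOf M ξ₁.1) (blockOf M χ₀.1))
    (hB₁D : IsDefectGroup p M (blockOf M ξ₁.1) (D.subgroupOf (Subgroup.normalizer (D : Set G))))
    (hker : ∀ n : ↥(Subgroup.normalizer (D : Set G)),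
      n ∈ piCore {q | q ∉ π} ↥(Subgroup.normalizer (D : Set G)) → n ∈ blockKer (blockOf M ξ₁.1)) :
    ∀ (m : ℕ) (X : Type u) [Group X] [Fintype X] (f : X →* G) (hf : Function.Injective f)
      (χ : IrrCharacter X) (hind : IndVia M f χ.1 χ₀.1) (P : Subgroup X) (hPn : P.Normal)
      (hP : IsPGroup p P)
      (hC : Subgroup.centralizer ((P.map f : Subgroup G) : Set G) ≤ f.range)
      (hm : Nat.card G - Nat.card P = m),
      ∀ x ∈ piCore {q | q ∉ π} X, χ.1 x = χ.1 1 := by
  classical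
  have hMp := isPrime_of_isPModular hM
  intro m
  induction m using Nat.strong_induction_on with
  | _ m ih =>
  intro X _ _ f hf χ hind P hPn hP hC hm
  haveI := hPn
  obtain ⟨Q, hQ⟩ : ∃ Q : Subgroup G, Q = P.map f := ⟨_, rfl⟩
  have hQp : IsPGroup p Q := by rw [hQ]; exact hP.map f
  have hcardQ : Nat.card Q = Nat.card P := by
    rw [hQ]; exact Subgroup.card_map_of_injective hf
  have hC' : Subgroup.centralizer (Q : Set G) ≤ f.range := by rw [hQ]; exact hC
  letI : Fintype (Subgroup.normalizer (Q : Set G)) := Fintype.ofFinite _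
  have hfN : ∀ y, f y ∈ Subgroup.normalizer (Q : Set G) := by
    rw [hQ]; exact map_mem_normalizer_map f P
  obtain ⟨χ₂, hχ₂⟩ := exists_indVia_normalizer hM f hf P hP Q hQ hC' hfN χ
  obtain ⟨f', hf'⟩ : ∃ f' : X →* Subgroup.normalizer (Q : Set G),
    f' = f.codRestrict _ hfN := ⟨_, rfl⟩
  rw [← hf'] at hχ₂
  have hcomp : (Subgroup.normalizer (Q : Set G)).subtype.comp f' = f := by
    rw [hf']; ext y; rfl
  have hf'v : ∀ y, ((f' y : Subgroup.normalizer (Q : Set G)) : G) = f y := by
    intro y; rw [hf']; rfl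
  have hf'inj : Function.Injective f' := fun a b hab => hf (by rw [← hf'v, ← hf'v, hab])
  have hχ₂G : IndVia M (Subgroup.normalizer (Q : Set G)).subtype χ₂.1 χ₀.1 :=
    IndVia.of_comp hMp (irr_isClassFunction χ₂) hχ₂ (by rw [hcomp]; exact hind)
  suffices hsuff : ∀ n ∈ piCore {q | q ∉ π} ↥(Subgroup.normalizer (Q : Set G)),
      χ₂.1 n = χ₂.1 1 by
    have h3 := (ker_iff hM f' hf'inj χ χ₂ hχ₂ (piCore {q | q ∉ π} _)
      (not_dvd_card_piCore π hpπ)).mp hsuff
    intro x hx
    apply h3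
    have h4 := map_piCore_mem_piCoreOf_normalizer π hpπ f hf P hP hC x hx
    rw [← hQ] at h4
    obtain ⟨n, hn, hnx⟩ := h4
    have hn' : n = f' x := Subtype.ext (by rw [hf'v]; exact hnx)
    rw [← hn']
    exact hn
  by_cases hcase : IsDefectGroup p M (blockOf M χ₀.1) Q
  · obtain ⟨φ, hφ⟩ := exists_equiv_sameBlock hM χ₀ D hBD ξ₁ hB₁ hB₁D Q hcase χ₂ hχ₂G
    intro n hn
    have hmem : (Cfsg.Agent.H80.eqvIrr φ.symm χ₂) ∈ blockOf M ξ₁.1 := hφ
    have h1 := hker (φ.symm n) (map_mem_piCore_equiv _ φ.symm n hn) _ hmem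
    rw [Cfsg.Agent.H80.eqvIrr_symm_apply, Cfsg.Agent.H80.eqvIrr_symm_apply,
      MulEquiv.apply_symm_apply, map_one] at h1
    exact h1
  · obtain ⟨D₂, hD₂⟩ := exists_isDefectGroup hM χ₂
    obtain ⟨hQD₂, hlt⟩ := card_lt_of_not_defect hM χ₀ Q hQp χ₂ hχ₂G hcase D₂ hD₂
    letI : Fintype (Subgroup.normalizer (D₂ : Set (Subgroup.normalizer (Q : Set G)))) :=
      Fintype.ofFinite _
    have hCX : Subgroup.centralizer ((D₂.map (Subgroup.normalizer (Q : Set G)).subtype :
        Subgroup G) : Set G) ≤ (Subgroup.normalizer (Q : Set G)).subtype.range := by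
      intro g hg
      have hgN : g ∈ Subgroup.normalizer (Q : Set G) := by
        apply Subgroup.centralizer_le_normalizer
        rw [Subgroup.mem_centralizer_iff] at hg ⊢
        intro q hq
        exact hg q ⟨⟨q, Subgroup.le_normalizer hq⟩, hQD₂ (Subgroup.mem_subgroupOf.mpr hq), rfl⟩
      exact ⟨⟨g, hgN⟩, rfl⟩
    obtain ⟨ξ₃, hind3, hind3G, hC3⟩ := down_step hM (Subgroup.normalizer (Q : Set G)).subtype
      (Subgroup.subtype_injective _) χ₂ χ₀.1 hχ₂G D₂ hD₂ hCX
    suffices hsuff2 : ∀ y ∈ piCore {q | q ∉ π}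
        ↥(Subgroup.normalizer (D₂ : Set (Subgroup.normalizer (Q : Set G)))), ξ₃.1 y = ξ₃.1 1 by
      exact (ker_iff hM _ (Subgroup.subtype_injective _) ξ₃ χ₂ hind3 (piCore {q | q ∉ π} _)
        (not_dvd_card_piCore π hpπ)).mpr (fun y hy => hsuff2 y
          (mem_piCore_of_map_mem _ _ (Subgroup.subtype_injective _) y hy))
    have hcard2 : Nat.card (D₂.subgroupOf (Subgroup.normalizer
        (D₂ : Set (Subgroup.normalizer (Q : Set G))))) = Nat.card D₂ :=
      Nat.card_congr (Subgroup.subgroupOfEquivOfLe Subgroup.le_normalizer).toEquiv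
    have hcardD₂ : Nat.card D₂ ≤ Nat.card G :=
      le_trans (Subgroup.card_le_card_group D₂) (Subgroup.card_le_card_group _)
    refine ih (Nat.card G - Nat.card (D₂.subgroupOf (Subgroup.normalizer
        (D₂ : Set (Subgroup.normalizer (Q : Set G)))))) (by rw [hcard2]; omega) _
      ((Subgroup.normalizer (Q : Set G)).subtype.comp (Subgroup.normalizer
        (D₂ : Set (Subgroup.normalizer (Q : Set G)))).subtype)
      ((Subgroup.subtype_injective _).comp (Subgroup.subtype_injective _)) ξ₃ hind3G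
      (D₂.subgroupOf (Subgroup.normalizer (D₂ : Set (Subgroup.normalizer (Q : Set G)))))
      Subgroup.normal_in_normalizer
      ((isPGroup_of_isDefectGroup hD₂).comap_of_injective _ (Subgroup.subtype_injective _))
      hC3 rfl

end ClaimD

section ClaimUp

variable {G : Type u} [Group G] [Fintype G]

theorem map_subgroupOf_normalizer_comp {X : Type u} [Group X] (f : X →* G) (D₂ : Subgroup X) :
    (D₂.subgroupOf (Subgroup.normalizer (D₂ : Set X))).map
      (f.comp (Subgroup.normalizer (D₂ : Set X)).subtype) = D₂.map f := by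
  rw [← Subgroup.map_map, Subgroup.map_subgroupOf_eq_of_le Subgroup.le_normalizer]

/-- Elements of `O_π'(N_G(Q))` centralize the `p`-group `Q` (`p ∈ π`) and are `π'`-elements. -/
theorem piCore_normalizer_centralizes (π : Set ℕ) (hpπ : p ∈ π) (Q : Subgroup G)
    (hQp : IsPGroup p Q) (n : ↥(Subgroup.normalizer (Q : Set G)))
    (hn : n ∈ piCore {q | q ∉ π} ↥(Subgroup.normalizer (Q : Set G))) :
    (n : G) ∈ Subgroup.centralizer (Q : Set G) ∧
      ∀ q : ℕ, q.Prime → q ∣ orderOf (n : G) → q ∉ π := by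
  classical
  haveI hQn : (Q.subgroupOf (Subgroup.normalizer (Q : Set G))).Normal :=
    Subgroup.normal_in_normalizer
  have hQ'p : IsPGroup p (Q.subgroupOf (Subgroup.normalizer (Q : Set G))) :=
    hQp.comap_of_injective _ (Subgroup.subtype_injective _)
  have hdisj : Disjoint (piCore {q | q ∉ π} ↥(Subgroup.normalizer (Q : Set G)))
      (Q.subgroupOf (Subgroup.normalizer (Q : Set G))) := by
    rw [disjoint_iff]
    apply Subgroup.inf_eq_bot_of_coprime
    obtain ⟨k, hk⟩ := IsPGroup.iff_card.mp hQ'p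
    rw [hk]
    apply Nat.Coprime.pow_right
    rw [Nat.coprime_comm, Nat.Prime.coprime_iff_not_dvd Fact.out]
    exact not_dvd_card_piCore π hpπ
  constructor
  · rw [Subgroup.mem_centralizer_iff]
    intro q hq
    have hcomm := Subgroup.commute_of_normal_of_disjoint _ _ inferInstance hQn hdisj n
      ⟨q, Subgroup.le_normalizer hq⟩ hn (Subgroup.mem_subgroupOf.mpr hq)
    exact (congrArg Subtype.val hcomm.eq).symm
  · intro q hq hdvd
    rw [Subgroup.orderOf_coe] at hdvd
    have h1 : orderOf n ∣ Nat.card (piCore {q | q ∉ π} ↥(Subgroup.normalizer (Q : Set G))) := by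
      have := orderOf_dvd_natCard (⟨n, hn⟩ : piCore {q | q ∉ π} ↥(Subgroup.normalizer (Q : Set G)))
      rwa [Subgroup.orderOf_mk] at this
    exact Cfsg.Agent.Lib.Helper30.piCore_isPi _ q hq (dvd_trans hdvd h1)

/-- **Claim Up**: ascent of kernels to the Brauer correspondent. -/
theorem claimUp (hM : IsPModular p M) (π : Set ℕ) (hpπ : p ∈ π) (χ₀ : IrrCharacter G)
    (D : Subgroup G) (hBD : IsDefectGroup p M (blockOf M χ₀.1) D)
    [Fintype (Subgroup.normalizer (D : Set G))]
    (ξ₁ : IrrCharacter (Subgroup.normalizer (D : Set G)))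
    (hB₁ : IsInducedBlock M (Subgroup.normalizer (D : Set G)) (blockOf M ξ₁.1) (blockOf M χ₀.1))
    (hB₁D : IsDefectGroup p M (blockOf M ξ₁.1) (D.subgroupOf (Subgroup.normalizer (D : Set G)))) :
    ∀ (m : ℕ) (X : Type u) [Group X] [Fintype X] (f : X →* G) (hf : Function.Injective f)
      (χ : IrrCharacter X) (hind : IndVia M f χ.1 χ₀.1) (P : Subgroup X) (hPn : P.Normal)
      (hP : IsPGroup p P)
      (hC : Subgroup.centralizer ((P.map f : Subgroup G) : Set G) ≤ f.range)
      (K : Subgroup G)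
      (hK : ∀ g : G, g ∈ K ↔ g ∈ Subgroup.centralizer ((P.map f : Subgroup G) : Set G) ∧
        ∀ q : ℕ, q.Prime → q ∣ orderOf g → q ∉ π)
      (hχK : ∀ x : X, f x ∈ K → χ.1 x = χ.1 1)
      (hm : Nat.card G - Nat.card P = m),
      ∀ n ∈ piCore {q | q ∉ π} ↥(Subgroup.normalizer (D : Set G)),
        ∀ ξ ∈ blockOf M ξ₁.1, ξ.1 n = ξ.1 1 := by
  classical
  have hMp := isPrime_of_isPModular hM
  intro m
  induction m using Nat.strong_induction_on with
  | _ m ih =>
  intro X _ _ f hf χ hind P hPn hP hC K hK hχK hm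
  haveI := hPn
  obtain ⟨Q, hQ⟩ : ∃ Q : Subgroup G, Q = P.map f := ⟨_, rfl⟩
  have hQp : IsPGroup p Q := by rw [hQ]; exact hP.map f
  have hcardQ : Nat.card Q = Nat.card P := by
    rw [hQ]; exact Subgroup.card_map_of_injective hf
  rw [← hQ] at hC hK
  letI : Fintype (Subgroup.normalizer (Q : Set G)) := Fintype.ofFinite _
  have hfN : ∀ y, f y ∈ Subgroup.normalizer (Q : Set G) := by
    rw [hQ]; exact map_mem_normalizer_map f P
  obtain ⟨χ₂, hχ₂⟩ := exists_indVia_normalizer hM f hf P hP Q hQ hC hfN χ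
  obtain ⟨f', hf'⟩ : ∃ f' : X →* Subgroup.normalizer (Q : Set G),
    f' = f.codRestrict _ hfN := ⟨_, rfl⟩
  rw [← hf'] at hχ₂
  have hcomp : (Subgroup.normalizer (Q : Set G)).subtype.comp f' = f := by
    rw [hf']; ext y; rfl
  have hf'v : ∀ y, ((f' y : Subgroup.normalizer (Q : Set G)) : G) = f y := by
    intro y; rw [hf']; rfl
  have hf'inj : Function.Injective f' := fun a b hab => hf (by rw [← hf'v, ← hf'v, hab])
  have hχ₂G : IndVia M (Subgroup.normalizer (Q : Set G)).subtype χ₂.1 χ₀.1 :=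
    IndVia.of_comp hMp (irr_isClassFunction χ₂) hχ₂ (by rw [hcomp]; exact hind)
  -- the subgroup `K' = K` inside `N`
  haveI hK'n : (K.subgroupOf (Subgroup.normalizer (Q : Set G))).Normal := by
    constructor
    intro k hk n
    rw [Subgroup.mem_subgroupOf] at hk ⊢
    rw [hK] at hk ⊢
    refine ⟨conj_mem_centralizer_of_normalizer Q n.2 hk.1, ?_⟩
    intro q hq hdvd
    apply hk.2 q hq
    have e : orderOf ((n : G) * (k : G) * (n : G)⁻¹) = orderOf (k : G) :=
      MulEquiv.orderOf_eq (MulAut.conj (n : G)) (k : G)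
    have e' : ((n * k * n⁻¹ : Subgroup.normalizer (Q : Set G)) : G)
        = (n : G) * (k : G) * (n : G)⁻¹ := rfl
    rw [e', e] at hdvd
    exact hdvd
  have hpK' : ¬ p ∣ Nat.card (K.subgroupOf (Subgroup.normalizer (Q : Set G))) := by
    intro hdvd
    obtain ⟨k, hk⟩ := exists_prime_orderOf_dvd_card' p hdvd
    have hkK : ((k : Subgroup.normalizer (Q : Set G)) : G) ∈ K := Subgroup.mem_subgroupOf.mp k.2
    have := ((hK _).mp hkK).2 p Fact.out (by
      rw [Subgroup.orderOf_coe, Subgroup.orderOf_coe, hk])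
    exact this hpπ
  have hχ₂K : ∀ k ∈ K.subgroupOf (Subgroup.normalizer (Q : Set G)), χ₂.1 k = χ₂.1 1 := by
    apply (ker_iff hM f' hf'inj χ χ₂ hχ₂ _ hpK').mpr
    intro x hx
    apply hχK
    have := Subgroup.mem_subgroupOf.mp hx
    rwa [hf'v] at this
  by_cases hcase : IsDefectGroup p M (blockOf M χ₀.1) Q
  · obtain ⟨φ, hφ⟩ := exists_equiv_sameBlock hM χ₀ D hBD ξ₁ hB₁ hB₁D Q hcase χ₂ hχ₂G
    intro n hn ξ hξ
    have hmem : (Cfsg.Agent.H80.eqvIrr φ.symm χ₂) ∈ blockOf M ξ₁.1 := hφ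
    have hsb : SameBlock M (Cfsg.Agent.H80.eqvIrr φ.symm χ₂).1 ξ.1 :=
      Cfsg.Agent.H80.sameBlock_trans hMp (Cfsg.Agent.H80.sameBlock_symm hmem) hξ
    have htriv : ∀ k ∈ piCore {q | q ∉ π} ↥(Subgroup.normalizer (D : Set G)),
        (Cfsg.Agent.H80.eqvIrr φ.symm χ₂).1 k = (Cfsg.Agent.H80.eqvIrr φ.symm χ₂).1 1 := by
      intro k hk
      rw [Cfsg.Agent.H80.eqvIrr_symm_apply, Cfsg.Agent.H80.eqvIrr_symm_apply, map_one]
      apply hχ₂K
      rw [Subgroup.mem_subgroupOf, hK]
      exact piCore_normalizer_centralizes π hpπ Q hQp (φ k) (map_mem_piCore_equiv _ φ k hk)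
    exact (ker_iff_of_sameBlock hM _ ξ hsb _ (not_dvd_card_piCore π hpπ)).mpr htriv n hn
  · obtain ⟨D₂, hD₂⟩ := exists_isDefectGroup hM χ₂
    obtain ⟨hQD₂, hlt⟩ := card_lt_of_not_defect hM χ₀ Q hQp χ₂ hχ₂G hcase D₂ hD₂
    letI : Fintype (Subgroup.normalizer (D₂ : Set (Subgroup.normalizer (Q : Set G)))) :=
      Fintype.ofFinite _
    have hQle : Q ≤ D₂.map (Subgroup.normalizer (Q : Set G)).subtype := by
      intro q hq
      exact ⟨⟨q, Subgroup.le_normalizer hq⟩, hQD₂ (Subgroup.mem_subgroupOf.mpr hq), rfl⟩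
    have hCX : Subgroup.centralizer ((D₂.map (Subgroup.normalizer (Q : Set G)).subtype :
        Subgroup G) : Set G) ≤ (Subgroup.normalizer (Q : Set G)).subtype.range := by
      intro g hg
      have hgN : g ∈ Subgroup.normalizer (Q : Set G) :=
        Subgroup.centralizer_le_normalizer _ (Subgroup.centralizer_le hQle hg)
      exact ⟨⟨g, hgN⟩, rfl⟩
    obtain ⟨ξ₃, hind3, hind3G, hC3⟩ := down_step hM (Subgroup.normalizer (Q : Set G)).subtype
      (Subgroup.subtype_injective _) χ₂ χ₀.1 hχ₂G D₂ hD₂ hCX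
    have hξ₃K := (ker_iff hM _ (Subgroup.subtype_injective _) ξ₃ χ₂ hind3 _ hpK').mp hχ₂K
    have hcard2 : Nat.card (D₂.subgroupOf (Subgroup.normalizer
        (D₂ : Set (Subgroup.normalizer (Q : Set G))))) = Nat.card D₂ :=
      Nat.card_congr (Subgroup.subgroupOfEquivOfLe Subgroup.le_normalizer).toEquiv
    have hcardD₂ : Nat.card D₂ ≤ Nat.card G :=
      le_trans (Subgroup.card_le_card_group D₂) (Subgroup.card_le_card_group _)
    have hmap := map_subgroupOf_normalizer_comp (Subgroup.normalizer (Q : Set G)).subtype D₂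
    refine ih (Nat.card G - Nat.card (D₂.subgroupOf (Subgroup.normalizer
        (D₂ : Set (Subgroup.normalizer (Q : Set G)))))) (by rw [hcard2]; omega) _
      ((Subgroup.normalizer (Q : Set G)).subtype.comp (Subgroup.normalizer
        (D₂ : Set (Subgroup.normalizer (Q : Set G)))).subtype)
      ((Subgroup.subtype_injective _).comp (Subgroup.subtype_injective _)) ξ₃ hind3G
      (D₂.subgroupOf (Subgroup.normalizer (D₂ : Set (Subgroup.normalizer (Q : Set G)))))
      Subgroup.normal_in_normalizer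
      ((isPGroup_of_isDefectGroup hD₂).comap_of_injective _ (Subgroup.subtype_injective _))
      hC3 (K ⊓ Subgroup.centralizer ((D₂.map (Subgroup.normalizer (Q : Set G)).subtype :
        Subgroup G) : Set G)) ?_ ?_ rfl
    · intro g
      rw [hmap, Subgroup.mem_inf, hK]
      constructor
      · rintro ⟨⟨-, h2⟩, h3⟩
        exact ⟨h3, h2⟩
      · rintro ⟨h3, h2⟩
        exact ⟨⟨Subgroup.centralizer_le hQle h3, h2⟩, h3⟩
    · intro y hy
      apply hξ₃K
      rw [Subgroup.mem_subgroupOf]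
      exact hy.1

end ClaimUp

end Cfsg.Agent.H5.BlockKer
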