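import Mathlib
import Cfsg.Prelude.Def_OddOrderChar
import Cfsg.Agent.H32.Dade
import Cfsg.Agent.H32.DadeCount
import Cfsg.Agent.H32.Virtual
import Cfsg.Agent.H4.Chars
import Cfsg.Agent.H4.Irr
import Cfsg.Agent.H5.FrobKer
import Cfsg.Agent.H5.Coherent

/-!
# The Dade map sends generalized characters to generalized characters

Adjoint form of Peterfalvi (2.10): for an irreducible character `χ` of `G` the class function
`a ↦ |H a|⁻¹ ∑_{u ∈ H a} χ (a u)` on `A` is an alternating sum, over nonempty subsets `B ⊆ A`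
normalized by `a`, of the averages over `a * ⋂_{b ∈ B} H b`; each such average is a character of
the stabilizer of `B` in `L` (inflation to a semidirect product), and the orbit sum is integral.
-/

set_option autoImplicit false
set_option linter.unusedSectionVars false
set_option linter.style.haveILetI false

namespace Cfsg.Agent.H5.DadeExp

open Cfsg
open scoped ComplexConjugate

/-- The "π-part" argument: if `a c'` is conjugate by `w` to `a c`, where `c, c'` commute with
`a` and have order dividing `m` coprime to the order of `a`, then `w` centralizes `a`. -/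
theorem conj_pi_part {G : Type*} [Group G] [Finite G] (a c c' w : G) (m : ℕ)
    (hcop : Nat.Coprime m (orderOf a)) (hc : a * c = c * a) (hc' : a * c' = c' * a)
    (hcm : c ^ m = 1) (hcm' : c' ^ m = 1) (h : a * c' = w * (a * c) * w⁻¹) :
    a = w * a * w⁻¹ := by
  obtain ⟨e, he0, he1⟩ := Nat.chineseRemainder hcop 0 1
  have hae : a ^ e = a := by
    have := (pow_eq_pow_iff_modEq (x := a) (n := e) (m := 1)).mpr he1
    simpa using this
  have hdvd : m ∣ e := (Nat.modEq_zero_iff_dvd).mp he0
  have hce : c ^ e = 1 := by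
    obtain ⟨k, rfl⟩ := hdvd
    rw [pow_mul, hcm, one_pow]
  have hce' : c' ^ e = 1 := by
    obtain ⟨k, rfl⟩ := hdvd
    rw [pow_mul, hcm', one_pow]
  have h1 : (a * c) ^ e = a := by
    rw [(show Commute a c from hc).mul_pow, hae, hce, mul_one]
  have h2 : (a * c') ^ e = a := by
    rw [(show Commute a c' from hc').mul_pow, hae, hce', mul_one]
  have h3 : (a * c') ^ e = (w * (a * c) * w⁻¹) ^ e := by rw [h]
  rw [h2, conj_pow, h1] at h3
  exact h3

/-- Coprime coset averaging: if `a` normalizes `K`, the order of `a` is coprime to `|K|`,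
and `C = C_K(a)`, then for every class function `f`,
`|C| * ∑_{u ∈ K} f (a u) = |K| * ∑_{c ∈ C} f (a c)`. -/
theorem coset_avg {G : Type*} [Group G] [Finite G] (K C : Subgroup G) [Fintype K] [Fintype C]
    (a : G) (hnorm : ∀ u ∈ K, a⁻¹ * u * a ∈ K)
    (hcop : Nat.Coprime (Nat.card K) (orderOf a))
    (hC : ∀ c : G, c ∈ C ↔ c ∈ K ∧ a * c = c * a)
    (f : G → ℂ) (hf : ∀ g x : G, f (x * g * x⁻¹) = f g) :
    (Nat.card C : ℂ) * ∑ u : K, f (a * u) = (Nat.card K : ℂ) * ∑ c : C, f (a * c) := by
  classical
  have hCK : ∀ c : C, (c : G) ∈ K := fun c => ((hC c).mp c.2).1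
  have hCa : ∀ c : C, a * (c : G) = c * a := fun c => ((hC c).mp c.2).2
  -- the map `F (v, c) = a⁻¹ v a c v⁻¹`
  let F : K × C → K := fun p =>
    ⟨a⁻¹ * p.1 * a * p.2 * (p.1 : G)⁻¹,
      K.mul_mem (K.mul_mem (hnorm _ p.1.2) (hCK p.2)) (K.inv_mem p.1.2)⟩
  have hF : ∀ p : K × C, a * (F p : G) = p.1 * (a * p.2) * (p.1 : G)⁻¹ := by
    intro p
    show a * (a⁻¹ * p.1 * a * p.2 * (p.1 : G)⁻¹) = _
    group
  have hpowK : ∀ c : C, (c : G) ^ Nat.card K = 1 := by
    intro c
    have h1 : orderOf (c : G) ∣ Nat.card K := by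
      have := orderOf_dvd_natCard (⟨(c : G), hCK c⟩ : K)
      rwa [Subgroup.orderOf_mk] at this
    exact orderOf_dvd_iff_pow_eq_one.mp h1
  -- fibres
  have hfib : ∀ p₀ : K × C, (Finset.univ.filter fun p => F p = F p₀).card = Fintype.card C := by
    intro p₀
    let ι : C → K × C := fun w =>
      (⟨p₀.1 * (w : G)⁻¹, K.mul_mem p₀.1.2 (K.inv_mem (hCK w))⟩, w * p₀.2 * w⁻¹)
    have hι : Function.Injective ι := by
      intro w w' h
      have h1 := congrArg (fun p : K × C => (p.1 : G)) h
      simp only [ι] at h1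
      have h2 : (w : G)⁻¹ = (w' : G)⁻¹ := mul_left_cancel h1
      exact Subtype.ext (inv_injective h2)
    have himg : (Finset.univ.filter fun p => F p = F p₀) = Finset.univ.image ι := by
      ext p
      simp only [Finset.mem_filter, Finset.mem_univ, true_and, Finset.mem_image]
      constructor
      · intro hp
        have h1 : (p.1 : G) * (a * p.2) * (p.1 : G)⁻¹ = p₀.1 * (a * p₀.2) * (p₀.1 : G)⁻¹ := by
          rw [← hF, ← hF, hp]
        set w : G := (p.1 : G)⁻¹ * p₀.1 with hw
        have h2 : a * (p.2 : G) = w * (a * p₀.2) * w⁻¹ := by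
          rw [hw]
          calc a * (p.2 : G) = (p.1 : G)⁻¹ * ((p.1 : G) * (a * p.2) * (p.1 : G)⁻¹) * p.1 := by group
            _ = (p.1 : G)⁻¹ * ((p₀.1 : G) * (a * p₀.2) * (p₀.1 : G)⁻¹) * p.1 := by rw [h1]
            _ = _ := by group
        have h3 : a = w * a * w⁻¹ :=
          conj_pi_part a p₀.2 p.2 w (Nat.card K) hcop (hCa p₀.2) (hCa p.2) (hpowK _) (hpowK _) h2
        have hwK : w ∈ K := K.mul_mem (K.inv_mem p.1.2) p₀.1.2
        have hwa : a * w = w * a := by
          calc a * w = (w * a * w⁻¹) * w := by rw [← h3]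
            _ = w * a := by group
        have hwC : w ∈ C := (hC w).mpr ⟨hwK, hwa⟩
        have h4 : (p.2 : G) = w * p₀.2 * w⁻¹ := by
          have : a * (p.2 : G) = a * (w * p₀.2 * w⁻¹) := by
            rw [h2]
            calc w * (a * p₀.2) * w⁻¹ = (w * a * w⁻¹) * (w * p₀.2 * w⁻¹) := by group
              _ = a * (w * p₀.2 * w⁻¹) := by rw [← h3]
          exact mul_left_cancel this
        refine ⟨⟨w, hwC⟩, ?_⟩
        apply Prod.ext
        · apply Subtype.ext
          show (p₀.1 : G) * w⁻¹ = p.1
          rw [hw]; group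
        · apply Subtype.ext
          show w * (p₀.2 : G) * w⁻¹ = p.2
          exact h4.symm
      · rintro ⟨w, rfl⟩
        apply Subtype.ext
        have h1 := hF (ι w)
        have h2 := hF p₀
        have h3 : a * (F (ι w) : G) = a * (F p₀ : G) := by
          rw [h1, h2]
          show (p₀.1 : G) * (w : G)⁻¹ * (a * (w * p₀.2 * (w : G)⁻¹)) * ((p₀.1 : G) * (w : G)⁻¹)⁻¹ = _
          have hwa := hCa w
          calc (p₀.1 : G) * (w : G)⁻¹ * (a * (w * p₀.2 * (w : G)⁻¹)) * ((p₀.1 : G) * (w : G)⁻¹)⁻¹
              = (p₀.1 : G) * (w : G)⁻¹ * (a * w) * p₀.2 * (p₀.1 : G)⁻¹ := by group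
            _ = (p₀.1 : G) * (w : G)⁻¹ * (w * a) * p₀.2 * (p₀.1 : G)⁻¹ := by rw [hwa]
            _ = _ := by group
        exact mul_left_cancel h3
    rw [himg, Finset.card_image_of_injective _ hι, Finset.card_univ]
  -- surjectivity by counting
  have hcardC : 0 < Fintype.card C := Fintype.card_pos
  have himage : Finset.univ.image F = Finset.univ := by
    apply Finset.eq_univ_of_card
    have h1 := Finset.card_eq_sum_card_image F (Finset.univ : Finset (K × C))
    have h2 : ∀ u ∈ Finset.univ.image F, (Finset.univ.filter fun p => F p = u).card = Fintype.card C := by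
      intro u hu
      obtain ⟨p₀, -, rfl⟩ := Finset.mem_image.mp hu
      exact hfib p₀
    rw [Finset.sum_congr rfl h2, Finset.sum_const, smul_eq_mul, Finset.card_univ,
      Fintype.card_prod] at h1
    exact (Nat.eq_of_mul_eq_mul_right hcardC h1).symm
  have hfib' : ∀ u : K, (Finset.univ.filter fun p => F p = u).card = Fintype.card C := by
    intro u
    have : u ∈ Finset.univ.image F := by rw [himage]; exact Finset.mem_univ u
    obtain ⟨p₀, -, rfl⟩ := Finset.mem_image.mp this
    exact hfib p₀
  -- the two evaluations of `∑ p, f (a * F p)`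
  have e1 : ∑ p : K × C, f (a * (F p : G)) = (Nat.card K : ℂ) * ∑ c : C, f (a * c) := by
    have : ∀ p : K × C, f (a * (F p : G)) = f (a * p.2) := by
      intro p; rw [hF, hf]
    rw [Finset.sum_congr rfl fun p _ => this p, Fintype.sum_prod_type]
    simp only [Finset.sum_const, Finset.card_univ, nsmul_eq_mul, Nat.card_eq_fintype_card]
  have e2 : ∑ p : K × C, f (a * (F p : G)) = (Nat.card C : ℂ) * ∑ u : K, f (a * u) := by
    rw [← Finset.sum_fiberwise (Finset.univ : Finset (K × C)) F, Finset.mul_sum]
    apply Finset.sum_congr rfl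
    intro u _
    have : ∀ p ∈ Finset.univ.filter (fun p => F p = u), f (a * (F p : G)) = f (a * u) := by
      intro p hp
      rw [(Finset.mem_filter.mp hp).2]
    rw [Finset.sum_congr rfl this, Finset.sum_const, hfib' u, nsmul_eq_mul, Nat.card_eq_fintype_card]
  rw [← e1, ← e2]

/-- Orbit counting with weights: for an action `act` of a finite group `L` on a finite type `S`
and an invariant function `F` with `F B ∈ ℤ · |Stab B|` for all `B`, the sum `∑_B F(B)` is an
integer multiple of `|L|`. -/
theorem orbit_sum_int {L S : Type*} [Group L] [Fintype L] [Fintype S]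
    (act : L → S → S) (h1 : ∀ B, act 1 B = B) (hmul : ∀ x y B, act (x * y) B = act x (act y B))
    (F : S → ℂ) (hF : ∀ x B, F (act x B) = F B)
    (hint : ∀ B, ∃ n : ℤ, F B = n * (Nat.card {x : L // act x B = B} : ℂ)) :
    ∃ n : ℤ, ∑ B : S, F B = n * (Nat.card L : ℂ) := by
  classical
  letI : MulAction L S := { smul := act, one_smul := h1, mul_smul := hmul }
  have hsm : ∀ (x : L) (B : S), x • B = act x B := fun _ _ => rfl
  have hstab : ∀ B : S, Nat.card {x : L // act x B = B} = Nat.card (MulAction.stabilizer L B) :=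
    fun B => rfl
  choose n hn using hint
  let Q := MulAction.orbitRel.Quotient L S
  have key : ∀ q : Q, ∑ B ∈ Finset.univ.filter (fun B : S => (Quotient.mk'' B : Q) = q), F B =
      (n q.out : ℂ) * (Nat.card L : ℂ) := by
    intro q
    have hfib : (Finset.univ.filter (fun B : S => (Quotient.mk'' B : Q) = q)) =
        (MulAction.orbit L q.out).toFinset := by
      ext B
      simp only [Finset.mem_filter, Finset.mem_univ, true_and, Set.mem_toFinset]
      rw [← MulAction.orbitRel_apply]
      constructor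
      · intro h
        have h2 : (Quotient.mk'' B : Q) = Quotient.mk'' q.out := by rw [h, Quotient.out_eq']
        exact Quotient.eq''.mp h2
      · intro h
        have h2 : (Quotient.mk'' B : Q) = Quotient.mk'' q.out := Quotient.eq''.mpr h
        rw [h2, Quotient.out_eq']
    have hterm : ∀ B ∈ (MulAction.orbit L q.out).toFinset, F B = F q.out := by
      intro B hB
      rw [Set.mem_toFinset] at hB
      obtain ⟨y, rfl⟩ := hB
      show F (y • q.out) = _
      rw [hsm, hF]
    rw [hfib, Finset.sum_congr rfl hterm, Finset.sum_const, Set.toFinset_card, nsmul_eq_mul, hn,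
      hstab]
    have h3 := MulAction.card_orbit_mul_card_stabilizer_eq_card_group L q.out
    rw [Nat.card_eq_fintype_card (α := L), ← h3, Nat.card_eq_fintype_card]
    push_cast
    ring
  refine ⟨∑ q : Q, n q.out, ?_⟩
  rw [← Finset.sum_fiberwise (Finset.univ : Finset S) (fun B : S => (Quotient.mk'' B : Q))]
  rw [Finset.sum_congr rfl fun q _ => key q]
  push_cast
  rw [Finset.sum_mul]

/-- Integrality of the "semidirect" inner product: if `N` acts (via `ι : N →* G`) on the
subgroup `K` of `G` by conjugation, `θ` is a generalized character of `N` and `χ` a character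
of `G`, then `∑_{x ∈ N} ∑_{u ∈ K} θ(x) conj χ(u ι(x))` is an integer multiple of `|K| |N|`. -/
theorem semidirect_int {G : Type*} [Group G] (K : Subgroup G) [Fintype K]
    {N : Type*} [Group N] [Fintype N] (ι : N →* G)
    (hι : ∀ x : N, ∀ u ∈ K, ι x * u * (ι x)⁻¹ ∈ K)
    (θ : N → ℂ) (hθ : IsGeneralizedCharacter N θ) (χ : G → ℂ) (hχ : IsCharacter G χ) :
    ∃ n : ℤ, ∑ x : N, ∑ u : K, θ x * conj (χ (u * ι x)) =
      n * ((Nat.card K : ℂ) * (Nat.card N : ℂ)) := by
  classical
  have hnorm : ∀ x : N, ι x ∈ Subgroup.normalizer (K : Set G) := by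
    intro x
    rw [Subgroup.mem_normalizer_iff]
    intro u
    constructor
    · exact hι x u
    · intro h
      have := hι x⁻¹ _ h
      rw [map_inv] at this
      simpa [mul_assoc] using this
  let ι' : N →* Subgroup.normalizer (K : Set G) := ι.codRestrict _ hnorm
  let φ : N →* MulAut K := K.normalizerMonoidHom.comp ι'
  let j : K ⋊[φ] N →* G := SemidirectProduct.lift K.subtype ι (by
    intro g
    ext u
    simp [φ, ι', Subgroup.normalizerMonoidHom]
    rfl)
  let p : K ⋊[φ] N →* N := SemidirectProduct.rightHom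
  letI : Fintype (K ⋊[φ] N) := Fintype.ofEquiv _ SemidirectProduct.equivProd.symm
  have h1 : IsGeneralizedCharacter (K ⋊[φ] N) (fun γ => θ (p γ)) := by
    obtain ⟨a, b, ha, hb, rfl⟩ := hθ
    exact ⟨_, _, H4.isCharacter_comp p ha, H4.isCharacter_comp p hb, rfl⟩
  have h2 : IsGeneralizedCharacter (K ⋊[φ] N) (fun γ => χ (j γ)) :=
    ⟨_, 0, H4.isCharacter_comp j hχ, H4.isCharacter_zero, by simp⟩
  obtain ⟨n, hn⟩ := H32.genChar_inner_int h1 h2
  refine ⟨n, ?_⟩
  unfold classInner at hn
  rw [SemidirectProduct.card] at hn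
  have hsum : ∑ γ : K ⋊[φ] N, θ (p γ) * conj (χ (j γ)) =
      ∑ x : N, ∑ u : K, θ x * conj (χ (u * ι x)) := by
    rw [← Equiv.sum_comp (SemidirectProduct.equivProd (φ := φ)).symm, Fintype.sum_prod_type,
      Finset.sum_comm]
    rfl
  rw [hsum] at hn
  have hK : (Nat.card K : ℂ) ≠ 0 := by
    have : 0 < Nat.card K := Nat.card_pos
    exact_mod_cast this.ne'
  have hN : (Nat.card N : ℂ) ≠ 0 := by
    have : 0 < Nat.card N := Nat.card_pos
    exact_mod_cast this.ne'
  rw [← hn]
  push_cast
  field_simp

section Defs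

variable {G : Type*} [Group G] [Fintype G]

open Classical

/-- Conjugation action on finite subsets. -/
noncomputable def cact (x : G) (B : Finset G) : Finset G := B.image (fun b => x * b * x⁻¹)

theorem mem_cact {x b : G} {B : Finset G} : b ∈ cact x B ↔ x⁻¹ * b * x ∈ B := by
  classical
  unfold cact
  rw [Finset.mem_image]
  constructor
  · rintro ⟨c, hc, rfl⟩
    have : x⁻¹ * (x * c * x⁻¹) * x = c := by group
    rw [this]; exact hc
  · intro h
    exact ⟨_, h, by group⟩

theorem cact_one (B : Finset G) : cact 1 B = B := by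
  ext b
  rw [mem_cact]
  simp

theorem cact_mul (x y : G) (B : Finset G) : cact (x * y) B = cact x (cact y B) := by
  ext b
  rw [mem_cact, mem_cact, mem_cact]
  have : (x * y)⁻¹ * b * (x * y) = y⁻¹ * (x⁻¹ * b * x) * y := by group
  rw [this]

theorem card_cact (x : G) (B : Finset G) : (cact x B).card = B.card := by
  classical
  unfold cact
  apply Finset.card_image_of_injective
  intro b c h
  simpa using h

theorem cact_inv_of_eq {x : G} {B : Finset G} (h : cact x B = B) : cact x⁻¹ B = B := by
  conv_lhs => rw [← h]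
  rw [← cact_mul, inv_mul_cancel, cact_one]

theorem cact_insert_self (a : G) (B : Finset G) :
    cact a (insert a B) = insert a (cact a B) := by
  classical
  ext b
  rw [mem_cact, Finset.mem_insert, Finset.mem_insert, mem_cact]
  constructor
  · rintro (h | h)
    · left
      calc b = a * (a⁻¹ * b * a) * a⁻¹ := by group
        _ = a := by rw [h]; group
    · right; exact h
  · rintro (h | h)
    · left; rw [h]; group
    · right; exact h

theorem self_mem_cact_iff (a : G) (B : Finset G) : a ∈ cact a B ↔ a ∈ B := by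
  rw [mem_cact]
  have : a⁻¹ * a * a = a := by group
  rw [this]

theorem cact_insert_eq_iff {a : G} {B : Finset G} (ha : a ∉ B) :
    cact a (insert a B) = insert a B ↔ cact a B = B := by
  classical
  rw [cact_insert_self]
  constructor
  · intro h
    have h1 : a ∉ cact a B := fun h' => ha ((self_mem_cact_iff a B).mp h')
    have h2 : (insert a (cact a B)).erase a = (insert a B).erase a := by rw [h]
    rwa [Finset.erase_insert h1, Finset.erase_insert ha] at h2
  · intro h; rw [h]

/-- The intersection of the subgroups `H b`, `b ∈ B`. -/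
def HB (H : G → Subgroup G) (B : Finset G) : Subgroup G := ⨅ b ∈ B, H b

theorem mem_HB {H : G → Subgroup G} {B : Finset G} {u : G} :
    u ∈ HB H B ↔ ∀ b ∈ B, u ∈ H b := by
  simp [HB, Subgroup.mem_iInf]

theorem HB_singleton (H : G → Subgroup G) (a : G) : HB H {a} = H a := by
  ext u
  simp [mem_HB]

variable {A : Set G} {L : Subgroup G} {H : G → Subgroup G}

theorem HB_conj (hD : DadeHypothesis A L H) {B : Finset G} (hB : ∀ b ∈ B, b ∈ A) {x : G}
    (hx : x ∈ L) {u : G} (hu : u ∈ HB H B) : x * u * x⁻¹ ∈ HB H (cact x B) := by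
  rw [mem_HB] at hu ⊢
  intro b hb
  rw [mem_cact] at hb
  have hbA := hB _ hb
  have h1 := H32.dade_H_conj hD hbA hx
  have h2 : x * (x⁻¹ * b * x) * x⁻¹ = b := by group
  rw [h2] at h1
  rw [h1, Subgroup.mem_map]
  exact ⟨u, hu _ hb, by simp [MulAut.conj_apply]⟩

theorem cact_subset (hD : DadeHypothesis A L H) {B : Finset G} (hB : ∀ b ∈ B, b ∈ A) {x : G}
    (hx : x ∈ L) : ∀ b ∈ cact x B, b ∈ A := by
  intro b hb
  rw [mem_cact] at hb
  have := hD.conj_mem x hx _ (hB _ hb)
  have h2 : x * (x⁻¹ * b * x) * x⁻¹ = b := by group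
  rwa [h2] at this

theorem HB_conj_iff (hD : DadeHypothesis A L H) {B : Finset G} (hB : ∀ b ∈ B, b ∈ A) {x : G}
    (hx : x ∈ L) (u : G) : x * u * x⁻¹ ∈ HB H (cact x B) ↔ u ∈ HB H B := by
  constructor
  · intro h
    have h1 := HB_conj hD (cact_subset hD hB hx) (L.inv_mem hx) h
    rw [← cact_mul, inv_mul_cancel, cact_one] at h1
    have h2 : x⁻¹ * (x * u * x⁻¹) * x⁻¹⁻¹ = u := by group
    rwa [h2] at h1
  · exact HB_conj hD hB hx

theorem orderOf_dvd_card_cent (hD : DadeHypothesis A L H) {a : G} (ha : a ∈ A) :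
    orderOf a ∣ Nat.card ↥(L ⊓ Subgroup.centralizer ({a} : Set G)) := by
  have hmem : a ∈ L ⊓ Subgroup.centralizer ({a} : Set G) :=
    ⟨hD.subset ha, H32.mem_centralizer_singleton.mpr rfl⟩
  exact Subgroup.orderOf_dvd_natCard _ hmem

theorem coprime_HB (hD : DadeHypothesis A L H) {B : Finset G}
    (hB : ∀ b ∈ B, b ∈ A) (hne : B.Nonempty) {a : G} (ha : a ∈ A) :
    Nat.Coprime (Nat.card (HB H B)) (Nat.card ↥(L ⊓ Subgroup.centralizer ({a} : Set G))) := by
  obtain ⟨b, hb⟩ := hne
  have hle : HB H B ≤ H b := fun u hu => (mem_HB.mp hu) b hb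
  exact Nat.Coprime.coprime_dvd_left (Subgroup.card_dvd_of_le hle) (hD.coprime b (hB b hb) a ha)

theorem mem_HB_insert (hD : DadeHypothesis A L H) {B : Finset G}
    (hB : ∀ b ∈ B, b ∈ A) (hne : B.Nonempty) {a : G} (ha : a ∈ A) (c : G) :
    c ∈ HB H (insert a B) ↔ c ∈ HB H B ∧ a * c = c * a := by
  classical
  rw [mem_HB, mem_HB, Finset.forall_mem_insert]
  constructor
  · rintro ⟨h1, h2⟩
    exact ⟨h2, H32.mem_centralizer_singleton.mp (hD.le_centralizer a ha h1)⟩
  · rintro ⟨h1, h2⟩
    refine ⟨?_, h1⟩
    apply H32.dade_mem_H_of_coprime hD ha (H32.mem_centralizer_singleton.mpr h2)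
    have hc : c ∈ HB H B := mem_HB.mpr h1
    exact Nat.Coprime.coprime_dvd_left (Subgroup.orderOf_dvd_natCard _ hc)
      (coprime_HB hD hB hne ha)

/-- The average of `χ` over the coset `a * HB B`. -/
noncomputable def Phi (H : G → Subgroup G) (χ : G → ℂ) (B : Finset G) (a : G) : ℂ :=
  (Nat.card (HB H B) : ℂ)⁻¹ * ∑ u : HB H B, χ (a * u)

theorem Phi_insert (hD : DadeHypothesis A L H) (χ : G → ℂ)
    (hχ : IsClassFunction G χ) {B : Finset G} (hB : ∀ b ∈ B, b ∈ A) (hne : B.Nonempty) {a : G}
    (ha : a ∈ A) (hinv : cact a B = B) : Phi H χ (insert a B) a = Phi H χ B a := by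
  classical
  have haL : a ∈ L := hD.subset ha
  have hnorm : ∀ u ∈ HB H B, a⁻¹ * u * a ∈ HB H B := by
    intro u hu
    have := HB_conj hD hB (L.inv_mem haL) hu
    rw [cact_inv_of_eq hinv, inv_inv] at this
    exact this
  have hcop : Nat.Coprime (Nat.card (HB H B)) (orderOf a) :=
    Nat.Coprime.coprime_dvd_right (orderOf_dvd_card_cent hD ha) (coprime_HB hD hB hne ha)
  have key := coset_avg (HB H B) (HB H (insert a B)) a hnorm hcop
    (mem_HB_insert hD hB hne ha) χ hχ
  have hK : (Nat.card (HB H B) : ℂ) ≠ 0 := by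
    have : 0 < Nat.card (HB H B) := Nat.card_pos
    exact_mod_cast this.ne'
  have hC : (Nat.card (HB H (insert a B)) : ℂ) ≠ 0 := by
    have : 0 < Nat.card (HB H (insert a B)) := Nat.card_pos
    exact_mod_cast this.ne'
  unfold Phi
  rw [inv_mul_eq_div, inv_mul_eq_div, div_eq_div_iff hC hK]
  linear_combination (-1 : ℂ) * key

/-- The nonempty finite subsets of `A`. -/
noncomputable def SS (A : Set G) : Finset (Finset G) := by
  classical
  exact ((Finset.univ.filter (· ∈ A)).powerset).filter (·.Nonempty)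

theorem mem_SS {B : Finset G} : B ∈ SS A ↔ B.Nonempty ∧ ∀ b ∈ B, b ∈ A := by
  classical
  unfold SS
  rw [Finset.mem_filter, Finset.mem_powerset]
  constructor
  · rintro ⟨h1, h2⟩
    exact ⟨h2, fun b hb => by simpa using h1 hb⟩
  · rintro ⟨h1, h2⟩
    exact ⟨fun b hb => by simpa using h2 b hb, h1⟩

/-- Inclusion–exclusion at `a ∈ A`: the average of `χ` over `a * H a` is the alternating sum
of the averages over `a * HB B`, over the nonempty `a`-invariant subsets `B` of `A`. -/
theorem incl_excl (hD : DadeHypothesis A L H) (χ : G → ℂ)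
    (hχ : IsClassFunction G χ) {a : G} (ha : a ∈ A) :
    Phi H χ {a} a = ∑ B ∈ SS A,
      (if cact a B = B then (-1 : ℂ) ^ (B.card + 1) * Phi H χ B a else 0) := by
  have h1 : ({a} : Finset G) ∈ SS A := by
    rw [mem_SS]
    exact ⟨Finset.singleton_nonempty a, fun b hb => by rw [Finset.mem_singleton.mp hb]; exact ha⟩
  have hsing : cact a ({a} : Finset G) = {a} := by
    ext b
    rw [mem_cact, Finset.mem_singleton, Finset.mem_singleton]
    constructor
    · intro h
      calc b = a * (a⁻¹ * b * a) * a⁻¹ := by group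
        _ = a := by rw [h]; group
    · intro h; rw [h]; group
  rw [← Finset.add_sum_erase _ _ h1, if_pos hsing, Finset.card_singleton]
  -- the pairing lemma
  have pair : ∀ B : Finset G, B ∈ SS A → a ∉ B →
      (if cact a (insert a B) = insert a B then
        (-1 : ℂ) ^ ((insert a B).card + 1) * Phi H χ (insert a B) a else 0) +
      (if cact a B = B then (-1 : ℂ) ^ (B.card + 1) * Phi H χ B a else 0) = 0 := by
    intro B hB haB
    rw [mem_SS] at hB
    by_cases hinv : cact a B = B
    · rw [if_pos hinv, if_pos ((cact_insert_eq_iff haB).mpr hinv),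
        Finset.card_insert_of_notMem haB, Phi_insert hD χ hχ hB.2 hB.1 ha hinv]
      ring
    · rw [if_neg hinv, if_neg (fun h => hinv ((cact_insert_eq_iff haB).mp h)), add_zero]
  have hzero : ∑ B ∈ (SS A).erase {a},
      (if cact a B = B then (-1 : ℂ) ^ (B.card + 1) * Phi H χ B a else 0) = 0 := by
    refine Finset.sum_involution (fun B _ => if a ∈ B then B.erase a else insert a B) ?_ ?_ ?_ ?_
    · intro B hB
      rw [Finset.mem_erase, mem_SS] at hB
      by_cases haB : a ∈ B
      · simp only [if_pos haB]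
        have hne : (B.erase a).Nonempty := by
          rw [Finset.nonempty_iff_ne_empty]
          intro h
          apply hB.1
          rw [Finset.erase_eq_empty_iff] at h
          rcases h with h | h
          · exact absurd h (Finset.nonempty_iff_ne_empty.mp hB.2.1)
          · exact h
        have hmem : B.erase a ∈ SS A :=
          mem_SS.mpr ⟨hne, fun b hb => hB.2.2 b (Finset.mem_of_mem_erase hb)⟩
        have := pair (B.erase a) hmem (Finset.notMem_erase a B)
        rw [Finset.insert_erase haB] at this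
        exact this
      · simp only [if_neg haB]
        have := pair B (mem_SS.mpr hB.2) haB
        rw [add_comm]; exact this
    · intro B hB _
      by_cases haB : a ∈ B
      · simp only [if_pos haB]
        intro h
        have : a ∈ B.erase a := by rw [h]; exact haB
        exact Finset.notMem_erase a B this
      · simp only [if_neg haB]
        intro h
        apply haB
        rw [← h]; exact Finset.mem_insert_self a B
    · intro B hB
      rw [Finset.mem_erase, mem_SS] at hB
      by_cases haB : a ∈ B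
      · simp only [if_pos haB]
        rw [Finset.mem_erase, mem_SS]
        refine ⟨?_, ?_, fun b hb => hB.2.2 b (Finset.mem_of_mem_erase hb)⟩
        · intro h
          have : a ∈ B.erase a := by rw [h]; exact Finset.mem_singleton_self a
          exact Finset.notMem_erase a B this
        · rw [Finset.nonempty_iff_ne_empty]
          intro h
          apply hB.1
          rw [Finset.erase_eq_empty_iff] at h
          rcases h with h | h
          · exact absurd h (Finset.nonempty_iff_ne_empty.mp hB.2.1)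
          · exact h
      · simp only [if_neg haB]
        rw [Finset.mem_erase, mem_SS]
        refine ⟨?_, Finset.insert_nonempty a B, ?_⟩
        · intro h
          obtain ⟨b, hb⟩ := hB.2.1
          have : b ∈ ({a} : Finset G) := by rw [← h]; exact Finset.mem_insert_of_mem hb
          rw [Finset.mem_singleton] at this
          exact haB (this ▸ hb)
        · intro b hb
          rcases Finset.mem_insert.mp hb with rfl | hb
          · exact ha
          · exact hB.2.2 b hb
    · intro B hB
      by_cases haB : a ∈ B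
      · have h1 : a ∉ B.erase a := Finset.notMem_erase a B
        simp only [if_pos haB, if_neg h1]
        exact Finset.insert_erase haB
      · have h1 : a ∈ insert a B := Finset.mem_insert_self a B
        simp only [if_neg haB, if_pos h1]
        exact Finset.erase_insert haB
  rw [hzero, add_zero]
  norm_num

end Defs


section Main

variable {G : Type*} [Group G] [Fintype G] {A : Set G} {L : Subgroup G} [Fintype L]
  {H : G → Subgroup G}

open Classical

theorem cact_injective (y : G) {B₁ B₂ : Finset G} (h : cact y B₁ = cact y B₂) : B₁ = B₂ := by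
  have := congrArg (cact y⁻¹) h
  rwa [← cact_mul, ← cact_mul, inv_mul_cancel, cact_one, cact_one] at this

theorem Phi_conj (hD : DadeHypothesis A L H) (χ : G → ℂ) (hχ : IsClassFunction G χ)
    {B : Finset G} (hB : ∀ b ∈ B, b ∈ A) {y : G} (hy : y ∈ L) (a : G) :
    Phi H χ (cact y B) (y * a * y⁻¹) = Phi H χ B a := by
  let e : HB H B ≃ HB H (cact y B) :=
    { toFun := fun u => ⟨y * u * y⁻¹, HB_conj hD hB hy u.2⟩
      invFun := fun u => ⟨y⁻¹ * u * y, (HB_conj_iff hD hB hy _).mp (by
        have : y * (y⁻¹ * (u : G) * y) * y⁻¹ = u := by group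
        rw [this]; exact u.2)⟩
      left_inv := fun u => Subtype.ext (by
        show y⁻¹ * (y * (u : G) * y⁻¹) * y = u
        group)
      right_inv := fun u => Subtype.ext (by
        show y * (y⁻¹ * (u : G) * y) * y⁻¹ = u
        group) }
  unfold Phi
  rw [Nat.card_congr e.symm]
  congr 1
  symm
  apply Fintype.sum_equiv e
  intro u
  show χ (a * u) = χ (y * a * y⁻¹ * (y * u * y⁻¹))
  have : y * a * y⁻¹ * (y * (u : G) * y⁻¹) = y * (a * u) * y⁻¹ := by group
  rw [this, hχ]

/-- The sum `∑_{a ∈ N_L(B)} α(a) conj(Φ_B(a))`. -/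
noncomputable def gsum (H : G → Subgroup G) (χ : G → ℂ) (α : L → ℂ) (B : Finset G) : ℂ :=
  ∑ a : L, if cact (a : G) B = B then α a * conj (Phi H χ B a) else 0

theorem gsum_conj (hD : DadeHypothesis A L H) (χ : G → ℂ) (hχ : IsClassFunction G χ)
    (α : L → ℂ) (hα : IsClassFunction L α) {B : Finset G} (hB : ∀ b ∈ B, b ∈ A) (y : L) :
    gsum H χ α (cact (y : G) B) = gsum H χ α B := by
  unfold gsum
  rw [← Equiv.sum_comp (MulAut.conj y).toEquiv]
  apply Finset.sum_congr rfl
  intro a _
  have hval : (((MulAut.conj y).toEquiv a : L) : G) = (y : G) * a * (y : G)⁻¹ := by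
    simp [MulAut.conj_apply]
  have hcond : cact ((y : G) * a * (y : G)⁻¹) (cact (y : G) B) = cact (y : G) B ↔
      cact (a : G) B = B := by
    have : cact ((y : G) * a * (y : G)⁻¹) (cact (y : G) B) = cact (y : G) (cact (a : G) B) := by
      rw [← cact_mul, ← cact_mul]
      congr 1
      group
    rw [this]
    exact ⟨fun h => cact_injective _ h, fun h => by rw [h]⟩
  rw [hval]
  by_cases h : cact (a : G) B = B
  · rw [if_pos h, if_pos (hcond.mpr h), Phi_conj hD χ hχ hB y.2]
    congr 1
    exact hα a y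
  · rw [if_neg h, if_neg (fun h' => h (hcond.mp h'))]

theorem gsum_int (hD : DadeHypothesis A L H) (χ : G → ℂ) (hχ : IsCharacter G χ)
    (α : L → ℂ) (hα : IsGeneralizedCharacter L α) {B : Finset G} (hB : ∀ b ∈ B, b ∈ A) :
    ∃ n : ℤ, gsum H χ α B = n * (Nat.card {x : L // cact (x : G) B = B} : ℂ) := by
  have hχcf := H4.isClassFunction_of_isCharacter hχ
  let NL : Subgroup L :=
    { carrier := {x | cact (x : G) B = B}
      mul_mem' := fun {x y} hx hy => by
        show cact ((x * y : L) : G) B = B
        rw [Subgroup.coe_mul, cact_mul, show cact (y : G) B = B from hy]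
        exact hx
      one_mem' := by
        show cact ((1 : L) : G) B = B
        rw [Subgroup.coe_one, cact_one]
      inv_mem' := fun {x} hx => by
        show cact ((x⁻¹ : L) : G) B = B
        rw [Subgroup.coe_inv]
        exact cact_inv_of_eq hx }
  have hι : ∀ x : NL, ∀ u ∈ HB H B,
      (L.subtype.comp NL.subtype) x * u * ((L.subtype.comp NL.subtype) x)⁻¹ ∈ HB H B := by
    intro x u hu
    have := HB_conj hD hB (x : L).2 hu
    rw [show cact ((x : L) : G) B = B from x.2] at this
    exact this
  have hθ : IsGeneralizedCharacter NL (fun x : NL => α x) := by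
    obtain ⟨a, b, ha, hb, rfl⟩ := hα
    exact ⟨_, _, H4.isCharacter_comp NL.subtype ha, H4.isCharacter_comp NL.subtype hb, rfl⟩
  obtain ⟨n, hn⟩ := semidirect_int (HB H B) (L.subtype.comp NL.subtype) hι _ hθ χ hχ
  refine ⟨n, ?_⟩
  have hK : (Nat.card (HB H B) : ℂ) ≠ 0 := by
    have : 0 < Nat.card (HB H B) := Nat.card_pos
    exact_mod_cast this.ne'
  have h1 : gsum H χ α B = ∑ x : NL, α x * conj (Phi H χ B x) := by
    unfold gsum
    rw [sum_eq_sum_subgroup NL
      (fun a : L => if cact (a : G) B = B then α a * conj (Phi H χ B a) else 0)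
      (fun x hx => if_neg hx)]
    apply Finset.sum_congr rfl
    intro x _
    exact if_pos x.2
  have h2 : ∀ x : NL, α x * conj (Phi H χ B x) =
      (Nat.card (HB H B) : ℂ)⁻¹ * ∑ u : HB H B, α x * conj (χ (u * ((x : L) : G))) := by
    intro x
    unfold Phi
    rw [map_mul, map_inv₀, map_natCast, map_sum, Finset.mul_sum, Finset.mul_sum, Finset.mul_sum]
    apply Finset.sum_congr rfl
    intro u _
    have : χ (((x : L) : G) * u) = χ (u * ((x : L) : G)) := by
      have h := hχcf ((u : G) * ((x : L) : G)) ((x : L) : G)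
      rw [← h]
      congr 1
      group
    rw [this]
    ring
  have hn' : ∑ x : NL, ∑ u : HB H B, α x * conj (χ (u * ((x : L) : G))) =
      n * ((Nat.card (HB H B) : ℂ) * (Nat.card NL : ℂ)) := hn
  rw [h1, Finset.sum_congr rfl fun x _ => h2 x, ← Finset.mul_sum, hn']
  have hc : Nat.card NL = Nat.card {x : L // cact (x : G) B = B} := rfl
  rw [← hc]
  field_simp

/-- The inner product of a Dade image of a generalized character with a character of `G` is an
integer. -/
theorem dade_inner_int (hD : DadeHypothesis A L H) (α : L → ℂ)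
    (hα : IsGeneralizedCharacter L α) (hαA : ∀ x : L, (x : G) ∉ A → α x = 0)
    (χ : G → ℂ) (hχ : IsCharacter G χ) :
    ∃ n : ℤ, classInner (dadeIsometry A L H α) χ = n := by
  have hαcf : IsClassFunction L α := isClassFunction_of_isGeneralizedCharacter hα
  have hχcf := H4.isClassFunction_of_isCharacter hχ
  have hadj := H32.dade_inner hD hαcf hαA χ
    (fun a : L => (Nat.card (H a) : ℂ)⁻¹ * ∑ᶠ u ∈ (H a : Set G), χ (a * u)) hχcf (fun a _ => rfl)
  rw [hadj]
  have hψ : ∀ a : L, (Nat.card (H a) : ℂ)⁻¹ * ∑ᶠ u ∈ (H (a : G) : Set G), χ (a * u) =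
      Phi H χ {(a : G)} a := by
    intro a
    unfold Phi
    rw [HB_singleton]
    congr 1
    rw [← finsum_set_coe_eq_finsum_mem, finsum_eq_sum_of_fintype]
    rfl
  have hterm : ∀ a : L,
      α a * conj ((Nat.card (H a) : ℂ)⁻¹ * ∑ᶠ u ∈ (H (a : G) : Set G), χ (a * u)) =
      ∑ B ∈ SS A, (if cact (a : G) B = B then
        (-1 : ℂ) ^ (B.card + 1) * (α a * conj (Phi H χ B a)) else 0) := by
    intro a
    by_cases ha : (a : G) ∈ A
    · rw [hψ, incl_excl hD χ hχcf ha, map_sum, Finset.mul_sum]
      apply Finset.sum_congr rfl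
      intro B _
      split_ifs with h
      · rw [map_mul, map_pow, map_neg, map_one]
        ring
      · rw [map_zero, mul_zero]
    · rw [hαA a ha, zero_mul]
      symm
      apply Finset.sum_eq_zero
      intro B _
      split_ifs <;> simp
  unfold classInner
  rw [Finset.sum_congr rfl fun a _ => hterm a, Finset.sum_comm]
  have hB : ∀ B ∈ SS A, ∑ a : L, (if cact (a : G) B = B then
      (-1 : ℂ) ^ (B.card + 1) * (α a * conj (Phi H χ B a)) else 0) =
      (-1 : ℂ) ^ (B.card + 1) * gsum H χ α B := by
    intro B _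
    unfold gsum
    rw [Finset.mul_sum]
    apply Finset.sum_congr rfl
    intro a _
    split_ifs <;> simp
  rw [Finset.sum_congr rfl hB]
  let F : Finset G → ℂ := fun B =>
    if B ∈ SS A then (-1 : ℂ) ^ (B.card + 1) * gsum H χ α B else 0
  have hSSinv : ∀ (y : L) (B : Finset G), cact (y : G) B ∈ SS A ↔ B ∈ SS A := by
    intro y B
    rw [mem_SS, mem_SS]
    constructor
    · rintro ⟨h1, h2⟩
      refine ⟨?_, ?_⟩
      · rw [← Finset.card_pos] at h1 ⊢
        rwa [card_cact] at h1
      · have := cact_subset hD h2 (L.inv_mem y.2)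
        rwa [← cact_mul, inv_mul_cancel, cact_one] at this
    · rintro ⟨h1, h2⟩
      refine ⟨?_, cact_subset hD h2 y.2⟩
      rw [← Finset.card_pos] at h1 ⊢
      rwa [card_cact]
  have hFinv : ∀ (y : L) (B : Finset G), F (cact (y : G) B) = F B := by
    intro y B
    show (if cact (y : G) B ∈ SS A then _ else 0) = (if B ∈ SS A then _ else 0)
    by_cases hB : B ∈ SS A
    · rw [if_pos hB, if_pos ((hSSinv y B).mpr hB), card_cact,
        gsum_conj hD χ hχcf α hαcf (mem_SS.mp hB).2 y]
    · rw [if_neg hB, if_neg (fun h => hB ((hSSinv y B).mp h))]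
  have hFint : ∀ B : Finset G,
      ∃ n : ℤ, F B = n * (Nat.card {x : L // cact (x : G) B = B} : ℂ) := by
    intro B
    by_cases hB : B ∈ SS A
    · obtain ⟨n, hn⟩ := gsum_int hD χ hχ α hα (mem_SS.mp hB).2
      refine ⟨(-1) ^ (B.card + 1) * n, ?_⟩
      show (if B ∈ SS A then _ else 0) = _
      rw [if_pos hB, hn]
      push_cast
      ring
    · refine ⟨0, ?_⟩
      show (if B ∈ SS A then _ else 0) = _
      rw [if_neg hB]
      simp
  obtain ⟨n, hn⟩ := orbit_sum_int (fun (y : L) (B : Finset G) => cact (y : G) B)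
    (fun B => by simp [cact_one]) (fun x y B => by rw [Subgroup.coe_mul, cact_mul]) F hFinv hFint
  refine ⟨n, ?_⟩
  have hsum : ∑ B ∈ SS A, (-1 : ℂ) ^ (B.card + 1) * gsum H χ α B = ∑ B : Finset G, F B := by
    show _ = ∑ B : Finset G, (if B ∈ SS A then _ else 0)
    rw [Finset.sum_ite_mem, Finset.univ_inter]
  have hL : (Nat.card L : ℂ) ≠ 0 := by
    have : 0 < Nat.card L := Nat.card_pos
    exact_mod_cast this.ne'
  rw [hsum, hn]
  field_simp

/-- A class function all of whose inner products with irreducible characters are integers is a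
generalized character. -/
theorem genChar_of_int (θ : G → ℂ) (hθ : IsClassFunction G θ)
    (h : ∀ χ : IrrCharacter G, ∃ n : ℤ, classInner θ χ.1 = n) : IsGeneralizedCharacter G θ := by
  choose n hn using h
  refine ⟨∑ᶠ χ : IrrCharacter G, (((n χ).toNat : ℕ) : ℂ) • (χ : G → ℂ),
    ∑ᶠ χ : IrrCharacter G, (((-n χ).toNat : ℕ) : ℂ) • (χ : G → ℂ),
    H4.isCharacter_finsum_irr _, H4.isCharacter_finsum_irr _, ?_⟩
  conv_lhs => rw [H4.classFunction_eq_finsum hθ]
  rw [H4.finsum_irr_eq_sum, H4.finsum_irr_eq_sum, H4.finsum_irr_eq_sum, ← Finset.sum_sub_distrib]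
  apply Finset.sum_congr rfl
  intro χ _
  rw [hn χ, ← sub_smul]
  congr 1
  have := Int.toNat_sub_toNat_neg (n χ)
  have h2 : ((n χ : ℤ) : ℂ) = (((n χ).toNat : ℤ) : ℂ) - (((-n χ).toNat : ℤ) : ℂ) := by
    rw [← Int.cast_sub, this]
  rw [h2]
  push_cast
  rfl

/-- **Peterfalvi (2.6)(b)**: the Dade map sends generalized characters of `L` vanishing off `A`
to generalized characters of `G`. -/
theorem dade_genChar (hD : DadeHypothesis A L H) (α : L → ℂ)
    (hα : IsGeneralizedCharacter L α) (hαA : ∀ x : L, (x : G) ∉ A → α x = 0) :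
    IsGeneralizedCharacter G (dadeIsometry A L H α) :=
  genChar_of_int _
    (H32.dadeIsometry_isClassFunction hD (isClassFunction_of_isGeneralizedCharacter hα))
    (fun χ => dade_inner_int hD α hα hαA χ.1 (H4.isCharacter_of_isIrrCharacter χ.2))

end Main

end Cfsg.Agent.H5.DadeExp
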