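import Mathlib
import Cfsg.Prelude.Def_Characters
import Cfsg.Prelude.Def_CharExt
import Cfsg.Prelude.Def_Perm
import Cfsg.Agent.H82.DetChar
import Cfsg.Agent.H16.PermChar

/-!
# Determinant of a character whose restriction to a cyclic subgroup is a multiple of the
regular character (helper5)

If `χ` is a character of `G`, `y ∈ G` has even order `q`, `χ(1) = m q` with `m` odd and `χ`
vanishes on the non-trivial powers of `y`, then `det χ (y⁻¹) = -1`.  Consequently the commutator
subgroup has even index.
-/

set_option autoImplicit false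

namespace Cfsg.Agent.H5.DetReg

open Cfsg

universe u

section Sign

variable {C : Type u} [Group C] [Fintype C] [DecidableEq C]

/-- Left translation by a generator of a cyclic group of even order is an odd permutation. -/
theorem sign_mulLeft_gen (c : C) (hc : ∀ x : C, x ∈ Subgroup.zpowers c)
    (heven : Even (Fintype.card C)) : Equiv.Perm.sign (Equiv.mulLeft c) = -1 := by
  have hc1 : c ≠ 1 := by
    rintro rfl
    have hsub : Subsingleton C := by
      constructor
      intro a b
      have ha := hc a
      have hb := hc b
      rw [Subgroup.zpowers_one_eq_bot, Subgroup.mem_bot] at ha hb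
      rw [ha, hb]
    have hcard : Fintype.card C = 1 := Fintype.card_eq_one_iff.mpr ⟨1, fun a => Subsingleton.elim _ _⟩
    rw [hcard] at heven
    exact absurd heven (by decide)
  have hne : ∀ x : C, Equiv.mulLeft c x ≠ x := by
    intro x hx
    rw [Equiv.coe_mulLeft] at hx
    exact hc1 (mul_eq_right.mp hx)
  have hcyc : (Equiv.mulLeft c).IsCycle := by
    refine ⟨1, hne 1, fun y _ => ?_⟩
    obtain ⟨i, hi⟩ := Subgroup.mem_zpowers_iff.mp (hc y)
    refine ⟨i, ?_⟩
    rw [Equiv.zpow_mulLeft, Equiv.coe_mulLeft]
    show c ^ i * 1 = y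
    rw [mul_one, hi]
  have hsupp : (Equiv.mulLeft c).support = Finset.univ := by
    ext x
    simp only [Equiv.Perm.mem_support, Finset.mem_univ, iff_true]
    exact hne x
  rw [hcyc.sign, hsupp, Finset.card_univ, heven.neg_one_pow]

end Sign

section Copies

variable {C : Type u} [Group C]

/-- The action of `C` by left translation on `m` copies of itself. -/
@[reducible] def copiesAction (m : ℕ) : MulAction C (Fin m × C) where
  smul h x := (x.1, h * x.2)
  one_smul x := by
    show (x.1, 1 * x.2) = x
    rw [one_mul]
  mul_smul g h x := by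
    show (x.1, g * h * x.2) = (x.1, g * (h * x.2))
    rw [mul_assoc]

theorem copies_smul (m : ℕ) (h : C) (x : Fin m × C) :
    (letI := copiesAction (C := C) m; h • x) = (x.1, h * x.2) := rfl

end Copies

/-- The determinant of a character restricting to an odd multiple of the regular character of a
cyclic subgroup of even order. -/
theorem detChar_of_regular {G : Type u} [Group G] [Finite G] {χ : G → ℂ} (hχ : IsCharacter G χ)
    (y : G) (m : ℕ) (hm : Odd m) (hq : Even (orderOf y)) (h1 : χ 1 = ((m * orderOf y : ℕ) : ℂ))
    (h0 : ∀ j : ℕ, 0 < j → j < orderOf y → χ (y ^ j) = 0) : detChar χ y⁻¹ = -1 := by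
  classical
  let C : Subgroup G := Subgroup.zpowers y
  haveI : Fintype C := Fintype.ofFinite C
  let c₀ : C := ⟨y, Subgroup.mem_zpowers y⟩
  letI := copiesAction (C := C) m
  have hcardC : Fintype.card C = orderOf y := by
    rw [← Nat.card_eq_fintype_card]
    exact Nat.card_zpowers y
  have hchar : (Cfsg.permRep ℂ C (Fin m × C)).character = fun h : C => χ (h : G) := by
    funext h
    rw [Cfsg.Agent.H16.character_permRep]
    by_cases hh : h = 1
    · subst hh
      have : Nat.card (MulAction.fixedBy (Fin m × C) (1 : C)) = m * orderOf y := by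
        have huniv : MulAction.fixedBy (Fin m × C) (1 : C) = Set.univ := by
          ext x
          simp only [MulAction.mem_fixedBy, Set.mem_univ, iff_true]
          exact one_smul C x
        rw [huniv, Nat.card_coe_set_eq, Set.ncard_univ, Nat.card_prod,
          Nat.card_fin, Nat.card_eq_fintype_card, hcardC]
      rw [this]
      exact h1.symm
    · have hemp : IsEmpty (MulAction.fixedBy (Fin m × C) h) := by
        refine ⟨fun ⟨x, hx⟩ => hh ?_⟩
        rw [MulAction.mem_fixedBy] at hx
        have hx2 : h * x.2 = x.2 := congrArg Prod.snd hx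
        exact mul_eq_right.mp hx2
      rw [Nat.card_of_isEmpty, Nat.cast_zero]
      have hmem : (h : G) ∈ Subgroup.zpowers y := h.2
      rw [mem_zpowers_iff_mem_range_orderOf] at hmem
      obtain ⟨j, hj, hjh⟩ := Finset.mem_image.mp hmem
      rw [Finset.mem_range] at hj
      have hj0 : 0 < j := by
        rcases Nat.eq_zero_or_pos j with h' | h'
        · exfalso
          apply hh
          apply Subtype.ext
          rw [← hjh, h']
          simp
        · exact h'
      have := h0 j hj0 hj
      rw [hjh] at this
      exact this.symm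
  have hres : detChar χ ((c₀⁻¹ : C) : G) = detChar (fun h : C => χ (h : G)) c₀⁻¹ :=
    (Cfsg.Agent.H82.detChar_res C hχ c₀⁻¹).symm
  have hy : ((c₀⁻¹ : C) : G) = y⁻¹ := rfl
  rw [← hy, hres, ← hchar, Cfsg.Agent.H82.detChar_character]
  let π : Equiv.Perm (Fin m × C) := Equiv.prodCongrRight (fun _ => Equiv.mulLeft c₀)
  have hlin : (Cfsg.permRep ℂ C (Fin m × C)) c₀⁻¹ = Matrix.toLin' (π.permMatrix ℂ) := by
    apply LinearMap.ext
    intro f
    rw [Matrix.toLin'_apply, Matrix.permMatrix_mulVec]
    funext x
    show f ((c₀⁻¹)⁻¹ • x) = f (π x)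
    rw [inv_inv]
    rfl
  rw [hlin, LinearMap.det_toLin', Matrix.det_permutation, Equiv.Perm.sign_prodCongrRight]
  have hs : Equiv.Perm.sign (Equiv.mulLeft c₀) = -1 := by
    apply sign_mulLeft_gen c₀
    · intro x
      obtain ⟨i, hi⟩ := Subgroup.mem_zpowers_iff.mp x.2
      rw [Subgroup.mem_zpowers_iff]
      exact ⟨i, Subtype.ext (by rw [Subgroup.coe_zpow]; exact hi)⟩
    · rw [hcardC]; exact hq
  rw [Finset.prod_const, hs, Finset.card_univ, Fintype.card_fin, hm.neg_one_pow]
  simp

/-- If some determinantal character takes the value `-1`, the commutator subgroup has even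
index. -/
theorem even_index_commutator {G : Type u} [Group G] [Finite G] (χ : G → ℂ) (g : G)
    (h : detChar χ g = -1) : Even (commutator G).index := by
  rw [even_iff_two_dvd]
  let f : G →* ℂˣ := Cfsg.Agent.H82.detHom χ
  have hfg : f g = -1 := by
    apply Units.ext
    rw [Cfsg.Agent.H82.detHom_apply, h]
    simp
  have hlift : Abelianization.lift f (Abelianization.of g) = -1 := by
    rw [Abelianization.lift_apply_of, hfg]
  have ho : orderOf (-1 : ℂˣ) = 2 := by
    rw [orderOf_eq_prime_iff (p := 2)]
    constructor
    · simp
    · intro h'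
      have := congrArg Units.val h'
      norm_num at this
  have h2 : 2 ∣ orderOf (Abelianization.of g) := by
    rw [← ho, ← hlift]
    exact orderOf_map_dvd _ _
  have h3 : orderOf (Abelianization.of g) ∣ Nat.card (Abelianization G) := orderOf_dvd_natCard _
  exact h2.trans h3

end Cfsg.Agent.H5.DetReg
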