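import Mathlib
import Cfsg.Agent.H75.ESDefs

/-!
# S6002-FIVE (team project of helper75)

Five pairwise anticommuting involutions in an extraspecial matrix group of minus type with exactly
twelve elements of square one.
-/

set_option autoImplicit false

namespace Cfsg.Agent.H5.ES

open Cfsg.Agent.H75.ES Matrix

universe u

theorem five : StFive.{u} := by
  intro F _ R h2 hES hcnt hminus
  classical
  have hfinR : Finite R := Nat.finite_of_card_ne_zero (by rw [hES.card]; norm_num)
  -- negation has no fixed point
  have hneg_ne : ∀ x : G4 F, x ≠ -x := by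
    intro x h
    have h3 : ((x : G4 F) : M4 F) = -((x : G4 F) : M4 F) := by
      have h' := congrArg (fun g : G4 F => (g : M4 F)) h
      simpa using h'
    have h4 : (x : M4 F) + (x : M4 F) = 0 := by
      nth_rewrite 1 [h3]
      simp
    have h5 : (2 : F) • (1 : M4 F) = 0 := by
      have h' : ((x⁻¹ : G4 F) : M4 F) * ((x : M4 F) + (x : M4 F)) = 0 := by rw [h4, mul_zero]
      rw [mul_add, Units.inv_mul] at h'
      rw [two_smul]
      exact h'
    have h6 := congrFun (congrFun h5 (Sum.inl 0)) (Sum.inl 0)
    simp at h6
    exact h2 h6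
  have hone_ne : (1 : G4 F) ≠ -1 := hneg_ne 1
  set S : Set (G4 F) := {x | x ∈ R ∧ x * x = 1} with hS
  have hSncard : S.ncard = 12 := by
    rw [← Nat.card_coe_set_eq]
    exact hcnt
  have hSfin : S.Finite := Set.finite_of_ncard_ne_zero (by rw [hSncard]; norm_num)
  have hpair : ({1, -1} : Set (G4 F)) ⊆ S := by
    rintro x (rfl | rfl)
    · exact ⟨R.one_mem, one_mul 1⟩
    · exact ⟨hES.neg_mem, by rw [neg_mul_neg, one_mul]⟩
  set T : Set (G4 F) := S \ {1, -1} with hT
  have hTncard : T.ncard = 10 := by
    rw [hT, Set.ncard_sdiff hpair (Set.toFinite _), hSncard, Set.ncard_pair hone_ne]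
  have hTfin : T.Finite := hSfin.subset Set.sdiff_subset
  have hnegS : ∀ x ∈ S, -x ∈ S := by
    rintro x ⟨hx, hxx⟩
    refine ⟨?_, by rw [neg_mul_neg]; exact hxx⟩
    have h' : -x = (-1) * x := by rw [neg_one_mul]
    rw [h']
    exact R.mul_mem hES.neg_mem hx
  have hnegT : ∀ x ∈ T, -x ∈ T := by
    rintro x ⟨hxS, hx⟩
    refine ⟨hnegS x hxS, ?_⟩
    rintro (h | h)
    · apply hx
      right
      exact neg_eq_iff_eq_neg.mp h
    · apply hx
      left
      exact neg_injective h
  letI : LinearOrder (G4 F) := IsWellOrder.linearOrder WellOrderingRel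
  set A : Set (G4 F) := {x | x ∈ T ∧ x < -x} with hA
  have hAT : A ⊆ T := fun x hx => hx.1
  have himage : (fun x : G4 F => -x) '' A = T \ A := by
    ext x
    constructor
    · rintro ⟨a, ⟨haT, hlt⟩, rfl⟩
      refine ⟨hnegT a haT, ?_⟩
      rintro ⟨_, hlt2⟩
      rw [neg_neg] at hlt2
      exact lt_asymm hlt hlt2
    · rintro ⟨hxT, hxA⟩
      refine ⟨-x, ⟨hnegT x hxT, ?_⟩, neg_neg x⟩
      rw [neg_neg]
      have h3 : ¬ x < -x := fun h => hxA ⟨hxT, h⟩
      exact lt_of_le_of_ne (not_lt.mp h3) (fun h => hneg_ne x h.symm)
  have hAncard : A.ncard = 5 := by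
    have h3 := Set.ncard_image_of_injective A
      (neg_injective : Function.Injective (fun x : G4 F => -x))
    rw [himage, Set.ncard_sdiff hAT (hTfin.subset hAT), hTncard] at h3
    have h4 : A.ncard ≤ 10 := by
      rw [← hTncard]
      exact Set.ncard_le_ncard hAT hTfin
    omega
  have hAfin : A.Finite := hTfin.subset hAT
  have hAfin' : Finite A := hAfin.to_subtype
  have hAcard : Nat.card A = 5 := by
    rw [Nat.card_coe_set_eq]
    exact hAncard
  let e : A ≃ Fin 5 := Finite.equivFinOfCardEq hAcard
  let t : Fin 5 → G4 F := fun i => ((e.symm i : A) : G4 F)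
  have htA : ∀ i, t i ∈ A := fun i => (e.symm i).2
  have htsurj : ∀ x ∈ A, ∃ i, x = t i := by
    intro x hx
    refine ⟨e ⟨x, hx⟩, ?_⟩
    simp [t]
  have htinj : Function.Injective t := by
    intro i j h
    have h' : e.symm i = e.symm j := Subtype.ext h
    exact e.symm.injective h'
  refine ⟨t, ⟨fun i => (htA i).1.1.1, fun i => (htA i).1.1.2, ?_, ?_⟩⟩
  · -- pairwise anticommuting
    intro i j hij
    rcases hES.comm (t i) ((htA i).1.1.1) (t j) ((htA j).1.1.1) with h | h
    · exfalso
      obtain ⟨a, ha⟩ : ∃ a, a = t i := ⟨_, rfl⟩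
      obtain ⟨b, hb⟩ : ∃ b, b = t j := ⟨_, rfl⟩
      rw [← ha, ← hb] at h
      have haA : a ∈ A := ha ▸ htA i
      have hbA : b ∈ A := hb ▸ htA j
      have haR : a ∈ R := haA.1.1.1
      have hbR : b ∈ R := hbA.1.1.1
      have haa : a * a = 1 := haA.1.1.2
      have hbb : b * b = 1 := hbA.1.1.2
      have ha1 : a ≠ 1 := fun h' => haA.1.2 (Or.inl h')
      have ha2 : a ≠ -1 := fun h' => haA.1.2 (Or.inr h')
      have hb1 : b ≠ 1 := fun h' => hbA.1.2 (Or.inl h')
      have hb2 : b ≠ -1 := fun h' => hbA.1.2 (Or.inr h')
      have hab : a ≠ b := by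
        intro h'
        rw [ha, hb] at h'
        exact hij (htinj h')
      have hnab : -a ≠ b := by
        intro h'
        have h1 : a < -a := haA.2
        have h3 : b < -b := hbA.2
        rw [← h', neg_neg] at h3
        exact lt_asymm h1 h3
      have h1a : (1 : G4 F) ≠ -a := by
        intro h'
        apply ha2
        rw [h', neg_neg]
      have hm1a : (-1 : G4 F) ≠ -a := fun h' => ha1 (neg_injective h').symm
      let k : Set (G4 F) := {-1, a, b}
      have hk : ∀ x ∈ k, ∀ y ∈ k, x * y = y * x := by
        rintro x (rfl | rfl | rfl) y (rfl | rfl | rfl) <;> simp [h]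
      let B : Subgroup (G4 F) := Subgroup.closure k
      have hBR : B ≤ R := (Subgroup.closure_le R).mpr (by
        rintro x (rfl | rfl | rfl)
        exacts [hES.neg_mem, haR, hbR])
      have hBc1 : B ≤ Subgroup.centralizer k := (Subgroup.closure_le _).mpr
        (fun x hx => Subgroup.mem_centralizer_iff.mpr (fun y hy => hk y hy x hx))
      have hBc : ∀ x ∈ B, ∀ y ∈ B, x * y = y * x := by
        intro x hx
        have hsub : k ⊆ (Subgroup.centralizer ({x} : Set (G4 F)) : Set (G4 F)) := by
          intro g hg
          rw [SetLike.mem_coe, Subgroup.mem_centralizer_singleton_iff]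
          exact Subgroup.mem_centralizer_iff.mp (hBc1 hx) g hg
        intro y hy
        have h' := (Subgroup.closure_le _).mpr hsub hy
        rw [Subgroup.mem_centralizer_singleton_iff] at h'
        exact h'.symm
      have hBsq : ∀ x ∈ B, x * x = 1 := by
        intro x hx
        induction hx using Subgroup.closure_induction with
        | mem x hx =>
          rcases hx with rfl | rfl | rfl
          · rw [neg_mul_neg, one_mul]
          · exact haa
          · exact hbb
        | one => exact one_mul 1
        | mul x y hx hy hxx hyy =>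
          have hc := hBc x hx y hy
          calc x * y * (x * y) = x * (y * x) * y := by group
            _ = x * (x * y) * y := by rw [hc]
            _ = (x * x) * (y * y) := by group
            _ = 1 := by rw [hxx, hyy, one_mul]
        | inv x hx hxx =>
          rw [← _root_.mul_inv_rev, hxx, inv_one]
      let A' : Subgroup R := B.subgroupOf R
      have hA'comm : IsMulCommutative A' :=
        ⟨⟨fun x y => Subtype.ext (Subtype.ext
          (hBc x.1.1 (Subgroup.mem_subgroupOf.mp x.2) y.1.1 (Subgroup.mem_subgroupOf.mp y.2)))⟩⟩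
      have hA'sq : ∀ x ∈ A', x * x = 1 :=
        fun x hx => Subtype.ext (hBsq x.1 (Subgroup.mem_subgroupOf.mp hx))
      have hlt := hminus A' hA'comm hA'sq
      have hcardeq : Nat.card A' = Nat.card B :=
        Nat.card_congr (Subgroup.subgroupOfEquivOfLe hBR).toEquiv
      rw [hcardeq] at hlt
      have hBfin : Finite B := Finite.of_injective (Subgroup.inclusion hBR)
        (Subgroup.inclusion_injective hBR)
      have hBp : IsPGroup 2 B := by
        intro g
        refine ⟨1, ?_⟩
        rw [pow_one, pow_two]
        exact Subtype.ext (hBsq g.1 g.2)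
      have : Fact (Nat.Prime 2) := ⟨Nat.prime_two⟩
      obtain ⟨n, hn⟩ := IsPGroup.iff_card.mp hBp
      have h5 : ({1, -1, a, -a, b} : Finset (G4 F)).card = 5 := by
        rw [Finset.card_insert_of_notMem, Finset.card_insert_of_notMem,
          Finset.card_insert_of_notMem, Finset.card_insert_of_notMem, Finset.card_singleton]
        · simp only [Finset.mem_singleton]
          exact hnab
        · simp only [Finset.mem_insert, Finset.mem_singleton, not_or]
          exact ⟨hneg_ne a, hab⟩
        · simp only [Finset.mem_insert, Finset.mem_singleton, not_or]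
          exact ⟨ha2.symm, hm1a, hb2.symm⟩
        · simp only [Finset.mem_insert, Finset.mem_singleton, not_or]
          exact ⟨hone_ne, ha1.symm, h1a, hb1.symm⟩
      have hsub5 : ((({1, -1, a, -a, b} : Finset (G4 F)) : Set (G4 F))) ⊆ (B : Set (G4 F)) := by
        intro x hx
        simp only [Finset.coe_insert, Finset.coe_singleton, Set.mem_insert_iff,
          Set.mem_singleton_iff] at hx
        have hm1 : (-1 : G4 F) ∈ B := Subgroup.subset_closure (by simp [k])
        have haB : a ∈ B := Subgroup.subset_closure (by simp [k])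
        have hbB : b ∈ B := Subgroup.subset_closure (by simp [k])
        rcases hx with h' | h' | h' | h' | h'
        · rw [h']
          exact B.one_mem
        · rw [h']
          exact hm1
        · rw [h']
          exact haB
        · have h'' : -a = (-1) * a := by rw [neg_one_mul]
          rw [h', h'']
          exact B.mul_mem hm1 haB
        · rw [h']
          exact hbB
      have hge : 5 ≤ Nat.card B := by
        have h' : Nat.card B = (B : Set (G4 F)).ncard := Nat.card_coe_set_eq (B : Set (G4 F))
        rw [← h5, ← Set.ncard_coe_finset, h']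
        exact Set.ncard_le_ncard hsub5 (Set.toFinite _)
      rw [hn] at hlt hge
      rcases Nat.lt_or_ge n 3 with h3 | h3
      · interval_cases n <;> omega
      · have := Nat.pow_le_pow_right (show 0 < 2 by norm_num) h3
        omega
    · exact h
  · -- every involution is `±1` or `±t i`
    intro x hx hxx
    by_cases h1 : x = 1
    · exact Or.inl h1
    by_cases h2' : x = -1
    · exact Or.inr (Or.inl h2')
    right
    right
    have hxT : x ∈ T := ⟨⟨hx, hxx⟩, by
      rintro (h | h)
      · exact h1 h
      · exact h2' h⟩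
    by_cases hxA : x ∈ A
    · obtain ⟨i, hi⟩ := htsurj x hxA
      exact ⟨i, Or.inl hi⟩
    · have hmem : -x ∈ A := by
        have h' : x ∈ T \ A := ⟨hxT, hxA⟩
        rw [← himage] at h'
        obtain ⟨a, ha, hax⟩ := h'
        have h'' : -x = a := by rw [← hax, neg_neg]
        rw [h'']
        exact ha
      obtain ⟨i, hi⟩ := htsurj (-x) hmem
      exact ⟨i, Or.inr (by rw [← hi, neg_neg])⟩

example : StFive.{u} := five

end Cfsg.Agent.H5.ES

#print axioms Cfsg.Agent.H5.ES.five
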