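import Mathlib
import Cfsg.Agent.H75.ESDefs

/-!
# S6002-MAT (team project of helper75)

The hypotheses of S6002 on `R` make it an extraspecial matrix group (`IsES R`), given the abstract
group-theoretic statement `StGrp`.
-/

set_option autoImplicit false

namespace Cfsg.Agent.H5.ES

open Cfsg.Agent.H75.ES Matrix

universe u

theorem mat (hG : StGrp.{u}) : StMat.{u} := by
  intro F _ R hsym habs hcard hcen
  classical
  have hfin : Finite R := Nat.finite_of_card_ne_zero (by rw [hcard]; norm_num)
  have hexp : ∀ x : R, x ^ 4 = 1 := by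
    intro x
    have h := Monoid.pow_exponent_eq_one x
    rw [hsym.exponent_eq] at h
    exact h
  have hgh : GHyp R := ⟨by rw [hcard]; norm_num, hcen, hexp, hsym.cyclic_of_characteristic⟩
  have hcomm := hG R hgh
  -- the central element `z`
  obtain ⟨z, hz1, hzu⟩ := (Nat.card_eq_two_iff' (1 : Subgroup.center R)).mp hcen
  have hcen_cases : ∀ x : R, x ∈ Subgroup.center R → x = 1 ∨ x = (z : R) := by
    intro x hx
    by_cases h1 : x = 1
    · exact Or.inl h1
    · right
      have h2 := hzu ⟨x, hx⟩ (fun h => h1 (by simpa using congrArg Subtype.val h))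
      exact congrArg Subtype.val h2
  have hzc : ∀ s ∈ Cfsg.Geo.matrixSet R,
      (((z : R) : G4 F) : M4 F) * s = s * (((z : R) : G4 F) : M4 F) := by
    rintro s ⟨g, hg, rfl⟩
    have h := Subgroup.mem_center_iff.mp z.2 ⟨g, hg⟩
    have h2 := congrArg (fun r : R => ((r : G4 F) : M4 F)) h
    simpa using h2.symm
  obtain ⟨c, hc⟩ := habs.2 _ hzc
  have hz2 : (z : R) * (z : R) = 1 := by
    rcases hcen_cases ((z : R) * (z : R)) (Subgroup.mul_mem _ z.2 z.2) with h | h
    · exact h
    · exfalso
      apply hz1
      have h3 : (z : R) = 1 := by simpa using h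
      exact Subtype.ext h3
  have hcc : c * c = 1 := by
    have h := congrArg (fun r : R => ((r : G4 F) : M4 F)) hz2
    simp only [Subgroup.coe_mul, Units.val_mul, Subgroup.coe_one, Units.val_one] at h
    rw [hc] at h
    have h00 := congrFun (congrFun h (Sum.inl 0)) (Sum.inl 0)
    simpa using h00
  have hcneg : c = -1 := by
    have h3 : (c - 1) * (c + 1) = 0 := by linear_combination hcc
    rcases mul_eq_zero.mp h3 with h | h
    · exfalso
      apply hz1
      have hc1 : c = 1 := by linear_combination h
      apply Subtype.ext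
      apply Subtype.ext
      apply Units.ext
      rw [hc, hc1, one_smul]
      rfl
    · linear_combination h
  have hzneg : ((z : R) : G4 F) = -1 := by
    apply Units.ext
    rw [hc, hcneg, Units.val_neg, Units.val_one, neg_smul, one_smul]
  have hnegmem : (-1 : G4 F) ∈ R := hzneg ▸ (z : R).2
  have hcenter : ∀ x ∈ R, (∀ y ∈ R, x * y = y * x) → x = 1 ∨ x = -1 := by
    intro x hx hxy
    have hxc : (⟨x, hx⟩ : R) ∈ Subgroup.center R :=
      Subgroup.mem_center_iff.mpr (fun g => Subtype.ext (hxy g g.2).symm)
    rcases hcen_cases _ hxc with h | h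
    · left
      exact congrArg Subtype.val h
    · right
      have h2 := congrArg Subtype.val h
      exact h2.trans hzneg
  have hcm : ∀ x ∈ R, ∀ y ∈ R, x * y = y * x ∨ x * y = -(y * x) := by
    intro x hx y hy
    have h := hcomm ⟨x, hx⟩ ⟨y, hy⟩
    rcases hcen_cases _ h with h1 | h1
    · left
      have h2 : x * y * x⁻¹ * y⁻¹ = 1 := congrArg Subtype.val h1
      rw [mul_inv_eq_one, mul_inv_eq_iff_eq_mul] at h2
      exact h2
    · right
      have h2 : x * y * x⁻¹ * y⁻¹ = -1 := (congrArg Subtype.val h1).trans hzneg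
      rw [mul_inv_eq_iff_eq_mul, mul_inv_eq_iff_eq_mul] at h2
      rw [h2, neg_one_mul, neg_mul]
  refine ⟨hnegmem, by rw [hcard]; norm_num, ?_, hcm, hcenter⟩
  intro x hx
  apply hcenter (x * x) (R.mul_mem hx hx)
  intro y hy
  rcases hcm x hx y hy with h | h
  · calc x * x * y = x * (x * y) := by group
      _ = x * (y * x) := by rw [h]
      _ = (x * y) * x := by group
      _ = y * x * x := by rw [h]
      _ = y * (x * x) := by group
  · calc x * x * y = x * (x * y) := by group
      _ = x * (-(y * x)) := by rw [h]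
      _ = -((x * y) * x) := by rw [mul_neg, mul_assoc]
      _ = -(-(y * x) * x) := by rw [h]
      _ = y * (x * x) := by rw [neg_mul, neg_neg, mul_assoc]

example (hG : StGrp.{u}) : StMat.{u} := mat hG

end Cfsg.Agent.H5.ES

#print axioms Cfsg.Agent.H5.ES.mat
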