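import Mathlib
import Cfsg.Agent.H75.ESDefs

/-!
# S6002-TV (team project of helper75)

No element `y` of the normaliser of the extraspecial matrix group `R` has `y - 1` of rank one.
-/

set_option autoImplicit false

namespace Cfsg.Agent.H5.ES

open Cfsg.Agent.H75.ES Matrix

universe u

theorem tv : StTV.{u} := by
  intro F _ R h2 hES habs t ht hgen y hy hrank
  classical
  obtain ⟨L, hL⟩ : ∃ L : (I4 → F) →ₗ[F] (I4 → F), L = Matrix.toLin' (y : M4 F) - 1 := ⟨_, rfl⟩
  rw [← hL] at hrank
  have hLapp : ∀ v, L v = (y : M4 F) *ᵥ v - v := by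
    intro v
    rw [hL]
    simp [Matrix.toLin'_apply]
  -- negation has no fixed point
  have hneg_ne : ∀ x : G4 F, x ≠ -x := by
    intro x h
    have h3 : ((x : G4 F) : M4 F) = -((x : G4 F) : M4 F) := by
      have h' := congrArg (fun g : G4 F => (g : M4 F)) h
      simpa using h'
    have h4 : (x : M4 F) + (x : M4 F) = 0 := by
      nth_rewrite 1 [h3]
      simp
    have h5 : (2 : F) • (1 : M4 F) = 0 := by
      have h' : ((x⁻¹ : G4 F) : M4 F) * ((x : M4 F) + (x : M4 F)) = 0 := by rw [h4, mul_zero]
      rw [mul_add, Units.inv_mul] at h'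
      rw [two_smul]
      exact h'
    have h6 := congrFun (congrFun h5 (Sum.inl 0)) (Sum.inl 0)
    simp at h6
    exact h2 h6
  have hti1 : ∀ i, t i ≠ 1 ∧ t i ≠ -1 := by
    intro i
    obtain ⟨j, hj⟩ := exists_ne i
    have hanti := ht.anti i j (Ne.symm hj)
    constructor
    · intro h1
      rw [h1, one_mul, mul_one] at hanti
      exact hneg_ne _ hanti
    · intro h1
      rw [h1, neg_one_mul, mul_neg_one, neg_neg] at hanti
      exact hneg_ne (t j) hanti.symm
  have hkey : ∀ i, y * t i = t i * y := by
    intro i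
    by_contra hne
    obtain ⟨s, hs⟩ : ∃ s, s = y * t i * y⁻¹ := ⟨_, rfl⟩
    have hsR : s ∈ R := by
      rw [hs]
      exact (Subgroup.mem_normalizer_iff.mp hy (t i)).mp (ht.mem i)
    have hss : s * s = 1 := by
      rw [hs]
      calc y * t i * y⁻¹ * (y * t i * y⁻¹) = y * (t i * t i) * y⁻¹ := by group
        _ = 1 := by rw [ht.sq i]; group
    have hsy : s * y = y * t i := by
      rw [hs]
      group
    have hsyM : (s : M4 F) * (y : M4 F) = (y : M4 F) * (t i : M4 F) := by
      have h' := congrArg (fun u : G4 F => (u : M4 F)) hsy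
      simpa using h'
    have htiM : (t i : M4 F) * (t i : M4 F) = 1 := by
      have h' := congrArg (fun u : G4 F => (u : M4 F)) (ht.sq i)
      simpa using h'
    have hD : ∃ c : F, c ≠ 0 ∧
        ((t i : M4 F) - (s : M4 F)) * ((t i : M4 F) - (s : M4 F)) = c • (1 : M4 F) := by
      rcases ht.invol s hsR hss with h1 | h1 | ⟨j, h1 | h1⟩
      · exfalso
        apply (hti1 i).1
        have h' : y * t i = y * 1 := by rw [← hsy, h1, one_mul, mul_one]
        exact mul_left_cancel h'
      · exfalso
        apply (hti1 i).2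
        have h' : y * t i = y * (-1) := by rw [← hsy, h1, neg_one_mul, mul_neg_one]
        exact mul_left_cancel h'
      · by_cases hji : j = i
        · exfalso
          apply hne
          rw [← hsy, h1, hji]
        · have hanti := ht.anti i j (Ne.symm hji)
          have hantiM : (t i : M4 F) * (t j : M4 F) = -((t j : M4 F) * (t i : M4 F)) := by
            have h' := congrArg (fun u : G4 F => (u : M4 F)) hanti
            simpa using h'
          have htjM : (t j : M4 F) * (t j : M4 F) = 1 := by
            have h' := congrArg (fun u : G4 F => (u : M4 F)) (ht.sq j)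
            simpa using h'
          refine ⟨2, h2, ?_⟩
          rw [h1]
          have hexp : ((t i : M4 F) - (t j : M4 F)) * ((t i : M4 F) - (t j : M4 F)) =
              (t i : M4 F) * (t i : M4 F) - (t i : M4 F) * (t j : M4 F)
                - (t j : M4 F) * (t i : M4 F) + (t j : M4 F) * (t j : M4 F) := by
            noncomm_ring
          rw [hexp, htiM, htjM, hantiM, two_smul]
          abel
      · by_cases hji : j = i
        · refine ⟨4, ?_, ?_⟩
          · have h4 : (4 : F) = 2 * 2 := by norm_num
            rw [h4]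
            exact mul_ne_zero h2 h2
          · rw [h1, hji, Units.val_neg]
            have hexp : ((t i : M4 F) - -(t i : M4 F)) * ((t i : M4 F) - -(t i : M4 F)) =
                (t i : M4 F) * (t i : M4 F) + (t i : M4 F) * (t i : M4 F)
                  + (t i : M4 F) * (t i : M4 F) + (t i : M4 F) * (t i : M4 F) := by
              noncomm_ring
            rw [hexp, htiM, show (4 : F) = 1 + 1 + 1 + 1 by norm_num, add_smul, add_smul,
              add_smul, one_smul]
        · have hanti := ht.anti i j (Ne.symm hji)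
          have hantiM : (t i : M4 F) * (t j : M4 F) = -((t j : M4 F) * (t i : M4 F)) := by
            have h' := congrArg (fun u : G4 F => (u : M4 F)) hanti
            simpa using h'
          have htjM : (t j : M4 F) * (t j : M4 F) = 1 := by
            have h' := congrArg (fun u : G4 F => (u : M4 F)) (ht.sq j)
            simpa using h'
          refine ⟨2, h2, ?_⟩
          rw [h1, Units.val_neg]
          have hexp : ((t i : M4 F) - -(t j : M4 F)) * ((t i : M4 F) - -(t j : M4 F)) =
              (t i : M4 F) * (t i : M4 F) + (t i : M4 F) * (t j : M4 F)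
                + (t j : M4 F) * (t i : M4 F) + (t j : M4 F) * (t j : M4 F) := by
            noncomm_ring
          rw [hexp, htiM, htjM, hantiM, two_smul]
          abel
    obtain ⟨c, hc0, hDD⟩ := hD
    obtain ⟨⟨w, hw⟩, hw0, hwspan⟩ := finrank_eq_one_iff'.mp hrank
    have hLv : ∀ v, ∃ a : F, L v = a • w := by
      intro v
      obtain ⟨a, ha⟩ := hwspan ⟨L v, LinearMap.mem_range_self L v⟩
      exact ⟨a, by simpa using (congrArg Subtype.val ha).symm⟩
    have htop : (⊤ : Submodule F (I4 → F)) ≤
        Submodule.span F ((({(t i : M4 F) *ᵥ w, w} : Finset (I4 → F))) : Set (I4 → F)) := by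
      intro u _
      obtain ⟨v, hv⟩ : ∃ v : I4 → F,
          v = ((y⁻¹ : G4 F) : M4 F) *ᵥ (c⁻¹ • (((t i : M4 F) - (s : M4 F)) *ᵥ u)) := ⟨_, rfl⟩
      have h0 : (y : M4 F) *ᵥ v = c⁻¹ • (((t i : M4 F) - (s : M4 F)) *ᵥ u) := by
        rw [hv, Matrix.mulVec_mulVec, Units.mul_inv, Matrix.one_mulVec]
      have h1 : ((t i : M4 F) - (s : M4 F)) *ᵥ ((y : M4 F) *ᵥ v) = u := by
        rw [h0, Matrix.mulVec_smul, Matrix.mulVec_mulVec, hDD, Matrix.smul_mulVec,
          Matrix.one_mulVec, smul_smul, inv_mul_cancel₀ hc0, one_smul]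
      have h3 : ((t i : M4 F) - (s : M4 F)) *ᵥ ((y : M4 F) *ᵥ v) =
          (t i : M4 F) *ᵥ (L v) - L ((t i : M4 F) *ᵥ v) := by
        rw [hLapp, hLapp, Matrix.mulVec_mulVec, sub_mul, hsyM, Matrix.mulVec_sub,
          Matrix.mulVec_mulVec, Matrix.sub_mulVec, Matrix.mulVec_mulVec]
        abel
      obtain ⟨a1, ha1⟩ := hLv v
      obtain ⟨a2, ha2⟩ := hLv ((t i : M4 F) *ᵥ v)
      rw [← h1, h3, ha1, ha2, Matrix.mulVec_smul]
      apply Submodule.sub_mem
      · apply Submodule.smul_mem
        apply Submodule.subset_span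
        simp
      · apply Submodule.smul_mem
        apply Submodule.subset_span
        simp
    have hfr := Submodule.finrank_mono htop
    have hle : Module.finrank F (Submodule.span F
        ((({(t i : M4 F) *ᵥ w, w} : Finset (I4 → F))) : Set (I4 → F))) ≤
        ({(t i : M4 F) *ᵥ w, w} : Finset (I4 → F)).card :=
      finrank_span_finset_le_card (R := F) ({(t i : M4 F) *ᵥ w, w} : Finset (I4 → F))
    have hcard2 : ({(t i : M4 F) *ᵥ w, w} : Finset (I4 → F)).card ≤ 2 := Finset.card_le_two
    rw [finrank_top, Module.finrank_fintype_fun_eq_card] at hfr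
    simp at hfr
    omega
  have hcommR : ∀ h ∈ R, y * h = h * y := by
    intro h hh
    rw [← hgen] at hh
    have hsub : Set.range t ⊆ (Subgroup.centralizer ({y} : Set (G4 F)) : Set (G4 F)) := by
      rintro _ ⟨i, rfl⟩
      rw [SetLike.mem_coe, Subgroup.mem_centralizer_singleton_iff]
      exact (hkey i).symm
    have h' := (Subgroup.closure_le _).mpr hsub hh
    rw [Subgroup.mem_centralizer_singleton_iff] at h'
    exact h'.symm
  obtain ⟨c, hc⟩ := habs.2 (y : M4 F) (by
    rintro s ⟨g, hg, rfl⟩
    have h' := congrArg (fun u : G4 F => (u : M4 F)) (hcommR g hg)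
    simpa using h')
  have hLc : ∀ v, L v = (c - 1) • v := by
    intro v
    rw [hLapp, hc, Matrix.smul_mulVec, Matrix.one_mulVec, sub_smul, one_smul]
  by_cases hc1 : c = 1
  · have hL0 : L = 0 := by
      refine LinearMap.ext (fun v => ?_)
      rw [hLc, hc1, sub_self, zero_smul]
      rfl
    rw [hL0, LinearMap.range_zero, finrank_bot] at hrank
    exact absurd hrank (by norm_num)
  · have hrt : LinearMap.range L = ⊤ := by
      rw [LinearMap.range_eq_top]
      intro u
      refine ⟨(c - 1)⁻¹ • u, ?_⟩
      rw [hLc, smul_smul, mul_inv_cancel₀ (sub_ne_zero.mpr hc1), one_smul]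
    rw [hrt, finrank_top, Module.finrank_fintype_fun_eq_card] at hrank
    simp at hrank

example : StTV.{u} := tv

end Cfsg.Agent.H5.ES

#print axioms Cfsg.Agent.H5.ES.tv
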