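import Mathlib

set_option autoImplicit false

namespace Cfsg.Agent.H5

open Polynomial

theorem rootsOfUnity_trace_int_aux (N : ℕ) [NeZero N] (K : Type) [Field K] [Algebra ℚ K]
    [IsCyclotomicExtension {N} ℚ K] (S : Finset ℂ) (c : ℂ → ℕ)
    (hS : ∀ μ ∈ S, μ ^ N = 1) :
    ∃ z : ℤ, ∑ u : (ZMod N)ˣ, (∑ μ ∈ S, (c μ : ℂ) * μ ^ (u : ZMod N).val) = z := by
  classical
  set ζ : K := IsCyclotomicExtension.zeta N ℚ K with hζdef
  have hζ : IsPrimitiveRoot ζ N := IsCyclotomicExtension.zeta_spec N ℚ K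
  have hirr : Irreducible (cyclotomic N ℚ) := cyclotomic.irreducible_rat (NeZero.pos N)
  haveI : FiniteDimensional ℚ K := IsCyclotomicExtension.finiteDimensional {N} ℚ K
  haveI : IsGalois ℚ K := IsCyclotomicExtension.isGalois {N} ℚ K
  let φ : K →ₐ[ℚ] ℂ := IsAlgClosed.lift
  have hφinj : Function.Injective φ := φ.injective
  have hζ' : IsPrimitiveRoot (φ ζ) N := hζ.map_of_injective hφinj
  have hk : ∀ μ : ℂ, ∃ i : ℕ, μ ∈ S → (φ ζ) ^ i = μ := by
    intro μ
    by_cases hμ : μ ∈ S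
    · obtain ⟨i, -, hi⟩ := hζ'.eq_pow_of_pow_eq_one (hS μ hμ)
      exact ⟨i, fun _ => hi⟩
    · exact ⟨0, fun h => absurd h hμ⟩
  choose k hk using hk
  set x : ℕ → K := fun m => ∑ μ ∈ S, (c μ : K) * ζ ^ (k μ * m) with hx
  have hφx : ∀ m, φ (x m) = ∑ μ ∈ S, (c μ : ℂ) * μ ^ m := by
    intro m
    simp only [hx, map_sum, map_mul, map_natCast, map_pow]
    refine Finset.sum_congr rfl fun μ hμ => ?_
    rw [pow_mul, hk μ hμ]
  have hσ : ∀ (σ : K ≃ₐ[ℚ] K) (m : ℕ), σ ζ = ζ ^ m → σ (x 1) = x m := by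
    intro σ m hm
    simp only [hx, map_sum, map_mul, map_natCast, map_pow, hm, mul_one]
    refine Finset.sum_congr rfl fun μ _ => ?_
    rw [← pow_mul, mul_comm m]
  have hint : IsIntegral ℤ (x 1) := by
    simp only [hx]
    refine IsIntegral.sum _ fun μ _ => ?_
    have h1 : IsIntegral ℤ ((c μ : ℕ) : K) := by
      have := isIntegral_algebraMap (R := ℤ) (A := K) (x := (c μ : ℤ))
      simpa using this
    exact h1.mul ((hζ.isIntegral (NeZero.pos N)).pow _)
  have htr : IsIntegral ℤ (Algebra.trace ℚ K (x 1)) := Algebra.isIntegral_trace hint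
  obtain ⟨z, hz⟩ := IsIntegrallyClosed.isIntegral_iff.mp htr
  refine ⟨z, ?_⟩
  have h1 := trace_eq_sum_automorphisms (K := ℚ) (x 1)
  have h2 : ∑ σ : K ≃ₐ[ℚ] K, σ (x 1) = ∑ u : (ZMod N)ˣ, x (u : ZMod N).val := by
    refine Fintype.sum_equiv (IsCyclotomicExtension.autEquivPow K hirr).toEquiv
      (fun σ => σ (x 1)) (fun u => x (u : ZMod N).val) ?_
    intro σ
    rw [hσ σ _ (hζ.autToPow_spec ℚ σ).symm]
    rfl
  have h3 : φ (algebraMap ℚ K (Algebra.trace ℚ K (x 1))) =
      ∑ u : (ZMod N)ˣ, φ (x (u : ZMod N).val) := by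
    rw [h1, h2, map_sum]
  simp only [hφx] at h3
  rw [← h3, AlgHom.commutes, ← hz]
  simp

/-- The sum over `u ∈ (ℤ/N)ˣ` of the `u`-th power-conjugates of a nonnegative integer
combination of `N`-th roots of unity is an integer. -/
theorem rootsOfUnity_trace_int (N : ℕ) [NeZero N] (S : Finset ℂ) (c : ℂ → ℕ)
    (hS : ∀ μ ∈ S, μ ^ N = 1) :
    ∃ z : ℤ, ∑ u : (ZMod N)ˣ, (∑ μ ∈ S, (c μ : ℂ) * μ ^ (u : ZMod N).val) = z := by
  haveI : NeZero ((N : ℕ) : ℚ) := ⟨by exact_mod_cast NeZero.ne N⟩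
  haveI : IsCyclotomicExtension {N} ℚ (CyclotomicField N ℚ) :=
    CyclotomicField.isCyclotomicExtension N ℚ
  exact rootsOfUnity_trace_int_aux N (CyclotomicField N ℚ) S c hS

/-- Summing over the generators of the cyclic group generated by `a` is summing over the
powers `a ^ u` with `u` a unit modulo the order of `a`. -/
theorem sum_generators_eq_sum_units {X : Type*} [Group X] [Fintype X]
    {M : Type*} [AddCommMonoid M] (a : X) [NeZero (orderOf a)]
    [DecidablePred (fun b : X => Subgroup.zpowers b = Subgroup.zpowers a)] (F : X → M) :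
    ∑ b ∈ Finset.univ.filter (fun b : X => Subgroup.zpowers b = Subgroup.zpowers a), F b =
      ∑ u : (ZMod (orderOf a))ˣ, F (a ^ (u : ZMod (orderOf a)).val) := by
  classical
  symm
  refine Finset.sum_bij (fun u _ => a ^ (u : ZMod (orderOf a)).val) ?_ ?_ ?_ ?_
  · intro u _
    rw [Finset.mem_filter]
    refine ⟨Finset.mem_univ _, ?_⟩
    have hcop : (orderOf a).Coprime (u : ZMod (orderOf a)).val :=
      (ZMod.val_coe_unit_coprime u).symm
    apply Subgroup.eq_of_le_of_card_ge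
    · rw [Subgroup.zpowers_le]
      exact Subgroup.npow_mem_zpowers a _
    · rw [Nat.card_zpowers, Nat.card_zpowers, hcop.orderOf_pow]
  · intro u _ v _ huv
    have h1 := pow_injOn_Iio_orderOf (ZMod.val_lt (u : ZMod (orderOf a)))
      (ZMod.val_lt (v : ZMod (orderOf a))) huv
    exact Units.ext (ZMod.val_injective _ h1)
  · intro b hb
    rw [Finset.mem_filter] at hb
    have hbmem : b ∈ Subgroup.zpowers a := by rw [← hb.2]; exact Subgroup.mem_zpowers b
    obtain ⟨j, hj, rfl⟩ := (mem_zpowers_iff_mem_range_orderOf.mp hbmem |> fun h => by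
      obtain ⟨j, hj, h⟩ := Finset.mem_image.mp h
      exact ⟨j, Finset.mem_range.mp hj, h⟩ : ∃ j, j < orderOf a ∧ a ^ j = b)
    have hord : orderOf (a ^ j) = orderOf a := by
      rw [← Nat.card_zpowers, ← Nat.card_zpowers a, hb.2]
    have hcop : j.Coprime (orderOf a) := by
      by_cases hj0 : j = 0
      · subst hj0
        rw [pow_zero, orderOf_one] at hord
        rw [← hord]
        exact Nat.coprime_one_right _
      · rw [orderOf_pow' a hj0] at hord
        have hpos : 0 < orderOf a := Nat.pos_of_ne_zero (NeZero.ne _)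
        have hg : (orderOf a).gcd j = 1 := by
          have hgpos : 0 < (orderOf a).gcd j := Nat.gcd_pos_of_pos_left _ hpos
          have := Nat.div_eq_self.mp hord
          rcases this with h | h
          · omega
          · exact h
        exact Nat.Coprime.symm hg
    refine ⟨ZMod.unitOfCoprime j hcop, Finset.mem_univ _, ?_⟩
    rw [ZMod.coe_unitOfCoprime, ZMod.val_natCast, Nat.mod_eq_of_lt hj]
  · intro u _
    rfl

end Cfsg.Agent.H5
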