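import Cfsg.Agent.H79.HcDefs
import Cfsg.Agent.H81.WBO
import Cfsg.Agent.H4.IrrCount

/-!
# S4440, piece P16: the block part of a class function vanishing at `p`-singular elements

`stmtBlockPart` (by weak block orthogonality) and `stmtBlockProj` (intersecting a set with
vanishing weighted sum with a block preserves the vanishing).
-/

set_option autoImplicit false
set_option linter.style.haveILetI false

namespace Cfsg.Agent.H5.Hc

open Cfsg Cfsg.Agent.H79.Hc
open scoped ComplexConjugate

universe u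

theorem stmtBlockPart (p : ℕ) (M : Ideal AlgInt) : StmtBlockPart.{u} p M := by
  intro T _ _ hM f _ hfs ψ₀ x hx
  classical
  haveI := Cfsg.Agent.H4.finite_irr T
  have hBfin : (blockOf M (ψ₀ : T → ℂ)).Finite := Set.toFinite _
  rw [finsum_mem_eq_finite_toFinset_sum _ hBfin]
  have key : ∀ y : T, ∑ ψ ∈ hBfin.toFinset,
      f y * conj ((ψ : T → ℂ) y) * (ψ : T → ℂ) x = 0 := by
    intro y
    by_cases hy : p ∣ orderOf y
    · simp [hfs y hy]
    · have h := Cfsg.Agent.H81.wbo_one hM ψ₀ y x hy hx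
      rw [finsum_mem_eq_finite_toFinset_sum _ hBfin] at h
      have h2 := congrArg conj h
      rw [map_sum, map_zero] at h2
      have h3 : ∑ ψ ∈ hBfin.toFinset, f y * conj ((ψ : T → ℂ) y) * (ψ : T → ℂ) x =
          f y * ∑ ψ ∈ hBfin.toFinset, conj ((ψ : T → ℂ) y * conj ((ψ : T → ℂ) x)) := by
        rw [Finset.mul_sum]
        apply Finset.sum_congr rfl
        intro ψ _
        rw [map_mul, Complex.conj_conj]
        ring
      rw [h3, h2, mul_zero]
  have h4 : ∀ ψ : IrrCharacter T, classInner f (ψ : T → ℂ) * (ψ : T → ℂ) x =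
      (Nat.card T : ℂ)⁻¹ * ∑ y : T, f y * conj ((ψ : T → ℂ) y) * (ψ : T → ℂ) x := by
    intro ψ
    unfold classInner
    rw [mul_assoc, Finset.sum_mul]
  rw [Finset.sum_congr rfl (fun ψ _ => h4 ψ), ← Finset.mul_sum, Finset.sum_comm,
    Finset.sum_congr rfl (fun y _ => key y), Finset.sum_const_zero, mul_zero]

theorem wsum_eq_sum {G : Type u} [Group G] [Finite (IrrCharacter G)] (U : Set (IrrCharacter G))
    (hUfin : U.Finite) :
    wsum U = ∑ χ ∈ hUfin.toFinset, ((χ : G → ℂ) 1) • (χ : G → ℂ) := by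
  funext y
  unfold wsum
  rw [finsum_mem_eq_finite_toFinset_sum _ hUfin, Finset.sum_apply]
  rfl

theorem isClassFunction_wsum {G : Type u} [Group G] [Finite G] (U : Set (IrrCharacter G)) :
    IsClassFunction G (wsum U) := by
  haveI := Cfsg.Agent.H4.finite_irr G
  rw [wsum_eq_sum U (Set.toFinite U)]
  exact Cfsg.Agent.H4.isClassFunction_sum _ _
    (fun χ _ => Cfsg.Agent.H4.isClassFunction_smul _ (Cfsg.Agent.H4.irr_isClassFunction χ))

theorem classInner_wsum {G : Type u} [Group G] [Fintype G] (U : Set (IrrCharacter G))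
    (ψ : IrrCharacter G) [Decidable (ψ ∈ U)] :
    classInner (wsum U) (ψ : G → ℂ) = if ψ ∈ U then (ψ : G → ℂ) 1 else 0 := by
  classical
  haveI := Cfsg.Agent.H4.finite_irr G
  rw [wsum_eq_sum U (Set.toFinite U), Cfsg.Agent.H4.classInner_sum_left]
  simp only [Cfsg.Agent.H4.classInner_smul_left, Cfsg.Agent.H4.irr_inner, mul_ite, mul_one,
    mul_zero]
  rw [Finset.sum_ite_eq']
  simp [Set.Finite.mem_toFinset]

theorem stmtBlockProj (p : ℕ) (M : Ideal AlgInt) : StmtBlockProj.{u} p M := by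
  intro G _ _ hM U hU χ₀ x hx
  classical
  letI : Fintype G := Fintype.ofFinite G
  haveI := Cfsg.Agent.H4.finite_irr G
  have hBfin : (blockOf M (χ₀ : G → ℂ)).Finite := Set.toFinite _
  have hUBfin : (U ∩ blockOf M (χ₀ : G → ℂ)).Finite := Set.toFinite _
  have h := stmtBlockPart p M G hM (wsum U) (isClassFunction_wsum U) hU χ₀ x hx
  rw [finsum_mem_eq_finite_toFinset_sum _ hBfin] at h
  unfold wsum
  rw [finsum_mem_eq_finite_toFinset_sum _ hUBfin, ← h]
  simp only [classInner_wsum, ite_mul, zero_mul]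
  rw [← Finset.sum_filter]
  apply Finset.sum_congr _ (fun _ _ => rfl)
  ext ψ
  simp [Set.Finite.mem_toFinset, and_comm]

end Cfsg.Agent.H5.Hc
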