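import Mathlib
import Cfsg.Agent.H79.HcDefs
import Cfsg.Agent.Lib.Gallagher
import Cfsg.Agent.H4.Frob
import Cfsg.Agent.H4.PaQb

/-!
# S4440, piece P19 (NV): a character restricting irreducibly to a normal subgroup
vanishes on no coset of it.

Route: Gallagher's theorem.  For every irreducible character `ξ` of `H ⧸ N` the product of
its inflation with `χ` is irreducible, and equals `χ` only for the trivial `ξ`; hence the
class function `q ↦ |N|⁻¹ ∑_{h ∈ q} |χ h|²` of `H ⧸ N` is the trivial character.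
-/

set_option autoImplicit false

namespace Cfsg.Agent.H5.Hc

open Cfsg Cfsg.Agent.H79.Hc
open scoped ComplexConjugate

universe u

theorem stmtNV : StmtNV.{u} := by
  intro H _ _ N _ χ hχ hres x
  classical
  letI : Fintype H := Fintype.ofFinite H
  letI : Fintype N := Fintype.ofFinite N
  letI : Fintype (H ⧸ N) := Fintype.ofFinite _
  have hχc : IsCharacter H χ := Cfsg.Agent.H4.isCharacter_of_isIrrCharacter hχ
  have hχcf : IsClassFunction H χ := Cfsg.Agent.H4.isClassFunction_of_isCharacter hχc
  have h1N : IsIrrCharacter N (fun _ => (1 : ℂ)) := Cfsg.Agent.H4.isIrrCharacter_one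
  have hprod : IsIrrCharacter N ((fun _ => (1 : ℂ)) * fun n : N => χ n) := by
    have h : ((fun _ => (1 : ℂ)) * fun n : N => χ n) = fun n : N => χ n := by
      funext n; simp
    rw [h]; exact hres
  obtain ⟨hG1, hG2, -⟩ := Cfsg.Agent.Clifford.gallagher N h1N hres
    (fun g => by funext n; rfl) (fun g => Cfsg.Agent.Clifford.conjChar_res N hχcf g) hprod hχc
    (fun n => rfl)
  have hN0 : (Nat.card N : ℂ) ≠ 0 := by
    have : 0 < Nat.card N := Nat.card_pos
    exact_mod_cast this.ne'
  have hQ0 : (Nat.card (H ⧸ N) : ℂ) ≠ 0 := by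
    have : 0 < Nat.card (H ⧸ N) := Nat.card_pos
    exact_mod_cast this.ne'
  have hcard : (Nat.card (H ⧸ N) : ℂ) * (Nat.card N : ℂ) = (Nat.card H : ℂ) := by
    have h := Subgroup.card_eq_card_quotient_mul_card_subgroup N
    rw [h]; push_cast; ring
  -- inflations lie over the trivial character
  have hover : ∀ ξ : H ⧸ N → ℂ, IsIrrCharacter (H ⧸ N) ξ →
      IsIrrCharacter H (fun h : H => ξ (h : H ⧸ N)) ∧
      Cfsg.classInner (Cfsg.indFun N (fun _ => (1 : ℂ))) (fun h : H => ξ (h : H ⧸ N)) ≠ 0 := by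
    intro ξ hξ
    have hirr : IsIrrCharacter H (fun h : H => ξ (h : H ⧸ N)) :=
      Cfsg.Agent.H4.isIrrCharacter_comp_surjective (QuotientGroup.mk' N)
        (QuotientGroup.mk'_surjective N) hξ
    refine ⟨hirr, ?_⟩
    rw [Cfsg.Agent.H4.frobenius_reciprocity N _ _
      (Cfsg.Agent.H4.isClassFunction_of_isCharacter
        (Cfsg.Agent.H4.isCharacter_of_isIrrCharacter hirr))]
    have h1 : (fun n : N => ξ (((n : H)) : H ⧸ N)) = fun _ => ξ 1 := by
      funext n
      have : (((n : H)) : H ⧸ N) = 1 := (QuotientGroup.eq_one_iff (n : H)).mpr n.2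
      rw [this]
    rw [h1]
    unfold Cfsg.classInner
    simp only [one_mul, Finset.sum_const, Finset.card_univ, nsmul_eq_mul]
    rw [← Nat.card_eq_fintype_card, ← mul_assoc, inv_mul_cancel₀ hN0, one_mul]
    intro h0
    exact Cfsg.Agent.Clifford.irr_one_ne_zero' hξ ((map_eq_zero _).mp h0)
  -- the averaged square function on the quotient
  set F : H ⧸ N → ℂ := fun q =>
    (Nat.card N : ℂ)⁻¹ * ∑ h : H, if (h : H ⧸ N) = q then χ h * conj (χ h) else 0 with hF
  have hFcf : IsClassFunction (H ⧸ N) F := by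
    intro q q'
    induction q' using QuotientGroup.induction_on with
    | H g =>
      simp only [hF]
      congr 1
      rw [← Equiv.sum_comp (MulAut.conj g).toEquiv]
      refine Finset.sum_congr rfl fun h _ => ?_
      have h1 : ((((MulAut.conj g).toEquiv h : H)) : H ⧸ N) =
          (g : H ⧸ N) * (h : H ⧸ N) * (g : H ⧸ N)⁻¹ := by
        simp [MulAut.conj_apply]
      have h2 : χ ((MulAut.conj g).toEquiv h) = χ h := by
        have := hχcf h g
        simpa [MulAut.conj_apply] using this
      rw [h1, h2]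
      by_cases hq : (h : H ⧸ N) = q
      · rw [if_pos hq, if_pos (by rw [hq])]
      · rw [if_neg hq, if_neg]
        intro h3
        apply hq
        have h4 := congrArg (fun t => (g : H ⧸ N)⁻¹ * t * (g : H ⧸ N)) h3
        simpa [mul_assoc] using h4
  have hFin : ∀ ξ : IrrCharacter (H ⧸ N),
      Cfsg.classInner F ξ.1 = if ξ.1 = (fun _ => (1 : ℂ)) then 1 else 0 := by
    intro ξ
    obtain ⟨hβ, hβo⟩ := hover ξ.1 ξ.2
    have hβχ := (hG1 _ hβ hβo).1
    have hkey : Cfsg.classInner F ξ.1 =
        Cfsg.classInner χ ((fun h : H => ξ.1 (h : H ⧸ N)) * χ) := by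
      unfold Cfsg.classInner
      rw [← hcard, mul_inv, mul_assoc]
      congr 1
      simp only [hF]
      rw [Finset.mul_sum]
      have hsw : ∀ q : H ⧸ N,
          ((Nat.card N : ℂ)⁻¹ * ∑ h : H, if (h : H ⧸ N) = q then χ h * conj (χ h) else 0) *
            conj (ξ.1 q) =
          ∑ h : H, if (h : H ⧸ N) = q then
            (Nat.card N : ℂ)⁻¹ * (χ h * conj (((fun h : H => ξ.1 (h : H ⧸ N)) * χ) h)) else 0 := by
        intro q
        rw [mul_assoc, Finset.sum_mul, Finset.mul_sum]
        refine Finset.sum_congr rfl fun h _ => ?_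
        by_cases hq : (h : H ⧸ N) = q
        · rw [if_pos hq, if_pos hq]
          simp only [Pi.mul_apply, map_mul, hq]
          ring
        · rw [if_neg hq, if_neg hq, zero_mul, mul_zero]
      rw [Finset.sum_congr rfl fun q _ => hsw q, Finset.sum_comm]
      refine Finset.sum_congr rfl fun h _ => ?_
      rw [Finset.sum_ite_eq]
      simp
    rw [hkey, Cfsg.Agent.Clifford.classInner_irr_irr hχ hβχ]
    have h1H := hover (fun _ => (1 : ℂ)) Cfsg.Agent.H4.isIrrCharacter_one
    by_cases hξ1 : ξ.1 = (fun _ => (1 : ℂ))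
    · rw [if_pos hξ1, if_pos]
      rw [hξ1]
      funext h
      simp
    · rw [if_neg hξ1, if_neg]
      intro hEq
      apply hξ1
      have h2 : (fun h : H => ξ.1 (h : H ⧸ N)) * χ =
          (fun h : H => (fun _ : H ⧸ N => (1 : ℂ)) (h : H ⧸ N)) * χ := by
        rw [← hEq]
        funext h
        simp
      have h3 := hG2 _ _ hβ hβo h1H.1 h1H.2 h2
      funext q
      induction q using QuotientGroup.induction_on with
      | H g => exact congrFun h3 g
  have hF1 : F = fun _ => (1 : ℂ) := by
    rw [Cfsg.Agent.H4.classFunction_eq_finsum hFcf, Cfsg.Agent.H4.finsum_irr_eq_sum]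
    letI := Cfsg.Agent.H4.fintypeIrr (H ⧸ N)
    rw [Finset.sum_eq_single (⟨fun _ => (1 : ℂ), Cfsg.Agent.H4.isIrrCharacter_one⟩ :
      IrrCharacter (H ⧸ N))]
    · rw [hFin, if_pos rfl, one_smul]
    · intro ξ _ hne
      rw [hFin, if_neg, zero_smul]
      intro h
      exact hne (Subtype.ext h)
    · intro h
      exact absurd (Finset.mem_univ _) h
  by_contra hcon
  push_neg at hcon
  have hFx : F (x : H ⧸ N) = 0 := by
    simp only [hF]
    rw [Finset.sum_eq_zero, mul_zero]
    intro h _
    by_cases hq : (h : H ⧸ N) = (x : H ⧸ N)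
    · rw [if_pos hq]
      have hm : x⁻¹ * h ∈ N := QuotientGroup.eq.mp hq.symm
      have h0 := hcon (x⁻¹ * h) hm
      rw [mul_inv_cancel_left] at h0
      rw [h0, zero_mul]
    · rw [if_neg hq]
  rw [hF1] at hFx
  exact one_ne_zero hFx

end Cfsg.Agent.H5.Hc
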