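import Mathlib
import Cfsg.Agent.H5.JxKA
import Cfsg.Agent.H40.JxPF

/-! JX-KA (S2953, helper52's JY-KILL2 project): the case `V ≤ Q₁` of the residual configuration is
impossible — hypothesis-free.  The `P'`-side facts (`|T : O₂(P)| = 2`, and `T ∖ O₂(P)` inverts
the elements of order 3 of `K` modulo `O₂(P)`) are proved here from `|P : O₂(P)| = 6` and
`P / O₂(P)` non-abelian (helper94's `good_facts`). -/

set_option autoImplicit false

open Cfsg

universe u

namespace Cfsg.Agent.H5.Jx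

open Cfsg.Agent.H64.Jz Cfsg.Agent.H64.Jy Cfsg.Agent.H52.Jx

/-- `|T : D| = 2` from `|P : D| = 6`, `T` a 2-group of odd index in `P`. -/
theorem relIndex_two {G : Type u} [Group G] [Finite G] (D T P : Subgroup G) (hDT : D ≤ T)
    (hTP : T ≤ P) (hT2 : IsPGroup 2 ↥T) (hodd : Odd (T.relIndex P)) (h6 : D.relIndex P = 6) :
    D.relIndex T = 2 := by
  have h1 := Subgroup.relIndex_mul_relIndex D T P hDT hTP
  rw [h6] at h1
  obtain ⟨n, hn⟩ := hT2.index (D.subgroupOf T)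
  have hn' : D.relIndex T = 2 ^ n := hn
  rw [hn'] at h1 ⊢
  obtain ⟨m, hm⟩ := hodd
  rcases n with _ | _ | n
  · exfalso
    simp at h1
    omega
  · simp
  · exfalso
    have h4 : 2 ^ (n + 1 + 1) ∣ 6 := Dvd.intro _ h1
    have h44 : 4 ∣ 2 ^ (n + 1 + 1) := by
      rw [pow_succ, pow_succ, mul_assoc]
      exact Dvd.intro_left _ rfl
    have := dvd_trans h44 h4
    omega

theorem mul_mem_of_relIndex_two {G : Type u} [Group G] (D T : Subgroup G)
    (h2 : D.relIndex T = 2) :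
    ∀ a ∈ T, ∀ b ∈ T, a ∉ D → b ∉ D → a * b ∈ D := by
  intro a ha b hb haD hbD
  have h := @Subgroup.mul_mem_iff_of_index_two ↥T _ (D.subgroupOf T) h2 ⟨a, ha⟩ ⟨b, hb⟩
  have h' : (⟨a, ha⟩ * ⟨b, hb⟩ : ↥T) ∈ D.subgroupOf T :=
    h.mpr ⟨fun h' => absurd (Subgroup.mem_subgroupOf.mp h') haD,
      fun h' => absurd (Subgroup.mem_subgroupOf.mp h') hbD⟩
  exact Subgroup.mem_subgroupOf.mp h'

/-- In a non-abelian quotient of order 6, an involution inverts the elements of order 3. -/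
theorem inv_mod {G : Type u} [Group G] [Finite G] (D P : Subgroup G)
    (hPN : P ≤ Subgroup.normalizer (D : Set G)) (h6 : D.relIndex P = 6)
    (hnab : ¬ ⁅P, P⁆ ≤ D) (x k : G) (hx : x ∈ P) (hk : k ∈ P) (hxD : x ∉ D)
    (hx2 : x * x ∈ D) (hk3 : k ^ 3 = 1) : x * k * x⁻¹ * k ∈ D := by
  classical
  have hNn : (D.subgroupOf P).Normal := Subgroup.normal_subgroupOf_of_le_normalizer hPN
  have hcard : Nat.card (↥P ⧸ D.subgroupOf P) = 6 := by
    rw [← Subgroup.index_eq_card]; exact h6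
  have hfin : Finite (↥P ⧸ D.subgroupOf P) := Nat.finite_of_card_ne_zero (by rw [hcard]; norm_num)
  have key : ∀ p : ↥P, (QuotientGroup.mk' (D.subgroupOf P) p = 1) ↔ (p : G) ∈ D := by
    intro p
    rw [QuotientGroup.mk'_apply, QuotientGroup.eq_one_iff, Subgroup.mem_subgroupOf]
  set xb : ↥P ⧸ D.subgroupOf P := QuotientGroup.mk' (D.subgroupOf P) ⟨x, hx⟩ with hxb
  set kb : ↥P ⧸ D.subgroupOf P := QuotientGroup.mk' (D.subgroupOf P) ⟨k, hk⟩ with hkb
  have hxb1 : xb ≠ 1 := fun h => hxD ((key ⟨x, hx⟩).mp h)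
  have hxb2 : xb * xb = 1 := by
    rw [hxb, ← map_mul]
    exact (key (⟨x, hx⟩ * ⟨x, hx⟩)).mpr hx2
  have hkb3 : kb ^ 3 = 1 := by
    rw [hkb, ← map_pow]
    have : (⟨k, hk⟩ : ↥P) ^ 3 = 1 := Subtype.ext (by simpa using hk3)
    rw [this, map_one]
  suffices h : xb * kb * xb⁻¹ * kb = 1 by
    have h' : QuotientGroup.mk' (D.subgroupOf P) (⟨x, hx⟩ * ⟨k, hk⟩ * ⟨x, hx⟩⁻¹ * ⟨k, hk⟩) = 1 := by
      rw [map_mul, map_mul, map_mul, map_inv]
      exact h
    exact (key _).mp h'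
  by_cases hkb1 : kb = 1
  · rw [hkb1]; simp
  have : Fact (Nat.Prime 3) := ⟨by norm_num⟩
  have hord : orderOf kb = 3 := orderOf_eq_prime hkb3 hkb1
  have hHcard : Nat.card ↥(Subgroup.zpowers kb) = 3 := by rw [Nat.card_zpowers, hord]
  have hHidx : (Subgroup.zpowers kb).index = 2 := by
    have := (Subgroup.zpowers kb).card_mul_index
    rw [hHcard, hcard] at this
    omega
  have hxH : xb ∉ Subgroup.zpowers kb := by
    intro h
    obtain ⟨n, hn⟩ := h
    have h3 : xb ^ 3 = 1 := by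
      have hn' : kb ^ n = xb := hn
      rw [← hn', ← zpow_natCast, ← zpow_mul, mul_comm, zpow_mul, zpow_natCast, hkb3, one_zpow]
    have h3' : xb ^ 3 = xb := by rw [pow_succ, pow_two, hxb2, one_mul]
    exact hxb1 (h3'.symm.trans h3)
  have hxkH : xb * kb ∉ Subgroup.zpowers kb := by
    intro h
    apply hxH
    have := (Subgroup.zpowers kb).mul_mem h ((Subgroup.zpowers kb).inv_mem (Subgroup.mem_zpowers kb))
    simpa using this
  have hsq : (xb * kb) * (xb * kb) ∈ Subgroup.zpowers kb :=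
    (Subgroup.mul_mem_iff_of_index_two hHidx).mpr Iff.rfl
  by_cases hy2 : (xb * kb) * (xb * kb) = 1
  · have hxinv : xb⁻¹ = xb := inv_eq_of_mul_eq_one_left hxb2
    rw [hxinv]
    calc xb * kb * xb * kb = (xb * kb) * (xb * kb) := by group
      _ = 1 := hy2
  · exfalso
    have hdvd : orderOf (xb * kb) ∣ 6 := hcard ▸ orderOf_dvd_natCard (xb * kb)
    have hcases : orderOf (xb * kb) = 1 ∨ orderOf (xb * kb) = 2 ∨ orderOf (xb * kb) = 3 ∨
        orderOf (xb * kb) = 6 := by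
      have hm : orderOf (xb * kb) ∈ Nat.divisors 6 := Nat.mem_divisors.mpr ⟨hdvd, by norm_num⟩
      have h6' : Nat.divisors 6 = {1, 2, 3, 6} := by decide
      rw [h6'] at hm
      simpa using hm
    have hy6 : orderOf (xb * kb) = 6 := by
      rcases hcases with h | h | h | h
      · exfalso
        have := orderOf_eq_one_iff.mp h
        apply hy2
        rw [this, one_mul]
      · exfalso
        apply hy2
        have := pow_orderOf_eq_one (xb * kb)
        rw [h, pow_two] at this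
        exact this
      · exfalso
        apply hxkH
        have h3 := pow_orderOf_eq_one (xb * kb)
        rw [h] at h3
        have e : xb * kb = ((xb * kb) * (xb * kb))⁻¹ := by
          have : (xb * kb) * ((xb * kb) * (xb * kb)) = 1 := by
            rw [← h3, pow_succ, pow_two]
            exact (mul_assoc (xb * kb) (xb * kb) (xb * kb)).symm
          exact eq_inv_of_mul_eq_one_left this
        rw [e]
        exact (Subgroup.zpowers kb).inv_mem hsq
      · exact h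
    have hcyc : IsCyclic (↥P ⧸ D.subgroupOf P) :=
      isCyclic_of_orderOf_eq_card (xb * kb) (by rw [hy6, hcard])
    obtain ⟨g, hg⟩ := hcyc.exists_generator
    apply hnab
    rw [Subgroup.commutator_le]
    intro p hp q hq
    have hc : QuotientGroup.mk' (D.subgroupOf P) ⟨p, hp⟩ * QuotientGroup.mk' (D.subgroupOf P) ⟨q, hq⟩
        = QuotientGroup.mk' (D.subgroupOf P) ⟨q, hq⟩ * QuotientGroup.mk' (D.subgroupOf P) ⟨p, hp⟩ := by
      obtain ⟨m, hm⟩ := hg (QuotientGroup.mk' (D.subgroupOf P) ⟨p, hp⟩)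
      obtain ⟨n, hn⟩ := hg (QuotientGroup.mk' (D.subgroupOf P) ⟨q, hq⟩)
      have hm' : g ^ m = QuotientGroup.mk' (D.subgroupOf P) ⟨p, hp⟩ := hm
      have hn' : g ^ n = QuotientGroup.mk' (D.subgroupOf P) ⟨q, hq⟩ := hn
      rw [← hm', ← hn']
      exact ((Commute.refl g).zpow_zpow m n).eq
    have h1 : QuotientGroup.mk' (D.subgroupOf P)
        (⟨p, hp⟩ * ⟨q, hq⟩ * ⟨p, hp⟩⁻¹ * ⟨q, hq⟩⁻¹) = 1 := by
      rw [map_mul, map_mul, map_mul, map_inv, map_inv, hc]
      group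
    have h2 := (key _).mp h1
    rw [commutatorElement_def]
    exact h2

/-- `T ∖ O₂(K ⊔ T)` inverts the elements of order 3 of `K` modulo `O₂(K ⊔ T)`. -/
def PInv3 : Prop := ∀ {G : Type u} [Group G] [Finite G] (S : Sylow 2 G) (M T K L : Subgroup G),
  Base S M T K L → ∀ x ∈ T, x ∉ pCoreOf 2 (K ⊔ T) → ∀ g ∈ K, g ^ 3 = 1 →
    x * g * x⁻¹ * g ∈ pCoreOf 2 (K ⊔ T)

theorem pdidx : PDidx.{u} := by
  intro G _ _ S M T K L hB
  obtain ⟨-, hSyl, h6, -, -, -⟩ := Cfsg.Agent.H94.Jy.good_facts S M T K L hB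
  obtain ⟨hDT, -, -⟩ := Cfsg.Agent.H40.Jx.pf S M T K L hB
  obtain ⟨hTP, hT2, hodd⟩ := hSyl
  exact mul_mem_of_relIndex_two _ T (relIndex_two _ T _ hDT hTP hT2 hodd h6)

theorem pinv3 : PInv3.{u} := by
  intro G _ _ S M T K L hB x hx hxD g hg hg3
  obtain ⟨-, hSyl, h6, hnab, -, -⟩ := Cfsg.Agent.H94.Jy.good_facts S M T K L hB
  obtain ⟨-, -, hPN⟩ := Cfsg.Agent.H40.Jx.pf S M T K L hB
  exact inv_mod _ (K ⊔ T) hPN h6 hnab x g (Subgroup.mem_sup_right hx) (Subgroup.mem_sup_left hg)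
    hxD (pdidx S M T K L hB x hx x hx hxD hxD) hg3

/-- JX-KA modulo the `P'`-side facts (inversion only for elements of order 3). -/
theorem ka_of_pside3 (hPF : StPF.{u}) (hInv : PInv3.{u}) (hDidx : PDidx.{u}) : StKA.{u} := by
  intro G _ _ S M K L T' K' L' hR hVQ
  classical
  obtain ⟨hB, hNS, hB', hne⟩ := hR
  obtain ⟨-, -, -, hV4, hV2, hVS, hNV, hSL, -, -, -, -, hTI⟩ :=
    Cfsg.Agent.H43.Jy.vfacts S M K L T' K' L' hB hNS hB' hne
  have hB'0 := hB'
  obtain ⟨-, -, -, -, -, hT'S, hK', -, -⟩ := hB'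
  have hJc : IsJComponent T' K' := hK'.1.1
  have hK'nL : ¬ K' ≤ L := hK'.2.1
  obtain ⟨hgen, hcomm, hrel3, -, -, -⟩ := hJc
  obtain ⟨hQT, -, hPN⟩ := hPF S L T' K' L' hB'0
  obtain ⟨k, hkK, hkodd, hkL⟩ : ∃ k ∈ K', Odd (orderOf k) ∧ k ∉ L := by
    by_contra hcon
    push Not at hcon
    apply hK'nL
    intro x hx
    have hx' : x ∈ Subgroup.closure {g : G | g ∈ K' ∧ Odd (orderOf g)} := by
      rw [hgen]; exact hx
    exact (Subgroup.closure_le L).mpr (fun g hg => hcon g hg.1 hg.2) hx'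
  have hk3 : k ^ 3 = 1 := pow_three_of_odd K' hrel3 k hkK hkodd
  have hJQ : ¬ thompsonSubgroupOf 2 T' ≤ pCoreOf 2 (K' ⊔ T') := fun h =>
    Cfsg.Agent.H94.Jy.not_le_normalizer hgen hcomm hrel3
      (Cfsg.Agent.H51.pCoreOf_isPGroup 2 _) h (le_sup_left.trans hPN)
  obtain ⟨A, hAT, hAe, hmax, hAQ⟩ := exists_max_elem_not_le T' _ hJQ
  obtain ⟨a, haA, haQ⟩ := SetLike.not_le_iff_exists.mp hAQ
  have hLN : ∀ x ∈ L, x ∈ Subgroup.normalizer (Vof L : Set G) := by
    intro x hx; rw [hNV]; exact hx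
  refine Cfsg.Agent.H82.Jv.caseA T' (pCoreOf 2 (K' ⊔ T')) (Vof L) A k a hQT hVQ hV4 hV2 ?_ ?_
    (hPN (Subgroup.mem_sup_left hkK)) hk3 ?_ hAT hAe hmax haA ?_ ?_ ?_
  · intro g hg
    exact hLN g (hTI g hg)
  · intro q hq
    exact hLN q (hSL (hT'S (hQT hq)))
  · intro h
    rw [hNV] at h
    exact hkL h
  · exact hLN a (hSL (hT'S (hAT haA)))
  · exact hInv S L T' K' L' hB'0 a (hAT haA) haQ k hkK hk3
  · intro t ht
    by_cases h : t ∈ pCoreOf 2 (K' ⊔ T')
    · left; exact h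
    · right; exact hDidx S L T' K' L' hB'0 t (hAT ht) a (hAT haA) h haQ

/-- **JX-KA**: the case `V ≤ Q₁` of the residual configuration of S2953 is impossible. -/
theorem ka : StKA.{u} := ka_of_pside3 Cfsg.Agent.H40.Jx.pf pinv3 pdidx

example : Cfsg.Agent.H52.Jx.StKA.{u} := ka

end Cfsg.Agent.H5.Jx

#print axioms Cfsg.Agent.H5.Jx.ka
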