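import Mathlib
import Cfsg.Agent.S4494
import Cfsg.Agent.S4710
import Cfsg.Agent.H81.BlockDim
import Cfsg.Agent.H20.DefectOrder
import Cfsg.Agent.H82.Irr

set_option autoImplicit false
set_option linter.unusedSectionVars false
set_option linter.style.haveILetI false

/-!
# helper5: 2-blocks with a defect group of order 4 have exactly four characters

`card_block_eq_four`: Brauer–Feit (`k ≤ 5`), heights zero for defect 2, and Brauer's
`ν_2(∑ χ(1)²) = 2a - d` give `k(B) ≡ 0 mod 4`, hence `k(B) = 4`.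
-/

namespace Cfsg.Agent.H5.Klein4

open Cfsg Cfsg.Agent.H20

universe u

variable {G : Type u} [Group G] [Fintype G] {M : Ideal AlgInt}

theorem odd_sq_mod_four (o : ℕ) (ho : ¬ 2 ∣ o) : o ^ 2 % 4 = 1 := by
  have h1 : o % 4 = 1 ∨ o % 4 = 3 := by omega
  rcases h1 with h | h
  · rw [Nat.pow_mod, h]
  · rw [Nat.pow_mod, h]

theorem sum_odd_sq_mod_four {ι : Type*} (s : Finset ι) (o : ι → ℕ) (ho : ∀ i ∈ s, ¬ 2 ∣ o i) :
    (∑ i ∈ s, o i ^ 2) % 4 = s.card % 4 := by
  rw [Finset.sum_nat_mod]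
  have : ∑ i ∈ s, o i ^ 2 % 4 = ∑ i ∈ s, 1 := Finset.sum_congr rfl
    (fun i hi => odd_sq_mod_four (o i) (ho i hi))
  rw [this, Finset.sum_const, smul_eq_mul, mul_one]

/-- A 2-block with a defect group of order 4 has exactly four irreducible characters. -/
theorem card_block_eq_four (hM : IsPModular 2 M) (B : Set (IrrCharacter G)) (hB : IsPBlock M B)
    (P : Subgroup G) (hPD : IsDefectGroup 2 M B P) (hP4 : Nat.card P = 4) : Nat.card B = 4 := by
  classical
  haveI : Fact (Nat.Prime 2) := ⟨Nat.prime_two⟩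
  letI := Cfsg.Agent.H4.fintypeIrr G
  have hMp := isPrime_of_isPModular hM
  have hB' := hB
  obtain ⟨χ₀, rfl⟩ := hB
  have hχ₀ : χ₀ ∈ blockOf M χ₀.1 := Cfsg.Agent.H80.mem_blockOf_self hMp χ₀
  obtain ⟨B, hBdef⟩ : ∃ B : Set (IrrCharacter G), B = blockOf M χ₀.1 := ⟨_, rfl⟩
  rw [← hBdef] at hPD hB' hχ₀ ⊢
  have hd : blockDefect 2 B = 2 := by
    have h1 := card_defectGroup hM χ₀ P (hBdef ▸ hPD)
    rw [← hBdef, hP4] at h1
    have h2 : (2 : ℕ) ^ 2 = 2 ^ blockDefect 2 B := by rw [← h1]; norm_num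
    exact (Nat.pow_right_injective (le_refl 2) h2).symm
  have h494 := Cfsg.Agent.S4494.result 2 M hM B hB'
  rw [hd] at h494
  have h710 := (Cfsg.Agent.S4710.result 2 M hM B hB' 2 hd).2
  have hsq := Cfsg.Agent.H81.sq_sum_factorization hM B hB'
  rw [hd] at hsq
  obtain ⟨a, ha⟩ : ∃ a : ℕ, a = (Nat.card G).factorization 2 := ⟨_, rfl⟩
  obtain ⟨m, hm⟩ : ∃ m : ℕ, m = sInf ((fun χ : IrrCharacter G =>
      (charDegree (χ : G → ℂ)).factorization 2) '' B) := ⟨_, rfl⟩
  have hdm : a - m = 2 := by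
    have := hd
    unfold blockDefect at this
    rw [← ha, ← hm] at this
    exact this
  rw [← ha] at hsq
  have hval : ∀ χ ∈ B, (charDegree (χ : G → ℂ)).factorization 2 = m := by
    intro χ hχ
    have h1 := (h710 χ hχ).2 (le_refl 2)
    unfold blockHeight at h1
    rw [← hm] at h1
    have h2 : m ≤ (charDegree (χ : G → ℂ)).factorization 2 := by
      rw [hm]
      exact Nat.sInf_le ⟨χ, hχ, rfl⟩
    omega
  obtain ⟨s, hs⟩ : ∃ s : Finset (IrrCharacter G), s = (Set.toFinite B).toFinset := ⟨_, rfl⟩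
  have hmem : ∀ χ, χ ∈ s ↔ χ ∈ B := fun χ => by rw [hs]; exact Set.Finite.mem_toFinset _
  have hcard : Nat.card B = s.card := by
    rw [Nat.card_coe_set_eq, Set.ncard_eq_toFinset_card B (Set.toFinite B), hs]
  have hsum : ∑ᶠ χ ∈ B, charDegree (χ : G → ℂ) ^ 2
      = 2 ^ (2 * m) * ∑ χ ∈ s, (charDegree (χ : G → ℂ) / 2 ^ m) ^ 2 := by
    rw [finsum_mem_eq_finite_toFinset_sum _ (Set.toFinite B), ← hs, Finset.mul_sum]
    apply Finset.sum_congr rfl
    intro χ hχ
    have h1 := Nat.ordProj_mul_ordCompl_eq_self (charDegree (χ : G → ℂ)) 2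
    rw [hval χ ((hmem χ).mp hχ)] at h1
    conv_lhs => rw [← h1]
    ring
  have hodd : ∀ χ ∈ s, ¬ 2 ∣ charDegree (χ : G → ℂ) / 2 ^ m := by
    intro χ hχ
    have h1 := Nat.not_dvd_ordCompl Nat.prime_two (Cfsg.Agent.H82.charDegree_pos χ).ne'
    rw [hval χ ((hmem χ).mp hχ)] at h1
    exact h1
  have hmod := sum_odd_sq_mod_four s (fun χ => charDegree (χ : G → ℂ) / 2 ^ m) hodd
  obtain ⟨S, hS⟩ : ∃ S : ℕ, S = ∑ χ ∈ s, (charDegree (χ : G → ℂ) / 2 ^ m) ^ 2 := ⟨_, rfl⟩
  rw [← hS] at hmod hsum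
  have hspos : 0 < s.card := Finset.card_pos.mpr ⟨χ₀, (hmem χ₀).mpr hχ₀⟩
  have hS0 : S ≠ 0 := by
    intro h0
    rw [h0] at hmod
    have h1 : s.card % 4 = 0 := hmod.symm
    -- then the factorization of the sum is 0
    rw [hsum, h0, mul_zero, Nat.factorization_zero] at hsq
    have : (0 : ℕ) = 2 * a - 2 := by simpa using hsq
    omega
  have h4 : 4 ∣ S := by
    rw [hsum, Nat.factorization_mul (pow_ne_zero _ two_ne_zero) hS0] at hsq
    have h1 : ((2 : ℕ) ^ (2 * m)).factorization 2 = 2 * m := by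
      rw [Nat.Prime.factorization_pow Nat.prime_two]; simp
    have h2 : S.factorization 2 = 2 := by
      have h3 : ((2 : ℕ) ^ (2 * m)).factorization 2 + S.factorization 2 = 2 * a - 2 := by
        simpa using hsq
      rw [h1] at h3
      omega
    have h3 := Nat.ordProj_dvd S 2
    rw [h2] at h3
    exact h3
  rw [hcard]
  have h5 : s.card ≤ 5 := by
    rw [hcard] at h494
    norm_num at h494
    omega
  omega

end Cfsg.Agent.H5.Klein4
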