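import Mathlib
import Cfsg.Agent.H5.Klein4A
import Cfsg.Agent.H26.AutKQ
import Cfsg.Agent.H80.IndPair
import Cfsg.Agent.H80.MaxConj2
import Cfsg.Agent.H80.AbelDefect
import Cfsg.Agent.S4437
import Cfsg.Agent.H20.LocalChar

set_option autoImplicit false
set_option linter.unusedSectionVars false
set_option linter.style.haveILetI false

/-!
# helper5: Klein four defect groups — the inertial group

* `isMaximal_of_defect`: a defect group `P` with a block `c` of `C_G(P)` inducing `B` is a
  maximal Brauer pair.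
* `fix_mem_centralizer`, `exists_trans`: the action of an odd-index overgroup `T` of `C_G(P)` in
  `N_G(P)` on a four-group `P`.
* `relIndex_odd`, `relIndex_cases`: the inertial index is `1` or `3`.
-/

namespace Cfsg.Agent.H5.Klein4

open Cfsg Cfsg.Agent.H20 Cfsg.Agent.H80

universe u

section TGroup

variable {G : Type*} [Group G] (P T : Subgroup G)

theorem klein_cases [IsKleinFour P] {u v : G} (hu : u ∈ P) (hv : v ∈ P) (hu1 : u ≠ 1)
    (hv1 : v ≠ 1) (huv : u ≠ v) {w : G} (hw : w ∈ P) : w = 1 ∨ w = u ∨ w = v ∨ w = u * v := by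
  have h := Cfsg.Agent.H26.kleinFour_cases (T := P) (a := ⟨u, hu⟩) (b := ⟨v, hv⟩)
    (fun h => hu1 (congrArg Subtype.val h)) (fun h => hv1 (congrArg Subtype.val h))
    (fun h => huv (congrArg Subtype.val h)) ⟨w, hw⟩
  rcases h with h | h | h | h
  · exact Or.inl (congrArg Subtype.val h)
  · exact Or.inr (Or.inl (congrArg Subtype.val h))
  · exact Or.inr (Or.inr (Or.inl (congrArg Subtype.val h)))
  · exact Or.inr (Or.inr (Or.inr (congrArg Subtype.val h)))

theorem klein_sq [IsKleinFour P] {u : G} (hu : u ∈ P) : u * u = 1 :=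
  congrArg Subtype.val (IsKleinFour.mul_self (⟨u, hu⟩ : P))

theorem klein_le_centralizer [IsKleinFour P] : P ≤ Subgroup.centralizer (P : Set G) := by
  intro x hx
  rw [Subgroup.mem_centralizer_iff]
  intro y hy
  have h := mul_comm_of_exponent_two (G := P) IsKleinFour.exponent_two ⟨y, hy⟩ ⟨x, hx⟩
  exact congrArg Subtype.val h

theorem centralizer_normal_in [IsKleinFour P] (hCT : Subgroup.centralizer (P : Set G) ≤ T)
    (hTN : T ≤ Subgroup.normalizer (P : Set G)) :
    ((Subgroup.centralizer (P : Set G)).subgroupOf T).Normal := by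
  rw [Subgroup.normal_subgroupOf_iff_le_normalizer hCT]
  exact hTN.trans (normalizer_le_normalizer_centralizer P)

/-- An element of `T` fixing a non-identity element of the four-group `P` centralizes `P`, when
`|T : C_G(P)|` is odd. -/
theorem fix_mem_centralizer [IsKleinFour P] (hCT : Subgroup.centralizer (P : Set G) ≤ T)
    (hTN : T ≤ Subgroup.normalizer (P : Set G))
    (hodd : ¬ 2 ∣ (Subgroup.centralizer (P : Set G)).relIndex T)
    {y u : G} (hy : y ∈ T) (hu : u ∈ P) (hu1 : u ≠ 1) (hfix : y * u * y⁻¹ = u) :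
    y ∈ Subgroup.centralizer (P : Set G) := by
  by_contra hyC
  have h1 : ∃ v ∈ P, y * v * y⁻¹ ≠ v := by
    by_contra hcon
    push Not at hcon
    apply hyC
    rw [Subgroup.mem_centralizer_iff]
    intro v hv
    have h2 := hcon v hv
    calc v * y = (y * v * y⁻¹) * y := by rw [h2]
      _ = y * v := by group
  obtain ⟨v, hv, hvy⟩ := h1
  have hv1 : v ≠ 1 := by
    rintro rfl
    apply hvy
    group
  have hvu : u ≠ v := by
    rintro rfl
    exact hvy hfix
  have hwP : y * v * y⁻¹ ∈ P := (Subgroup.mem_normalizer_iff.mp (hTN hy) v).mp hv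
  have hw : y * v * y⁻¹ = u * v := by
    rcases klein_cases P hu hv hu1 hv1 hvu hwP with h | h | h | h
    · exfalso
      apply hv1
      have : v = y⁻¹ * (y * v * y⁻¹) * y := by group
      rw [this, h]; group
    · exfalso
      apply hvu
      have e1 : v = u := by
        calc v = y⁻¹ * (y * v * y⁻¹) * y := by group
          _ = y⁻¹ * u * y := by rw [h]
          _ = y⁻¹ * (y * u * y⁻¹) * y := by rw [hfix]
          _ = u := by group
      exact e1.symm
    · exact absurd h hvy
    · exact h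
  have hyy : y * y ∈ Subgroup.centralizer (P : Set G) := by
    have hfu : (y * y) * u * (y * y)⁻¹ = u := by
      calc (y * y) * u * (y * y)⁻¹ = y * (y * u * y⁻¹) * y⁻¹ := by group
        _ = u := by rw [hfix, hfix]
    have hfv : (y * y) * v * (y * y)⁻¹ = v := by
      calc (y * y) * v * (y * y)⁻¹ = y * (y * v * y⁻¹) * y⁻¹ := by group
        _ = y * (u * v) * y⁻¹ := by rw [hw]
        _ = (y * u * y⁻¹) * (y * v * y⁻¹) := by group
        _ = u * (u * v) := by rw [hfix, hw]
        _ = (u * u) * v := by group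
        _ = v := by rw [klein_sq P hu, one_mul]
    rw [Subgroup.mem_centralizer_iff]
    intro w hw'
    have key : ∀ z : G, (y * y) * z * (y * y)⁻¹ = z → z * (y * y) = (y * y) * z := by
      intro z hz
      calc z * (y * y) = ((y * y) * z * (y * y)⁻¹) * (y * y) := by rw [hz]
        _ = (y * y) * z := by group
    rcases klein_cases P hu hv hu1 hv1 hvu hw' with h | h | h | h
    · rw [h]; group
    · rw [h]; exact key u hfu
    · rw [h]; exact key v hfv
    · rw [h]
      apply key
      calc (y * y) * (u * v) * (y * y)⁻¹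
          = ((y * y) * u * (y * y)⁻¹) * ((y * y) * v * (y * y)⁻¹) := by group
        _ = u * v := by rw [hfu, hfv]
  exact hodd (Cfsg.Agent.H26.two_dvd_relIndex _ T (centralizer_normal_in P T hCT hTN) hy hyC hyy)

/-- If `|T : C_G(P)|` is odd and not `1`, `T` is transitive on the non-identity elements of the
four-group `P`. -/
theorem exists_trans [IsKleinFour P] (hCT : Subgroup.centralizer (P : Set G) ≤ T)
    (hTN : T ≤ Subgroup.normalizer (P : Set G))
    (hodd : ¬ 2 ∣ (Subgroup.centralizer (P : Set G)).relIndex T)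
    (hne : ¬ T ≤ Subgroup.centralizer (P : Set G))
    {u u' : G} (hu : u ∈ P) (hu1 : u ≠ 1) (hu' : u' ∈ P) (hu'1 : u' ≠ 1) :
    ∃ t ∈ T, t * u * t⁻¹ = u' := by
  obtain ⟨t, htT, htC⟩ := SetLike.not_le_iff_exists.mp hne
  have hconjP : ∀ s ∈ T, ∀ z ∈ P, s * z * s⁻¹ ∈ P := fun s hs z hz =>
    (Subgroup.mem_normalizer_iff.mp (hTN hs) z).mp hz
  have hconj1 : ∀ s z : G, z ≠ 1 → s * z * s⁻¹ ≠ 1 := by
    intro s z hz h
    apply hz
    have : z = s⁻¹ * (s * z * s⁻¹) * s := by group
    rw [this, h]; group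
  have h1P : t * u * t⁻¹ ∈ P := hconjP t htT u hu
  have h11 : t * u * t⁻¹ ≠ 1 := hconj1 t u hu1
  have h1u : u ≠ t * u * t⁻¹ := by
    intro h
    exact htC (fix_mem_centralizer P T hCT hTN hodd htT hu hu1 h.symm)
  have h2P : (t * t) * u * (t * t)⁻¹ ∈ P := hconjP (t * t) (T.mul_mem htT htT) u hu
  have h21 : (t * t) * u * (t * t)⁻¹ ≠ 1 := hconj1 (t * t) u hu1
  have h2u : (t * t) * u * (t * t)⁻¹ ≠ u := by
    intro h
    have h3 := fix_mem_centralizer P T hCT hTN hodd (T.mul_mem htT htT) hu hu1 h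
    exact hodd (Cfsg.Agent.H26.two_dvd_relIndex _ T (centralizer_normal_in P T hCT hTN) htT htC h3)
  have h2u1 : (t * t) * u * (t * t)⁻¹ ≠ t * u * t⁻¹ := by
    intro h
    apply h1u
    calc u = t⁻¹ * (t * u * t⁻¹) * t := by group
      _ = t⁻¹ * ((t * t) * u * (t * t)⁻¹) * t := by rw [h]
      _ = t * u * t⁻¹ := by group
  have h2 : (t * t) * u * (t * t)⁻¹ = u * (t * u * t⁻¹) := by
    rcases klein_cases P hu h1P hu1 h11 h1u h2P with h | h | h | h
    · exact absurd h h21
    · exact absurd h h2u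
    · exact absurd h h2u1
    · exact h
  rcases klein_cases P hu h1P hu1 h11 h1u hu' with h | h | h | h
  · exact absurd h hu'1
  · exact ⟨1, T.one_mem, by rw [h]; group⟩
  · exact ⟨t, htT, h.symm⟩
  · exact ⟨t * t, T.mul_mem htT htT, by rw [h, h2]⟩

/-- The index of `C_G(P)` in an intermediate subgroup of `N_G(P)` divides `6`. -/
theorem relIndex_dvd_six [IsKleinFour P] (hCT : Subgroup.centralizer (P : Set G) ≤ T)
    (hTN : T ≤ Subgroup.normalizer (P : Set G)) :
    (Subgroup.centralizer (P : Set G)).relIndex T ∣ 6 := by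
  have h1 := Subgroup.relIndex_mul_relIndex _ _ _ hCT hTN
  have h2 := Cfsg.Agent.H26.relIndex_dvd_card_mulAut P
  have h3 : Nat.card (MulAut P) ∣ 6 := Cfsg.Agent.H26.kleinFour_card_mulAut_dvd
  exact (Dvd.intro _ h1).trans (h2.trans h3)

end TGroup

section Pairs

variable {G : Type u} [Group G] [Fintype G] {M : Ideal AlgInt}

/-- A defect group together with a block of its centralizer inducing `B` is a maximal Brauer
pair of `B`. -/
theorem isMaximal_of_defect (p : ℕ) [Fact p.Prime] (hM : IsPModular p M)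
    (B : Set (IrrCharacter G)) (P : Subgroup G) (hPD : IsDefectGroup p M B P)
    (c : Set (IrrCharacter (Subgroup.centralizer (P : Set G))))
    (hc : IsInducedBlock M (Subgroup.centralizer (P : Set G)) c B) :
    IsMaximalBrauerPair p M B P c := by
  have hPp : IsPGroup p P := isPGroup_of_isDefectGroup hPD
  have hpair := isBrauerPairOf_of_isInducedBlock p hM hPp hc
  refine ⟨hpair, fun R g hRg hle => ?_⟩
  have hPR : P ≤ R := subpairLE_le hle
  obtain ⟨P₂, c₂, hmax₂, hle₂⟩ := exists_maximal_ge p _ R g hRg rfl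
  have hRP₂ : R ≤ P₂ := subpairLE_le hle₂
  have hD₂ := isDefectGroup_of_maximal p hM B P₂ c₂ hmax₂
  obtain ⟨χ₀, rfl⟩ := hc.2.1
  have c1 := card_defectGroup hM χ₀ P hPD
  have c2 := card_defectGroup hM χ₀ P₂ hD₂
  have h3 : Nat.card P₂ ≤ Nat.card P := by rw [c1, c2]
  exact (Subgroup.eq_of_le_of_card_ge hPR ((Subgroup.card_le_of_le hRP₂).trans h3)).symm

/-- Membership in the stabilizer of the pair `(P, c)`. -/
theorem stab_iff (hM : M.IsPrime) {P : Subgroup G}
    {c : Set (IrrCharacter (Subgroup.centralizer (P : Set G)))} (hc : IsPBlock M c) (y : G) :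
    conjPair y ⟨P, c⟩ = ⟨P, c⟩ ↔ (y ∈ Subgroup.normalizer (P : Set G) ∧
      StabilizesBlock (Subgroup.centralizer (P : Set G)) c y) :=
  ⟨fun h => stab_of_conjPair_eq hM hc h, fun h => conjPair_eq_of_stab hM hc h.1 h.2⟩

/-- The inertial index of a block with a four-group as defect group is odd. -/
theorem relIndex_odd (hM : IsPModular 2 M) (B : Set (IrrCharacter G)) (P : Subgroup G)
    (hPD : IsDefectGroup 2 M B P) (hPab : P ≤ Subgroup.centralizer (P : Set G))
    (c : Set (IrrCharacter (Subgroup.centralizer (P : Set G))))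
    (hc : IsInducedBlock M (Subgroup.centralizer (P : Set G)) c B) (T : Subgroup G)
    (hT : ∀ g : G, g ∈ T ↔ (g ∈ Subgroup.normalizer (P : Set G) ∧
      StabilizesBlock (Subgroup.centralizer (P : Set G)) c g)) :
    ¬ 2 ∣ (Subgroup.centralizer (P : Set G)).relIndex T := by
  classical
  haveI : Fact (Nat.Prime 2) := ⟨Nat.prime_two⟩
  haveI : Fintype ↥(Subgroup.centralizer (P : Set G)) := Fintype.ofFinite _
  have hMp := isPrime_of_isPModular hM
  have hPp : IsPGroup 2 P := isPGroup_of_isDefectGroup hPD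
  obtain ⟨ξ, hξ⟩ := hc.1
  obtain ⟨χ₀, hχ₀⟩ := hc.2.1
  have hξc : ξ ∈ c := by rw [hξ]; exact mem_blockOf_self hMp ξ
  have hχB : χ₀ ∈ B := by rw [hχ₀]; exact mem_blockOf_self hMp χ₀
  have hbP : IsDefectGroup 2 M c (P.subgroupOf (Subgroup.centralizer (P : Set G))) := by
    rw [hξ]
    exact Cfsg.Agent.H79.isDefectGroup_subgroupOf_of_induced hM _ P hPp hPab
      (Subgroup.centralizer_le_normalizer _) ξ χ₀ (fun g => hc.2.2 ξ hξc χ₀ hχB g)
      (hχ₀ ▸ hPD)
  have key := Cfsg.Agent.S4437.result 2 M hM P hPp (Subgroup.centralizer (P : Set G))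
    (sup_eq_right.mpr hPab).symm c hc.1 hbP B hc T (by
      intro g
      rw [hT g]
      constructor
      · rintro ⟨hg, hst⟩
        refine ⟨hg, ?_⟩
        have hgC := normalizer_le_normalizer_centralizer P hg
        rw [stab_cond_iff hMp _ hc.1 g hgC]
        obtain ⟨hx, h⟩ := (stabilizesBlock_iff hMp _ hc.1 g).mp hst
        exact h
      · rintro ⟨hg, hst⟩
        refine ⟨hg, ?_⟩
        have hgC := normalizer_le_normalizer_centralizer P hg
        rw [stab_cond_iff hMp _ hc.1 g hgC] at hst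
        exact (stabilizesBlock_iff hMp _ hc.1 g).mpr ⟨hgC, hst⟩)
  exact key.mp hPD

end Pairs

end Cfsg.Agent.H5.Klein4
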