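import Mathlib
import Cfsg.Agent.H5.Klein4B
import Cfsg.Agent.S4511
import Cfsg.Agent.S4667
import Cfsg.Agent.H84.SectionSum4
import Cfsg.Agent.H81.Proj

set_option autoImplicit false
set_option linter.unusedSectionVars false
set_option linter.style.haveILetI false

/-!
# helper5: Brauer's subsection count, in the language of Brauer pairs

* `one_le_blockRank`: a nonempty set of irreducible characters has positive `p`-regular rank.
* `sum_rank_eq_pair`: the `x`-term of `k(B) = ∑_x ∑_{b^G = B} l(b)` as a sum over the Brauer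
  pairs `(⟨x⟩, f)` of `B`.
* `sum_rank_one`: the term at `x = 1` is `l(B)`.
* `exists_reps`: representatives of the classes of `p`-elements containing a prescribed one.
-/

namespace Cfsg.Agent.H5.Klein4

open Cfsg Cfsg.Agent.H20 Cfsg.Agent.H80
open ComplexConjugate

universe u

section Rank

theorem one_le_blockRank {H : Type u} [Group H] [Finite H] (p : ℕ) (hp : p.Prime)
    {b : Set (IrrCharacter H)} (ξ : IrrCharacter H) (hξ : ξ ∈ b) : 1 ≤ blockRank p b := by
  classical
  unfold blockRank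
  rw [Nat.succ_le_iff, Module.finrank_pos_iff_exists_ne_zero]
  refine ⟨⟨pRegularPart p (ξ : H → ℂ), Submodule.subset_span ⟨ξ, hξ, rfl⟩⟩, ?_⟩
  intro h
  have h1 : pRegularPart p (ξ : H → ℂ) = 0 := congrArg Subtype.val h
  have h2 := congrFun h1 1
  have hone : ¬ p ∣ orderOf (1 : H) := by
    rw [orderOf_one]; exact hp.one_lt.ne' ∘ Nat.dvd_one.mp
  rw [Cfsg.Agent.H81.pRegularPart_of_not_dvd p _ hone] at h2
  exact Cfsg.Agent.H82.irr_one_ne_zero ξ h2

end Rank

variable {G : Type u} [Group G] [Fintype G] {M : Ideal AlgInt}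

theorem sum_rank_congr (p : ℕ) (B : Set (IrrCharacter G)) (H H' : Subgroup G) (h : H = H') :
    (∑ᶠ b ∈ {b : Set (IrrCharacter H) | IsInducedBlock M H b B}, blockRank p b)
      = ∑ᶠ b ∈ {b : Set (IrrCharacter H') | IsInducedBlock M H' b B}, blockRank p b := by
  subst h
  rfl

theorem zpowers_le_centralizer (x : G) :
    Subgroup.zpowers x ≤ Subgroup.centralizer ((Subgroup.zpowers x : Subgroup G) : Set G) := by
  intro a ha
  rw [Subgroup.mem_centralizer_iff]
  intro b hb
  obtain ⟨i, rfl⟩ := Subgroup.mem_zpowers_iff.mp ha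
  obtain ⟨j, rfl⟩ := Subgroup.mem_zpowers_iff.mp hb
  rw [← zpow_add, ← zpow_add, add_comm]

/-- The `x`-term of Brauer's count as a sum over the Brauer pairs of `B` at `⟨x⟩`. -/
theorem sum_rank_eq_pair (p : ℕ) [Fact p.Prime] (hM : IsPModular p M) (B : Set (IrrCharacter G))
    (x : G) (hx : IsPGroup p (Subgroup.zpowers x)) :
    (∑ᶠ b ∈ {b : Set (IrrCharacter (Subgroup.centralizer ({x} : Set G))) |
        IsInducedBlock M (Subgroup.centralizer ({x} : Set G)) b B}, blockRank p b)
      = ∑ᶠ f ∈ {f : Set (IrrCharacter (Subgroup.centralizer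
          ((Subgroup.zpowers x : Subgroup G) : Set G))) |
        IsBrauerPairOf p M B (Subgroup.zpowers x) f}, blockRank p f := by
  rw [sum_rank_congr p B _ _ (Cfsg.Agent.H84.centralizer_zpowers_eq x).symm]
  have hset : {b : Set (IrrCharacter (Subgroup.centralizer
      ((Subgroup.zpowers x : Subgroup G) : Set G))) |
      IsInducedBlock M (Subgroup.centralizer ((Subgroup.zpowers x : Subgroup G) : Set G)) b B}
      = {f | IsBrauerPairOf p M B (Subgroup.zpowers x) f} := by
    ext f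
    exact ⟨fun h => isBrauerPairOf_of_isInducedBlock p hM hx h,
      fun h => Cfsg.Agent.H84.isInducedBlock_of_isBrauerPairOf hM B _ (zpowers_le_centralizer x) f h⟩
  rw [hset]

/-- The term of Brauer's count at `x = 1` is the rank of `B`. -/
theorem sum_rank_one (p : ℕ) [Fact p.Prime] (hM : IsPModular p M) (B : Set (IrrCharacter G))
    (hB : IsPBlock M B) :
    (∑ᶠ b ∈ {b : Set (IrrCharacter (Subgroup.centralizer ({(1 : G)} : Set G))) |
        IsInducedBlock M (Subgroup.centralizer ({(1 : G)} : Set G)) b B}, blockRank p b)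
      = blockRank p B := by
  classical
  have h2' : Cfsg.Agent.H84.SecondMain p M G := fun x hx B hB χ hχ b hb hnot y hy =>
    Cfsg.Agent.S0923.result p M hM x hx B hB χ hχ b hb hnot y hy
  have hxC : ∀ c ∈ Subgroup.centralizer ({(1 : G)} : Set G), (1 : G) * c = c * 1 :=
    fun c _ => by rw [one_mul, mul_one]
  have hCx : ∀ g : G, g * 1 = 1 * g → g ∈ Subgroup.centralizer ({(1 : G)} : Set G) := by
    intro g _
    rw [Subgroup.mem_centralizer_iff]
    intro w hw
    rw [Set.mem_singleton_iff] at hw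
    rw [hw, one_mul, mul_one]
  have h1 := Cfsg.Agent.H84.sum_blockRank_induced hM (1 : G) ⟨0, by simp⟩ _ hxC hCx B
    (Cfsg.Agent.H84.secondMain_both hM h2' 1 ⟨0, by simp⟩ B hB)
  have h3 := Cfsg.Agent.S4667.result p M hM B hB
  have hG0 : (Nat.card G : ℂ) ≠ 0 := by
    exact_mod_cast (Nat.card_pos (α := G)).ne'
  apply Nat.cast_injective (R := ℂ)
  rw [h1]
  have hCtop : Subgroup.centralizer ({(1 : G)} : Set G) = ⊤ := by
    ext g
    simp only [Subgroup.mem_top, iff_true]
    exact hCx g (by rw [one_mul, mul_one])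
  have key : ∀ (C : Subgroup G), C = ⊤ →
      (Nat.card C : ℂ)⁻¹ * ∑ᶠ s : C, pRegularPart p
        (fun s : C => ∑ᶠ χ ∈ B, (χ : G → ℂ) (1 * (s : G)) *
          conj ((χ : G → ℂ) (1 * (s : G)))) s
      = (Nat.card G : ℂ)⁻¹ * ∑ x : G, ∑ᶠ χ ∈ B, pRegularPart p (χ : G → ℂ) x *
          (χ : G → ℂ) x⁻¹ := by
    intro C hC
    subst hC
    rw [Subgroup.card_top]
    congr 1
    haveI : Fintype ↥(⊤ : Subgroup G) := Fintype.ofFinite _
    rw [finsum_eq_sum_of_fintype]
    apply Fintype.sum_equiv (Subgroup.topEquiv (G := G)).toEquiv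
    intro s
    have hord : orderOf s = orderOf (s : G) := (Subgroup.orderOf_coe s).symm
    show _ = ∑ᶠ χ ∈ B, pRegularPart p (χ : G → ℂ) (s : G) * (χ : G → ℂ) (s : G)⁻¹
    by_cases hs : p ∣ orderOf (s : G)
    · rw [Cfsg.Agent.H81.pRegularPart_of_dvd p _ (hord ▸ hs)]
      symm
      apply finsum_mem_eq_zero_of_forall_eq_zero
      intro χ _
      rw [Cfsg.Agent.H81.pRegularPart_of_dvd p _ hs, zero_mul]
    · rw [Cfsg.Agent.H81.pRegularPart_of_not_dvd p _ (hord ▸ hs)]
      apply finsum_mem_congr rfl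
      intro χ _
      rw [Cfsg.Agent.H81.pRegularPart_of_not_dvd p _ hs, one_mul, Cfsg.Agent.H82.irr_inv]
  rw [key _ hCtop, ← h3]
  field_simp

/-- Representatives of the conjugacy classes of `p`-elements, containing a prescribed
`p`-element. -/
theorem exists_reps (p : ℕ) (u₀ : G) (hu₀ : ∃ k : ℕ, orderOf u₀ = p ^ k) :
    ∃ X : Finset G, (∀ x ∈ X, ∃ k : ℕ, orderOf x = p ^ k) ∧
      (∀ g : G, (∃ k : ℕ, orderOf g = p ^ k) → ∃! x, x ∈ X ∧ IsConj g x) ∧ u₀ ∈ X := by
  classical
  obtain ⟨r, hr⟩ : ∃ r : ConjClasses G → G, r = fun C =>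
      if C = ConjClasses.mk u₀ then u₀ else Quotient.out C := ⟨_, rfl⟩
  have hmk : ∀ C : ConjClasses G, ConjClasses.mk (r C) = C := by
    intro C
    rw [hr]
    by_cases hC : C = ConjClasses.mk u₀
    · simp only [if_pos hC]; exact hC.symm
    · simp only [if_neg hC]; exact Quotient.out_eq C
  have hord : ∀ g h : G, IsConj g h → orderOf g = orderOf h := by
    intro g h hgh
    obtain ⟨c, hc⟩ := isConj_iff.mp hgh
    rw [← hc]
    have := Cfsg.Agent.H84.orderOf_conj_eq c⁻¹ g
    rw [inv_inv] at this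
    exact this.symm
  refine ⟨(Finset.univ.filter (fun C : ConjClasses G => ∃ k : ℕ, orderOf (r C) = p ^ k)).image r,
    ?_, ?_, ?_⟩
  · intro x hx
    rw [Finset.mem_image] at hx
    obtain ⟨C, hC, rfl⟩ := hx
    exact (Finset.mem_filter.mp hC).2
  · intro g hg
    have hconj : IsConj g (r (ConjClasses.mk g)) := by
      rw [← ConjClasses.mk_eq_mk_iff_isConj, hmk]
    refine ⟨r (ConjClasses.mk g), ⟨?_, hconj⟩, ?_⟩
    · rw [Finset.mem_image]
      refine ⟨ConjClasses.mk g, Finset.mem_filter.mpr ⟨Finset.mem_univ _, ?_⟩, rfl⟩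
      obtain ⟨k, hk⟩ := hg
      exact ⟨k, by rw [← hord g _ hconj, hk]⟩
    · rintro y ⟨hy, hgy⟩
      rw [Finset.mem_image] at hy
      obtain ⟨C, -, rfl⟩ := hy
      have : ConjClasses.mk g = C := by
        rw [ConjClasses.mk_eq_mk_iff_isConj.mpr hgy, hmk]
      rw [this]
  · rw [Finset.mem_image]
    refine ⟨ConjClasses.mk u₀, Finset.mem_filter.mpr ⟨Finset.mem_univ _, ?_⟩, ?_⟩
    · rw [hr]; simp only [if_pos]; exact hu₀
    · rw [hr]; simp only [if_pos]

end Cfsg.Agent.H5.Klein4
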