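import Mathlib
import Cfsg.Agent.H5.Klein4C

set_option autoImplicit false
set_option linter.unusedSectionVars false
set_option linter.style.haveILetI false

/-!
# helper5: blocks with Klein four defect group and trivial inertial quotient have `l(B) = 1`

* `ncard_le_sum_rank`: for an abelian defect group `P` with `N_G(P, c) = C_G(P)`, the elements of
  `P` conjugate to `x` give distinct Brauer pairs of `B` at `⟨x⟩`.
* `blockRank_eq_one`: if moreover `P` is a four-group, `l(B) = 1`.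
-/

namespace Cfsg.Agent.H5.Klein4

open Cfsg Cfsg.Agent.H20 Cfsg.Agent.H80

universe u

variable {G : Type u} [Group G] [Fintype G] {M : Ideal AlgInt}

theorem comm_of_sq {P : Subgroup G} (hsq : ∀ u ∈ P, u * u = 1) :
    ∀ a ∈ P, ∀ b ∈ P, a * b = b * a := by
  intro a ha b hb
  have h1 : a⁻¹ = a := inv_eq_of_mul_eq_one_right (hsq a ha)
  have h2 : b⁻¹ = b := inv_eq_of_mul_eq_one_right (hsq b hb)
  have h3 : (a * b)⁻¹ = a * b := inv_eq_of_mul_eq_one_right (hsq _ (P.mul_mem ha hb))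
  calc a * b = (a * b)⁻¹ := h3.symm
    _ = b⁻¹ * a⁻¹ := mul_inv_rev a b
    _ = b * a := by rw [h1, h2]

theorem exists_pow_two_of_sq {u : G} (h : u * u = 1) : ∃ k : ℕ, orderOf u = 2 ^ k := by
  have h1 : orderOf u ∣ 2 := orderOf_dvd_of_pow_eq_one (by rw [pow_two]; exact h)
  rcases (Nat.dvd_prime Nat.prime_two).mp h1 with h2 | h2
  · exact ⟨0, by rw [h2, pow_zero]⟩
  · exact ⟨1, by rw [h2, pow_one]⟩

/-- Lower bound for the `x`-term of Brauer's count when the inertial group is `C_G(P)`. -/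
theorem ncard_le_sum_rank (hM : IsPModular 2 M) {B : Set (IrrCharacter G)} {P : Subgroup G}
    {c : Set (IrrCharacter (Subgroup.centralizer (P : Set G)))}
    (hmax : IsMaximalBrauerPair 2 M B P c)
    (hab : ∀ a ∈ P, ∀ b ∈ P, a * b = b * a)
    (hT1 : ∀ y : G, conjPair y ⟨P, c⟩ = ⟨P, c⟩ → y ∈ Subgroup.centralizer (P : Set G))
    (x : G) :
    Set.ncard {u : G | u ∈ P ∧ IsConj u x} ≤
      ∑ᶠ f ∈ {f : Set (IrrCharacter (Subgroup.centralizer
          ((Subgroup.zpowers x : Subgroup G) : Set G))) |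
        IsBrauerPairOf 2 M B (Subgroup.zpowers x) f}, blockRank 2 f := by
  classical
  haveI : Fact (Nat.Prime 2) := ⟨Nat.prime_two⟩
  have hMp := isPrime_of_isPModular hM
  haveI : Fintype ↥(Subgroup.centralizer ((Subgroup.zpowers x : Subgroup G) : Set G)) :=
    Fintype.ofFinite _
  letI := Cfsg.Agent.H4.fintypeIrr
    ↥(Subgroup.centralizer ((Subgroup.zpowers x : Subgroup G) : Set G))
  obtain ⟨S, hS⟩ : ∃ S : Set (Set (IrrCharacter (Subgroup.centralizer
      ((Subgroup.zpowers x : Subgroup G) : Set G)))),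
      S = {f | IsBrauerPairOf 2 M B (Subgroup.zpowers x) f} := ⟨_, rfl⟩
  rw [← hS]
  have hSfin : S.Finite := Set.toFinite S
  have h1 : S.ncard ≤ ∑ᶠ f ∈ S, blockRank 2 f := by
    rw [finsum_mem_eq_finite_toFinset_sum _ hSfin, Set.ncard_eq_toFinset_card S hSfin,
      Finset.card_eq_sum_ones]
    apply Finset.sum_le_sum
    intro f hf
    rw [Set.Finite.mem_toFinset, hS] at hf
    obtain ⟨ξ, hξ⟩ := hf.1.2
    exact one_le_blockRank 2 Nat.prime_two ξ (by rw [hξ]; exact mem_blockOf_self hMp ξ)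
  have key : ∀ u : G, u ∈ P ∧ IsConj u x → ∃ F, F ∈ S ∧ ∃ (g : G)
      (f : Set (IrrCharacter (Subgroup.centralizer ((Subgroup.zpowers u : Subgroup G) : Set G)))),
      g * u * g⁻¹ = x ∧ IsPBlock M f ∧ SubpairLE 2 M (Subgroup.zpowers u) f P c ∧
        conjPair g ⟨Subgroup.zpowers u, f⟩ = ⟨Subgroup.zpowers x, F⟩ := by
    rintro u ⟨huP, hux⟩
    obtain ⟨g, hg⟩ := isConj_iff.mp hux
    have hQP : Subgroup.zpowers u ≤ P := (Subgroup.zpowers_le).mpr huP
    obtain ⟨f, hf, hle⟩ := exists_subpairLE hM P c hmax.1.1 _ (Subgroup.zpowers u) hQP rfl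
    have hfst : (conjPair g ⟨Subgroup.zpowers u, f⟩).1 = Subgroup.zpowers x := by
      show (Subgroup.zpowers u).map (MulAut.conj g).toMonoidHom = Subgroup.zpowers x
      rw [MonoidHom.map_zpowers]
      congr 1
    obtain ⟨F, hF⟩ := exists_snd_of_fst_eq _ hfst
    refine ⟨F, ?_, g, f, hg, hf, hle, hF⟩
    have hpair : IsBrauerPairOf 2 M B (Subgroup.zpowers u) f :=
      isBrauerPairOf_of_ge 2 hM (a := ⟨Subgroup.zpowers u, f⟩) (b := ⟨P, c⟩) hmax.1 hle
    have h2 : IsBrauerPairOf 2 M B (conjPair g ⟨Subgroup.zpowers u, f⟩).1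
        (conjPair g ⟨Subgroup.zpowers u, f⟩).2 := isBrauerPairOf_conj 2 g hpair
    rw [hF] at h2
    rw [hS]
    exact h2
  choose! F hFS g f hg hf hle hF using key
  have h2 : Set.ncard {u : G | u ∈ P ∧ IsConj u x} ≤ S.ncard := by
    apply Set.ncard_le_ncard_of_injOn F (fun u hu => hFS u hu) ?_ hSfin
    intro u hu u' hu' hFF
    have e1 : conjPair (g u) ⟨Subgroup.zpowers u, f u⟩
        = conjPair (g u') ⟨Subgroup.zpowers u', f u'⟩ := by
      rw [hF u hu, hF u' hu', hFF]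
    obtain ⟨k, hkdef⟩ : ∃ k : G, k = (g u')⁻¹ * g u := ⟨_, rfl⟩
    have e2 : conjPair k ⟨Subgroup.zpowers u, f u⟩ = ⟨Subgroup.zpowers u', f u'⟩ := by
      rw [hkdef, ← conjPair_mul, e1, conjPair_mul, inv_mul_cancel, conjPair_one]
    have hk : k * u * k⁻¹ = u' := by
      have h1 := hg u hu
      have h2 := hg u' hu'
      calc k * u * k⁻¹ = (g u')⁻¹ * (g u * u * (g u)⁻¹) * g u' := by rw [hkdef]; group
        _ = (g u')⁻¹ * (g u' * u' * (g u')⁻¹) * g u' := by rw [h1, h2]
        _ = u' := by group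
    have hmaxb := isMaximal_conjPair 2 hmax k
    have hleb : Relation.ReflTransGen (NormalSubpairRel 2 M) ⟨Subgroup.zpowers u', f u'⟩
        (conjPair k ⟨P, c⟩) := by
      rw [← e2]
      exact subpairLE_conj 2 k (hle u hu)
    have hPC : P ≤ Subgroup.centralizer ((Subgroup.zpowers u' : Subgroup G) : Set G) := by
      intro a ha
      rw [Subgroup.mem_centralizer_iff]
      intro b hb
      obtain ⟨i, rfl⟩ := Subgroup.mem_zpowers_iff.mp hb
      have hc : Commute u' a := hab u' hu'.1 a ha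
      exact (hc.zpow_left i).eq
    have hPC' : (conjPair k ⟨P, c⟩).1
        ≤ Subgroup.centralizer ((Subgroup.zpowers u' : Subgroup G) : Set G) := by
      rintro _ ⟨a, ha, rfl⟩
      rw [Subgroup.mem_centralizer_iff]
      intro b hb
      obtain ⟨i, rfl⟩ := Subgroup.mem_zpowers_iff.mp hb
      have hc : Commute u' ((MulAut.conj k).toMonoidHom a) := by
        show u' * (k * a * k⁻¹) = (k * a * k⁻¹) * u'
        rw [← hk]
        calc k * u * k⁻¹ * (k * a * k⁻¹) = k * (u * a) * k⁻¹ := by group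
          _ = k * (a * u) * k⁻¹ := by rw [hab u hu.1 a ha]
          _ = k * a * k⁻¹ * (k * u * k⁻¹) := by group
      exact (hc.zpow_left i).eq
    obtain ⟨c₀, hc₀, hc₀eq⟩ := exists_centralizer_conj_of_maximal 2 hM hmax (conjPair k ⟨P, c⟩)
      hmaxb (hf u' hu') (hle u' hu') hleb hPC hPC'
    rw [conjPair_mul] at hc₀eq
    have hmem := hT1 _ hc₀eq
    have h3 : u * (c₀ * k) = (c₀ * k) * u := Subgroup.mem_centralizer_iff.mp hmem u hu.1
    have h4 : u' * c₀ = c₀ * u' :=
      Subgroup.mem_centralizer_iff.mp hc₀ u' (Subgroup.mem_zpowers u')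
    have h5 : c₀ * u' = u * c₀ := by
      rw [← hk]
      calc c₀ * (k * u * k⁻¹) = (c₀ * k * u) * k⁻¹ := by group
        _ = (u * (c₀ * k)) * k⁻¹ := by rw [h3]
        _ = u * c₀ := by group
    exact mul_right_cancel (h5.symm.trans h4.symm)
  exact h2.trans h1

/-- A 2-block with a four-group `P` as defect group and `N_G(P, c) = C_G(P)` has a single
irreducible Brauer character. -/
theorem blockRank_eq_one (hM : IsPModular 2 M) {B : Set (IrrCharacter G)} {P : Subgroup G}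
    {c : Set (IrrCharacter (Subgroup.centralizer (P : Set G)))}
    (hmax : IsMaximalBrauerPair 2 M B P c) (hP4 : Nat.card P = 4)
    (hsq : ∀ u ∈ P, u * u = 1)
    (hT1 : ∀ y : G, conjPair y ⟨P, c⟩ = ⟨P, c⟩ → y ∈ Subgroup.centralizer (P : Set G)) :
    blockRank 2 B = 1 := by
  classical
  haveI : Fact (Nat.Prime 2) := ⟨Nat.prime_two⟩
  have hMp := isPrime_of_isPModular hM
  have hB : IsPBlock M B := hmax.1.2.1
  have hab := comm_of_sq hsq
  have k4 := card_block_eq_four hM B hB P (isDefectGroup_of_maximal 2 hM B P c hmax) hP4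
  obtain ⟨X, hX, hXrep, -⟩ := exists_reps 2 (1 : G) ⟨0, by simp⟩
  have hcount := Cfsg.Agent.S4511.result 2 M hM B hB X hX hXrep
  rw [k4] at hcount
  have hpg : ∀ x ∈ X, IsPGroup 2 (Subgroup.zpowers x) := by
    intro x hx
    obtain ⟨k, hk⟩ := hX x hx
    exact IsPGroup.of_card (n := k) (by rw [Nat.card_zpowers, hk])
  have hterm : ∀ x ∈ X, Set.ncard {u : G | u ∈ P ∧ IsConj u x} ≤
      ∑ᶠ b ∈ {b : Set (IrrCharacter (Subgroup.centralizer ({x} : Set G))) |
        IsInducedBlock M (Subgroup.centralizer ({x} : Set G)) b B}, blockRank 2 b := by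
    intro x hx
    rw [sum_rank_eq_pair 2 hM B x (hpg x hx)]
    exact ncard_le_sum_rank hM hmax hab hT1 x
  obtain ⟨Pf, hPf⟩ : ∃ Pf : Finset G, Pf = Finset.univ.filter (· ∈ P) := ⟨_, rfl⟩
  have hPfmem : ∀ u, u ∈ Pf ↔ u ∈ P := fun u => by rw [hPf]; simp
  have hPfcard : Pf.card = 4 := by
    rw [← hP4, ← Set.ncard_coe_finset Pf]
    have : (↑Pf : Set G) = (P : Set G) := by
      ext u; exact hPfmem u
    rw [this]
    rfl
  have hUx : ∀ x : G, Set.ncard {u : G | u ∈ P ∧ IsConj u x}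
      = (Pf.filter (fun u => IsConj u x)).card := by
    intro x
    rw [← Set.ncard_coe_finset]
    congr 1
    ext u
    simp only [Set.mem_setOf_eq, Finset.coe_filter, hPfmem]
  have hsum : ∑ x ∈ X, Set.ncard {u : G | u ∈ P ∧ IsConj u x} = 4 := by
    rw [Finset.sum_congr rfl (fun x _ => hUx x), ← Finset.card_biUnion, ← hPfcard]
    · congr 1
      ext u
      rw [Finset.mem_biUnion]
      constructor
      · rintro ⟨x, -, hu⟩
        exact (Finset.mem_filter.mp hu).1
      · intro hu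
        obtain ⟨x, ⟨hx, hc⟩, -⟩ := hXrep u (exists_pow_two_of_sq (hsq u ((hPfmem u).mp hu)))
        exact ⟨x, hx, Finset.mem_filter.mpr ⟨hu, hc⟩⟩
    · intro x hx y hy hxy
      show Disjoint (Pf.filter (fun u => IsConj u x)) (Pf.filter (fun u => IsConj u y))
      rw [Finset.disjoint_left]
      intro u hux huy
      obtain ⟨hu, hcx⟩ := Finset.mem_filter.mp hux
      obtain ⟨-, hcy⟩ := Finset.mem_filter.mp huy
      obtain ⟨z, -, huniq⟩ := hXrep u (exists_pow_two_of_sq (hsq u ((hPfmem u).mp hu)))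
      exact hxy ((huniq x ⟨hx, hcx⟩).trans (huniq y ⟨hy, hcy⟩).symm)
  have h1X : (1 : G) ∈ X := by
    obtain ⟨x, ⟨hx, hc⟩, -⟩ := hXrep 1 ⟨0, by simp⟩
    have hx1 : x = 1 := by
      obtain ⟨d, hd⟩ := isConj_iff.mp hc
      rw [← hd]; group
    rwa [hx1] at hx
  have heq := (Finset.sum_eq_sum_iff_of_le hterm).mp (by rw [hsum, ← hcount])
  have h1 := heq 1 h1X
  rw [sum_rank_one 2 hM B hB] at h1
  have hU1 : {u : G | u ∈ P ∧ IsConj u 1} = {1} := by
    ext u
    simp only [Set.mem_setOf_eq, Set.mem_singleton_iff]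
    constructor
    · rintro ⟨-, hc⟩
      obtain ⟨d, hd⟩ := isConj_iff.mp hc
      have : u = d⁻¹ * (d * u * d⁻¹) * d := by group
      rw [this, hd]; group
    · rintro rfl
      exact ⟨P.one_mem, IsConj.refl 1⟩
  rw [hU1, Set.ncard_singleton] at h1
  exact h1.symm

end Cfsg.Agent.H5.Klein4
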