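import Mathlib
import Cfsg.Agent.H5.Klein4D
import Cfsg.Agent.H80.FullCent
import Cfsg.Agent.H80.Lift
import Cfsg.Agent.H80.StabBlock

set_option autoImplicit false
set_option linter.unusedSectionVars false
set_option linter.style.haveILetI false

/-!
# helper5: blocks with Klein four defect group and inertial index 3 have `l(B) = 3`

* `rank_sub_eq_one`: the block `f₀` of `C_G(Q)` below `(P, c)` has `l(f₀) = 1` when the
  stabilizer of `(P, c)` meets `C_G(Q)` in `C_G(P)`.
* `blockRank_eq_three`.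
-/

namespace Cfsg.Agent.H5.Klein4

open Cfsg Cfsg.Agent.H20 Cfsg.Agent.H80

universe u

variable {G : Type u} [Group G] [Fintype G] {M : Ideal AlgInt}

/-- The block of `C_G(Q)` below a maximal pair `(P, c)` with `P` a four-group has rank one, if
the elements of `C_G(Q)` stabilizing `(P, c)` centralize `P`. -/
theorem rank_sub_eq_one (hM : IsPModular 2 M) {B : Set (IrrCharacter G)} {P : Subgroup G}
    {c : Set (IrrCharacter (Subgroup.centralizer (P : Set G)))}
    (hmax : IsMaximalBrauerPair 2 M B P c) (hP4 : Nat.card P = 4)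
    (hsq : ∀ u ∈ P, u * u = 1) (Q : Subgroup G) (hQP : Q ≤ P)
    (f₀ : Set (IrrCharacter (Subgroup.centralizer (Q : Set G)))) (hf₀ : IsPBlock M f₀)
    (hle₀ : SubpairLE 2 M Q f₀ P c)
    (hstab : ∀ y : G, conjPair y ⟨P, c⟩ = ⟨P, c⟩ → y ∈ Subgroup.centralizer (Q : Set G) →
      y ∈ Subgroup.centralizer (P : Set G)) :
    blockRank 2 f₀ = 1 := by
  classical
  haveI : Fact (Nat.Prime 2) := ⟨Nat.prime_two⟩
  have hMp := isPrime_of_isPModular hM
  have hab := comm_of_sq hsq
  have hPH : P ≤ Subgroup.centralizer (Q : Set G) := by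
    intro a ha
    rw [Subgroup.mem_centralizer_iff]
    intro q hq
    exact hab q (hQP hq) a ha
  have hCP : Subgroup.centralizer (P : Set G) ≤ Subgroup.centralizer (Q : Set G) :=
    Subgroup.centralizer_le hQP
  obtain ⟨a, ha1, hup⟩ := exists_upPair_eq (Subgroup.centralizer (Q : Set G)) hPH hCP c
  have hfst : a.1.map (Subgroup.centralizer (Q : Set G)).subtype = P := congrArg Sigma.fst hup
  have ha : Subgroup.centralizer (((a.1.map (Subgroup.centralizer (Q : Set G)).subtype
      : Subgroup G)) : Set G) ≤ Subgroup.centralizer (Q : Set G) := by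
    rw [hfst]; exact hCP
  have hnorm : IsNormalSubpair 2 M Q f₀ P c :=
    normalSubpair_of_le_of_le 2 hM hmax.1.1 hQP
      (hPH.trans (Subgroup.centralizer_le_normalizer _)) hle₀ Relation.ReflTransGen.refl
  have hβ : ∀ x : Subgroup.centralizer (Q : Set G),
      subgroupBlockCoeff (Subgroup.centralizer (Q : Set G)) f₀ (x : G) = blockCoeff f₀ x := by
    intro x
    unfold subgroupBlockCoeff
    rw [dif_pos x.2]
  have hpairOf : IsBrauerPairOf 2 M f₀ a.1 a.2 := by
    apply isBrauerPairOf_of_up (Subgroup.centralizer (Q : Set G)) 2 hf₀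
      (subgroupBlockCoeff (Subgroup.centralizer (Q : Set G)) f₀) hβ a ha
    · rw [hup]; exact hmax.1.1
    · rw [hup]; exact hnorm.2.2.2.2.2
  have hmaxa := isMaximal_of_up (Subgroup.centralizer (Q : Set G)) 2 hM hmax a ha hup hpairOf
  haveI : Fintype ↥(Subgroup.centralizer (Q : Set G)) := Fintype.ofFinite _
  obtain ⟨R, g⟩ := a
  simp only at ha1 hfst ha hpairOf hmaxa
  refine blockRank_eq_one hM hmaxa ?_ ?_ ?_
  · rw [ha1, ← hP4]
    exact Nat.card_congr (Subgroup.subgroupOfEquivOfLe hPH).toEquiv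
  · intro r hr
    rw [ha1, Subgroup.mem_subgroupOf] at hr
    exact Subtype.ext (hsq _ hr)
  · intro h hh
    have h1 := conjPair_up (Subgroup.centralizer (Q : Set G)) h ⟨R, g⟩ ha
    rw [hh, hup] at h1
    have h2 := hstab (h : G) h1.symm h.2
    rw [Subgroup.mem_centralizer_iff]
    intro r hr
    rw [SetLike.mem_coe, ha1, Subgroup.mem_subgroupOf] at hr
    exact Subtype.ext (Subgroup.mem_centralizer_iff.mp h2 (r : G) hr)

/-- A 2-block with a four-group `P` as defect group whose inertial group `T` properly contains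
`C_G(P)` (with odd index) has exactly three irreducible Brauer characters. -/
theorem blockRank_eq_three (hM : IsPModular 2 M) {B : Set (IrrCharacter G)} {P : Subgroup G}
    {c : Set (IrrCharacter (Subgroup.centralizer (P : Set G)))}
    (hmax : IsMaximalBrauerPair 2 M B P c) [IsKleinFour P] (T : Subgroup G)
    (hT : ∀ g : G, g ∈ T ↔ conjPair g ⟨P, c⟩ = ⟨P, c⟩)
    (hodd : ¬ 2 ∣ (Subgroup.centralizer (P : Set G)).relIndex T)
    (hne : ¬ T ≤ Subgroup.centralizer (P : Set G)) : blockRank 2 B = 3 := by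
  classical
  haveI : Fact (Nat.Prime 2) := ⟨Nat.prime_two⟩
  have hMp := isPrime_of_isPModular hM
  have hB : IsPBlock M B := hmax.1.2.1
  have hcblk : IsPBlock M c := hmax.1.1.2
  have hP4 : Nat.card P = 4 := IsKleinFour.card_four
  have hsq : ∀ u ∈ P, u * u = 1 := fun u hu => klein_sq P hu
  have hab := comm_of_sq hsq
  have hTN : T ≤ Subgroup.normalizer (P : Set G) :=
    fun g hg => ((stab_iff hMp hcblk g).mp ((hT g).mp hg)).1
  have hCT : Subgroup.centralizer (P : Set G) ≤ T := by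
    intro g hg
    rw [hT g, stab_iff hMp hcblk]
    exact ⟨Subgroup.centralizer_le_normalizer _ hg, stabilizesBlock_of_mem _ c hg⟩
  have k4 := card_block_eq_four hM B hB P (isDefectGroup_of_maximal 2 hM B P c hmax) hP4
  obtain ⟨a, b, ha, hb, hab'⟩ := Cfsg.Agent.H26.kleinFour_exists_pair (T := P)
  obtain ⟨u₀, hu₀P, hu₀1⟩ : ∃ u₀ : G, u₀ ∈ P ∧ u₀ ≠ 1 :=
    ⟨a, a.2, fun h => ha (Subtype.ext h)⟩
  have hQP : Subgroup.zpowers u₀ ≤ P := (Subgroup.zpowers_le).mpr hu₀P
  obtain ⟨f₀, hf₀, hle₀⟩ := exists_subpairLE hM P c hmax.1.1 _ (Subgroup.zpowers u₀) hQP rfl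
  have hrank₀ : blockRank 2 f₀ = 1 := by
    apply rank_sub_eq_one hM hmax hP4 hsq (Subgroup.zpowers u₀) hQP f₀ hf₀ hle₀
    intro y hy hyC
    have hfix : y * u₀ * y⁻¹ = u₀ := by
      have := Subgroup.mem_centralizer_iff.mp hyC u₀ (Subgroup.mem_zpowers u₀)
      rw [← this]; group
    exact fix_mem_centralizer P T hCT hTN hodd ((hT y).mpr hy) hu₀P hu₀1 hfix
  obtain ⟨X, hX, hXrep, hu₀X⟩ := exists_reps 2 u₀ (exists_pow_two_of_sq (hsq u₀ hu₀P))
  have hcount := Cfsg.Agent.S4511.result 2 M hM B hB X hX hXrep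
  rw [k4] at hcount
  have hpg : ∀ x ∈ X, IsPGroup 2 (Subgroup.zpowers x) := by
    intro x hx
    obtain ⟨k, hk⟩ := hX x hx
    exact IsPGroup.of_card (n := k) (by rw [Nat.card_zpowers, hk])
  have h1X : (1 : G) ∈ X := by
    obtain ⟨x, ⟨hx, hc⟩, -⟩ := hXrep 1 ⟨0, by simp⟩
    have hx1 : x = 1 := by
      obtain ⟨d, hd⟩ := isConj_iff.mp hc
      rw [← hd]; group
    rwa [hx1] at hx
  -- conjugating a pair of `B` at `⟨x⟩` below `(P, c)`, with `x ↦ u₀`
  have hconj : ∀ (x : G), x ≠ 1 → ∀ f : Set (IrrCharacter (Subgroup.centralizer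
      ((Subgroup.zpowers x : Subgroup G) : Set G))), IsBrauerPairOf 2 M B (Subgroup.zpowers x) f →
      ∃ k : G, k * x * k⁻¹ = u₀ ∧ Relation.ReflTransGen (NormalSubpairRel 2 M)
        (conjPair k ⟨Subgroup.zpowers x, f⟩) ⟨P, c⟩ := by
    intro x hx1 f hf
    obtain ⟨g, hg⟩ := exists_conj_subpairLE 2 hM hmax hf
    have hsub : (Subgroup.zpowers x).map (MulAut.conj g).toMonoidHom ≤ P := subpairLE_le hg
    have huP : g * x * g⁻¹ ∈ P := hsub ⟨x, Subgroup.mem_zpowers x, rfl⟩
    have hu1 : g * x * g⁻¹ ≠ 1 := by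
      intro h
      apply hx1
      have : x = g⁻¹ * (g * x * g⁻¹) * g := by group
      rw [this, h]; group
    obtain ⟨t, htT, htu⟩ := exists_trans P T hCT hTN hodd hne huP hu1 hu₀P hu₀1
    refine ⟨t * g, ?_, ?_⟩
    · rw [← htu]; group
    · have h1 := subpairLE_conj 2 t hg
      rw [conjPair_mul, (hT t).mp htT] at h1
      exact h1
  -- the terms of the count
  have hterm1 : (∑ᶠ b ∈ {b : Set (IrrCharacter (Subgroup.centralizer ({(1 : G)} : Set G))) |
      IsInducedBlock M (Subgroup.centralizer ({(1 : G)} : Set G)) b B}, blockRank 2 b)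
      = blockRank 2 B := sum_rank_one 2 hM B hB
  have hterm0 : (∑ᶠ b ∈ {b : Set (IrrCharacter (Subgroup.centralizer ({u₀} : Set G))) |
      IsInducedBlock M (Subgroup.centralizer ({u₀} : Set G)) b B}, blockRank 2 b) = 1 := by
    rw [sum_rank_eq_pair 2 hM B u₀ (hpg u₀ hu₀X)]
    have hset : {f : Set (IrrCharacter (Subgroup.centralizer
        ((Subgroup.zpowers u₀ : Subgroup G) : Set G))) |
        IsBrauerPairOf 2 M B (Subgroup.zpowers u₀) f} = {f₀} := by
      ext f
      simp only [Set.mem_setOf_eq, Set.mem_singleton_iff]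
      constructor
      · intro hf
        obtain ⟨k, hk, hkle⟩ := hconj u₀ hu₀1 f hf
        have hkC : k ∈ Subgroup.centralizer ((Subgroup.zpowers u₀ : Subgroup G) : Set G) := by
          rw [Subgroup.mem_centralizer_iff]
          intro b hb
          obtain ⟨i, rfl⟩ := Subgroup.mem_zpowers_iff.mp hb
          have hc : Commute u₀ k := by
            show u₀ * k = k * u₀
            calc u₀ * k = (k * u₀ * k⁻¹) * k := by rw [hk]
              _ = k * u₀ := by group
          exact (hc.zpow_left i).eq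
        have hfix : conjPair k ⟨Subgroup.zpowers u₀, f⟩ = ⟨Subgroup.zpowers u₀, f⟩ :=
          conjPair_eq_of_stab hMp hf.1.2 (Subgroup.centralizer_le_normalizer _ hkC)
            (stabilizesBlock_of_mem _ f hkC)
        rw [hfix] at hkle
        exact subpairLE_unique hM _ P c rfl hmax.1.1 (Subgroup.zpowers u₀) f f₀ hkle hle₀
      · rintro rfl
        exact isBrauerPairOf_of_ge 2 hM (a := ⟨Subgroup.zpowers u₀, f⟩) (b := ⟨P, c⟩)
          hmax.1 hle₀
    rw [hset, finsum_mem_singleton, hrank₀]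
  have hterm : ∀ x ∈ X, x ≠ 1 ∧ x ≠ u₀ →
      (∑ᶠ b ∈ {b : Set (IrrCharacter (Subgroup.centralizer ({x} : Set G))) |
        IsInducedBlock M (Subgroup.centralizer ({x} : Set G)) b B}, blockRank 2 b) = 0 := by
    rintro x hx ⟨hx1, hxu⟩
    rw [sum_rank_eq_pair 2 hM B x (hpg x hx)]
    have hset : {f : Set (IrrCharacter (Subgroup.centralizer
        ((Subgroup.zpowers x : Subgroup G) : Set G))) |
        IsBrauerPairOf 2 M B (Subgroup.zpowers x) f} = ∅ := by
      ext f
      simp only [Set.mem_setOf_eq, Set.mem_empty_iff_false, iff_false]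
      intro hf
      obtain ⟨k, hk, -⟩ := hconj x hx1 f hf
      obtain ⟨z, -, huniq⟩ := hXrep x (hX x hx)
      have e1 := huniq x ⟨hx, IsConj.refl x⟩
      have e2 := huniq u₀ ⟨hu₀X, isConj_iff.mpr ⟨k, hk⟩⟩
      exact hxu (e1.trans e2.symm)
    rw [hset, finsum_mem_empty]
  have hsplit := Finset.sum_eq_add (s := X) (f := fun x =>
      ∑ᶠ b ∈ {b : Set (IrrCharacter (Subgroup.centralizer ({x} : Set G))) |
        IsInducedBlock M (Subgroup.centralizer ({x} : Set G)) b B}, blockRank 2 b)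
      (1 : G) u₀ (fun h => hu₀1 h.symm) hterm (fun h => absurd h1X h) (fun h => absurd hu₀X h)
  rw [hsplit] at hcount
  rw [hterm1, hterm0] at hcount
  omega

end Cfsg.Agent.H5.Klein4
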