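import Mathlib
import Cfsg.Agent.H5.Klein4E
import Cfsg.Agent.H84.BrauerFeit
import Cfsg.Agent.H84.Contrib3
import Cfsg.Agent.H84.MajorSub

set_option autoImplicit false
set_option linter.unusedSectionVars false
set_option linter.unusedVariables false
set_option linter.style.haveILetI false

/-!
# helper5: blocks with a four-group as defect group, structure of the characters

* `sign_lemma`: a symmetric integer matrix of size four with odd entries, trace four and square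
  equal to four times itself is of the form `E χ * E ξ` for a sign vector `E`.
* `hz_integral`: local integrality of `p ^ e * ξ t / |C(t)|`.
* `mreg_data`, `type1_struct`, `type3_struct`: the matrix of inner products over the
  2-regular elements of a block with four characters of height zero and defect two.
-/

namespace Cfsg.Agent.H5.Klein4

open Cfsg Cfsg.Agent.H4 Cfsg.Agent.H20
open scoped ComplexConjugate

universe u

theorem sign_lemma {ι : Type*} (s : Finset ι) (hs : s.card = 4) (a : ι → ι → ℤ)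
    (hsymm : ∀ χ ∈ s, ∀ ξ ∈ s, a χ ξ = a ξ χ)
    (hidem : ∀ χ ∈ s, ∀ ξ ∈ s, ∑ ψ ∈ s, a χ ψ * a ψ ξ = 4 * a χ ξ)
    (htr : ∑ χ ∈ s, a χ χ = 4)
    (hodd : ∀ χ ∈ s, ∀ ξ ∈ s, ¬ (2 : ℤ) ∣ a χ ξ) :
    ∃ E : ι → ℤ, (∀ χ ∈ s, E χ = 1 ∨ E χ = -1) ∧ ∀ χ ∈ s, ∀ ξ ∈ s, a χ ξ = E χ * E ξ := by
  have hsq1 : ∀ χ ∈ s, ∀ ξ ∈ s, 1 ≤ a χ ξ ^ 2 := by
    intro χ hχ ξ hξ
    have h0 : a χ ξ ≠ 0 := fun h => hodd χ hχ ξ hξ (by rw [h]; exact dvd_zero _)
    have : 0 < a χ ξ ^ 2 := by positivity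
    omega
  have hrow : ∀ χ ∈ s, ∑ ψ ∈ s, a χ ψ ^ 2 = 4 * a χ χ := by
    intro χ hχ
    rw [← hidem χ hχ χ hχ]
    apply Finset.sum_congr rfl
    intro ψ hψ
    rw [hsymm ψ hψ χ hχ]; ring
  have hdiag1 : ∀ χ ∈ s, 1 ≤ a χ χ := by
    intro χ hχ
    have h1 := hrow χ hχ
    have h2 : (4 : ℤ) ≤ ∑ ψ ∈ s, a χ ψ ^ 2 := by
      calc (4 : ℤ) = ∑ ψ ∈ s, 1 := by rw [Finset.sum_const, hs]; simp
        _ ≤ _ := Finset.sum_le_sum (fun ψ hψ => hsq1 χ hχ ψ hψ)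
    omega
  have hdiag : ∀ χ ∈ s, a χ χ = 1 := by
    have h0 : ∑ χ ∈ s, (a χ χ - 1) = 0 := by
      rw [Finset.sum_sub_distrib, htr, Finset.sum_const, hs]; simp
    have h1 := (Finset.sum_eq_zero_iff_of_nonneg
      (fun χ hχ => by have := hdiag1 χ hχ; omega)).mp h0
    intro χ hχ
    have := h1 χ hχ
    omega
  have hsq : ∀ χ ∈ s, ∀ ξ ∈ s, a χ ξ ^ 2 = 1 := by
    intro χ hχ
    have h0 : ∑ ψ ∈ s, (a χ ψ ^ 2 - 1) = 0 := by
      rw [Finset.sum_sub_distrib, hrow χ hχ, hdiag χ hχ, Finset.sum_const, hs]; simp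
    have h1 := (Finset.sum_eq_zero_iff_of_nonneg
      (fun ψ hψ => by have := hsq1 χ hχ ψ hψ; omega)).mp h0
    intro ξ hξ
    have := h1 ξ hξ
    omega
  have hpm : ∀ χ ∈ s, ∀ ξ ∈ s, a χ ξ = 1 ∨ a χ ξ = -1 := by
    intro χ hχ ξ hξ
    have h := hsq χ hχ ξ hξ
    have h' : (a χ ξ - 1) * (a χ ξ + 1) = 0 := by
      have : (a χ ξ - 1) * (a χ ξ + 1) = a χ ξ ^ 2 - 1 := by ring
      rw [this, h]; norm_num
    rcases mul_eq_zero.mp h' with h1 | h1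
    · left; omega
    · right; omega
  have hmul : ∀ χ ∈ s, ∀ ξ ∈ s, ∀ ψ ∈ s, a χ ψ * a ψ ξ = a χ ξ := by
    intro χ hχ ξ hξ
    have h0 : ∑ ψ ∈ s, (1 - a χ ξ * (a χ ψ * a ψ ξ)) = 0 := by
      rw [Finset.sum_sub_distrib, ← Finset.mul_sum, hidem χ hχ ξ hξ, Finset.sum_const, hs]
      have := hsq χ hχ ξ hξ
      simp only [nsmul_eq_mul, Nat.cast_ofNat, mul_one]
      nlinarith
    have hnn : ∀ ψ ∈ s, 0 ≤ 1 - a χ ξ * (a χ ψ * a ψ ξ) := by
      intro ψ hψ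
      rcases hpm χ hχ ξ hξ with h1 | h1 <;> rcases hpm χ hχ ψ hψ with h2 | h2 <;>
        rcases hpm ψ hψ ξ hξ with h3 | h3 <;> rw [h1, h2, h3] <;> norm_num
    have h1 := (Finset.sum_eq_zero_iff_of_nonneg hnn).mp h0
    intro ψ hψ
    have h2 := h1 ψ hψ
    rcases hpm χ hχ ξ hξ with h1 | h1 <;> rcases hpm χ hχ ψ hψ with h3 | h3 <;>
        rcases hpm ψ hψ ξ hξ with h4 | h4 <;> rw [h1, h3, h4] at h2 ⊢ <;> omega
  obtain ⟨χ₁, hχ₁⟩ : s.Nonempty := Finset.card_pos.mp (by rw [hs]; norm_num)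
  refine ⟨fun ψ => a χ₁ ψ, fun χ hχ => hpm χ₁ hχ₁ χ hχ, fun χ hχ ξ hξ => ?_⟩
  rw [← hmul χ hχ ξ hξ χ₁ hχ₁, hsymm χ hχ χ₁ hχ₁]

section HZ

variable {H : Type u} [Group H] [Fintype H] {p : ℕ} [Fact p.Prime] {M : Ideal AlgInt}

/-- Local integrality of `p ^ e * ξ(t) / |C(t)|` when `p ^ e * ξ(1) / |H|` is a local integer. -/
theorem hz_integral (hM : IsPModular p M) (ξ : IrrCharacter H) (e : ℕ)
    (he : (Nat.card H).factorization p ≤ (charDegree (ξ : H → ℂ)).factorization p + e) (t : H) :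
    MemLocalRing M ((p : ℂ) ^ e * (ξ : H → ℂ) t /
      (Nat.card (Subgroup.centralizer ({t} : Set H)) : ℂ)) := by
  have hp : p.Prime := hM.1
  have hMp := isPrime_of_isPModular hM
  have h1 := centralChar_memLocalRing hMp ξ t
  have hdeg := Cfsg.Agent.H81.irr_charDegree ξ
  have h2 : MemLocalRing M (((p ^ e * charDegree (ξ : H → ℂ) : ℕ) : ℂ) / (Nat.card H : ℂ)) := by
    apply memLocalRing_natCast_div hM Nat.card_pos.ne'
    rw [Nat.factorization_mul (pow_ne_zero _ hp.ne_zero) hdeg.2.ne', Finsupp.add_apply,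
      Nat.Prime.factorization_pow hp, Finsupp.single_eq_same]
    omega
  have h3 := memLocalRing_mul hMp h1 h2
  have hidx := Subgroup.index_mul_card (Subgroup.centralizer ({t} : Set H))
  have hi0 : ((Subgroup.centralizer ({t} : Set H)).index : ℂ) ≠ 0 := by
    have : (Subgroup.centralizer ({t} : Set H)).index ≠ 0 := by
      intro h
      rw [h, zero_mul] at hidx
      exact Nat.card_pos.ne' hidx.symm
    exact_mod_cast this
  have hc0 : (Nat.card (Subgroup.centralizer ({t} : Set H)) : ℂ) ≠ 0 := by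
    exact_mod_cast (Nat.card_pos (α := Subgroup.centralizer ({t} : Set H))).ne'
  have hd0 : (charDegree (ξ : H → ℂ) : ℂ) ≠ 0 := by exact_mod_cast hdeg.2.ne'
  have e1 : centralChar (ξ : H → ℂ) t *
      (((p ^ e * charDegree (ξ : H → ℂ) : ℕ) : ℂ) / (Nat.card H : ℂ)) =
      (p : ℂ) ^ e * (ξ : H → ℂ) t / (Nat.card (Subgroup.centralizer ({t} : Set H)) : ℂ) := by
    unfold centralChar
    rw [hdeg.1, ← hidx]
    push_cast
    field_simp
  rw [e1] at h3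
  exact h3

end HZ

section MregData

variable {G : Type u} [Group G] [Fintype G] {M : Ideal AlgInt}

/-- Degrees in a block of defect two with four characters. -/
theorem k4_exp (hM : IsPModular 2 M) (B : Set (IrrCharacter G)) (hB : IsPBlock M B)
    (hd : blockDefect 2 B = 2) :
    (∀ χ ∈ B, Cfsg.Agent.H84.eexp 2 χ = 2) ∧
      (∀ χ ∈ B, ∀ ψ ∈ B, Cfsg.Agent.H84.bexp 2 χ ≤ Cfsg.Agent.H84.bexp 2 ψ) := by
  classical
  haveI : Fact (Nat.Prime 2) := ⟨Nat.prime_two⟩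
  have h710 := (Cfsg.Agent.S4710.result 2 M hM B hB 2 hd).2
  obtain ⟨a, ha⟩ : ∃ a : ℕ, a = (Nat.card G).factorization 2 := ⟨_, rfl⟩
  obtain ⟨m, hm⟩ : ∃ m : ℕ, m = sInf ((fun χ : IrrCharacter G =>
      (charDegree (χ : G → ℂ)).factorization 2) '' B) := ⟨_, rfl⟩
  have hdm : a - m = 2 := by
    have := hd
    unfold blockDefect at this
    rw [← ha, ← hm] at this
    exact this
  have hval : ∀ χ ∈ B, (charDegree (χ : G → ℂ)).factorization 2 = m := by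
    intro χ hχ
    have h1 := (h710 χ hχ).2 (le_refl 2)
    unfold blockHeight at h1
    rw [← hm] at h1
    have h2 : m ≤ (charDegree (χ : G → ℂ)).factorization 2 := by
      rw [hm]
      exact Nat.sInf_le ⟨χ, hχ, rfl⟩
    omega
  constructor
  · intro χ hχ
    unfold Cfsg.Agent.H84.eexp Cfsg.Agent.H84.bexp
    rw [hval χ hχ, ← ha]
    exact hdm
  · intro χ hχ ψ hψ
    unfold Cfsg.Agent.H84.bexp
    rw [hval χ hχ, hval ψ hψ]

/-- The integer matrix `4 * mreg` of a block of defect two whose characters have height zero. -/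
theorem mreg_data (hM : IsPModular 2 M) (B : Set (IrrCharacter G)) (hB : IsPBlock M B)
    (hd : blockDefect 2 B = 2) :
    ∃ A : IrrCharacter G → IrrCharacter G → ℤ,
      (∀ χ ∈ B, ∀ ξ, (A χ ξ : ℂ) = 4 * Cfsg.Agent.H84.mreg 2 χ ξ) ∧
      (∀ χ ∈ B, ∀ ξ ∈ B, A χ ξ = A ξ χ) ∧
      (∀ χ ∈ B, ∀ ξ ∈ B, ∑ ψ ∈ Cfsg.Agent.H84.irrFinset B, A χ ψ * A ψ ξ = 4 * A χ ξ) ∧
      (∑ χ ∈ Cfsg.Agent.H84.irrFinset B, A χ χ = 4 * (blockRank 2 B : ℤ)) ∧
      (∀ χ ∈ B, ∀ ξ ∈ B, ¬ (2 : ℤ) ∣ A χ ξ) := by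
  classical
  haveI : Fact (Nat.Prime 2) := ⟨Nat.prime_two⟩
  letI := fintypeIrr G
  have hMp := isPrime_of_isPModular hM
  obtain ⟨hexp, hmin⟩ := k4_exp hM B hB hd
  have hBeq : ∀ χ ∈ B, blockOf M (χ : G → ℂ) = B := by
    intro χ hχ
    obtain ⟨χ₀, rfl⟩ := hB
    exact Cfsg.Agent.H80.blockOf_eq_of_mem hMp hχ
  have hspec : ∀ χ ∈ B, ∀ ξ, ((Cfsg.Agent.H84.Aint 2 χ ξ : ℤ) : ℂ)
      = 4 * Cfsg.Agent.H84.mreg 2 χ ξ := by
    intro χ hχ ξ
    rw [Cfsg.Agent.H84.Aint_spec hM, hexp χ hχ]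
    norm_num
  have hsymm : ∀ χ ∈ B, ∀ ξ ∈ B, Cfsg.Agent.H84.Aint 2 χ ξ = Cfsg.Agent.H84.Aint 2 ξ χ := by
    intro χ hχ ξ hξ
    apply Int.cast_injective (α := ℂ)
    rw [hspec χ hχ, hspec ξ hξ, Cfsg.Agent.H84.mreg_symm hM]
  refine ⟨Cfsg.Agent.H84.Aint 2, hspec, hsymm, ?_, ?_, ?_⟩
  · intro χ hχ ξ hξ
    apply Int.cast_injective (α := ℂ)
    push_cast
    rw [hspec χ hχ ξ, ← Cfsg.Agent.H84.sum_mreg_mul_conj 2 χ ξ, finsum_eq_sum_of_fintype,
      ← Finset.sum_subset (Finset.subset_univ (Cfsg.Agent.H84.irrFinset B)), Finset.mul_sum,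
      Finset.mul_sum]
    · apply Finset.sum_congr rfl
      intro ψ hψ
      rw [Cfsg.Agent.H84.mem_irrFinset] at hψ
      rw [hspec χ hχ ψ, hspec ψ hψ ξ, Cfsg.Agent.H84.mreg_real hM,
        Cfsg.Agent.H84.mreg_symm hM ψ ξ]
      ring
    · intro ψ _ hψ
      rw [Cfsg.Agent.H84.mem_irrFinset] at hψ
      rw [Cfsg.Agent.H84.mreg_eq_zero hM χ ψ (by rw [hBeq χ hχ]; exact hψ), zero_mul]
  · apply Int.cast_injective (α := ℂ)
    push_cast
    obtain ⟨χ₀, rfl⟩ := hB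
    rw [Cfsg.Agent.H81.blockRank_eq_sum hM χ₀, ← Cfsg.Agent.H84.finsum_mem_eq_sum_ite,
      Cfsg.Agent.H84.finsum_mem_eq_sum_irrFinset, Finset.mul_sum]
    apply Finset.sum_congr rfl
    intro χ hχ
    rw [Cfsg.Agent.H84.mem_irrFinset] at hχ
    rw [hspec χ hχ χ]
    rfl
  · intro χ hχ ξ hξ
    have := Cfsg.Agent.H84.not_dvd_Aint_of_min hM ξ χ
      (fun ψ hψ => hmin ξ hξ ψ (by rw [hBeq ξ hξ] at hψ; exact hψ))
      (by rw [hBeq ξ hξ]; exact hχ)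
    exact_mod_cast this

/-- Expansion of the `2`-regular part of a character of `B` along `B`. -/
theorem pReg_expand_block (hM : IsPModular 2 M) (B : Set (IrrCharacter G)) (hB : IsPBlock M B)
    (χ : IrrCharacter G) (hχ : χ ∈ B) (x : G) :
    pRegularPart 2 (χ : G → ℂ) x =
      ∑ ξ ∈ Cfsg.Agent.H84.irrFinset B, Cfsg.Agent.H84.mreg 2 χ ξ * (ξ : G → ℂ) x := by
  classical
  haveI : Fact (Nat.Prime 2) := ⟨Nat.prime_two⟩
  letI := fintypeIrr G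
  have hMp := isPrime_of_isPModular hM
  have hBeq : blockOf M (χ : G → ℂ) = B := by
    obtain ⟨χ₀, rfl⟩ := hB
    exact Cfsg.Agent.H80.blockOf_eq_of_mem hMp hχ
  rw [Cfsg.Agent.H84.pRegularPart_expand 2 χ, finsum_eq_sum_of_fintype, Finset.sum_apply,
    ← Finset.sum_subset (Finset.subset_univ (Cfsg.Agent.H84.irrFinset B))]
  · apply Finset.sum_congr rfl
    intro ξ _
    rfl
  · intro ψ _ hψ
    rw [Cfsg.Agent.H84.mem_irrFinset] at hψ
    rw [Cfsg.Agent.H84.mreg_eq_zero hM χ ψ (by rw [hBeq]; exact hψ)]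
    simp

end MregData

end Cfsg.Agent.H5.Klein4
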