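import Mathlib
import Cfsg.Agent.H5.K4IsoA

set_option autoImplicit false
set_option linter.unusedSectionVars false
set_option linter.unusedVariables false
set_option linter.style.haveILetI false

/-!
# helper5: blocks with a four-group as defect group, the two types

For a `2`-block `B` with four characters and defect two:
* `type1_struct`: if `l(B) = 1`, all characters of `B` agree on `2`-regular elements and their
  sum vanishes on `2`-singular elements;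
* `type3_struct`: if `l(B) = 3`, there are signs `h` with `∑ h(χ) χ = 0` on `2`-regular
  elements and `h(χ) χ(x)` independent of `χ` on `2`-singular elements.
-/

namespace Cfsg.Agent.H5.Klein4

open Cfsg Cfsg.Agent.H4 Cfsg.Agent.H20
open scoped ComplexConjugate

universe u

variable {G : Type u} [Group G] [Fintype G] {M : Ideal AlgInt}

theorem type1_struct (hM : IsPModular 2 M) (B : Set (IrrCharacter G)) (hB : IsPBlock M B)
    (hk : Nat.card B = 4) (hd : blockDefect 2 B = 2) (hl : blockRank 2 B = 1) :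
    ∀ χ ∈ B, ∀ x : G, pRegularPart 2 (χ : G → ℂ) x =
      (1 / 4 : ℂ) * ∑ ξ ∈ Cfsg.Agent.H84.irrFinset B, (ξ : G → ℂ) x := by
  classical
  haveI : Fact (Nat.Prime 2) := ⟨Nat.prime_two⟩
  obtain ⟨A, hspec, hsymm, hidem, htr, hodd⟩ := mreg_data hM B hB hd
  have hmem : ∀ χ, χ ∈ Cfsg.Agent.H84.irrFinset B ↔ χ ∈ B :=
    fun χ => Cfsg.Agent.H84.mem_irrFinset
  have hcard : (Cfsg.Agent.H84.irrFinset B).card = 4 := by
    rw [Cfsg.Agent.H84.card_irrFinset, hk]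
  obtain ⟨E, hE, hAE⟩ := sign_lemma (Cfsg.Agent.H84.irrFinset B) hcard A
    (fun χ hχ ξ hξ => hsymm χ ((hmem χ).mp hχ) ξ ((hmem ξ).mp hξ))
    (fun χ hχ ξ hξ => hidem χ ((hmem χ).mp hχ) ξ ((hmem ξ).mp hξ))
    (by rw [htr, hl]; norm_num)
    (fun χ hχ ξ hξ => hodd χ ((hmem χ).mp hχ) ξ ((hmem ξ).mp hξ))
  have hmreg : ∀ χ ∈ B, ∀ ξ ∈ B, Cfsg.Agent.H84.mreg 2 χ ξ = (E χ : ℂ) * (E ξ : ℂ) / 4 := by
    intro χ hχ ξ hξ
    have h1 := hspec χ hχ ξ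
    rw [hAE χ ((hmem χ).mpr hχ) ξ ((hmem ξ).mpr hξ)] at h1
    push_cast at h1
    rw [h1]; ring
  have hone : ¬ 2 ∣ orderOf (1 : G) := by rw [orderOf_one]; norm_num
  -- degrees
  have hdegeq : ∀ χ ∈ B, 4 * (charDegree (χ : G → ℂ) : ℤ) =
      E χ * ∑ ξ ∈ Cfsg.Agent.H84.irrFinset B, E ξ * (charDegree (ξ : G → ℂ) : ℤ) := by
    intro χ hχ
    have h1 := pReg_expand_block hM B hB χ hχ 1
    rw [Cfsg.Agent.H81.pRegularPart_of_not_dvd 2 _ hone] at h1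
    apply Int.cast_injective (α := ℂ)
    push_cast
    rw [← (Cfsg.Agent.H81.irr_charDegree χ).1, h1, Finset.mul_sum, Finset.mul_sum]
    apply Finset.sum_congr rfl
    intro ξ hξ
    rw [hmreg χ hχ ξ ((hmem ξ).mp hξ), (Cfsg.Agent.H81.irr_charDegree ξ).1]
    ring
  have hEE : ∀ χ ∈ B, ∀ ξ ∈ B, E χ * E ξ = 1 := by
    intro χ hχ ξ hξ
    have h1 := hdegeq χ hχ
    have h2 := hdegeq ξ hξ
    have p1 : (0 : ℤ) < charDegree (χ : G → ℂ) := by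
      exact_mod_cast (Cfsg.Agent.H81.irr_charDegree χ).2
    have p2 : (0 : ℤ) < charDegree (ξ : G → ℂ) := by
      exact_mod_cast (Cfsg.Agent.H81.irr_charDegree ξ).2
    rcases hE χ ((hmem χ).mpr hχ) with e1 | e1 <;> rcases hE ξ ((hmem ξ).mpr hξ) with e2 | e2
    · rw [e1, e2]; norm_num
    · exfalso; rw [e1] at h1; rw [e2] at h2; linarith
    · exfalso; rw [e1] at h1; rw [e2] at h2; linarith
    · rw [e1, e2]; norm_num
  intro χ hχ x
  rw [pReg_expand_block hM B hB χ hχ x, Finset.mul_sum]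
  apply Finset.sum_congr rfl
  intro ξ hξ
  rw [hmreg χ hχ ξ ((hmem ξ).mp hξ)]
  have := hEE χ hχ ξ ((hmem ξ).mp hξ)
  have h' : (E χ : ℂ) * (E ξ : ℂ) = 1 := by exact_mod_cast this
  rw [h']

theorem type3_struct (hM : IsPModular 2 M) (B : Set (IrrCharacter G)) (hB : IsPBlock M B)
    (hk : Nat.card B = 4) (hd : blockDefect 2 B = 2) (hl : blockRank 2 B = 3) :
    ∃ h : IrrCharacter G → ℤ, (∀ χ ∈ B, h χ = 1 ∨ h χ = -1) ∧
      ∀ χ ∈ B, ∀ x : G, pRegularPart 2 (χ : G → ℂ) x =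
        (χ : G → ℂ) x - (h χ : ℂ) / 4 *
          ∑ ξ ∈ Cfsg.Agent.H84.irrFinset B, (h ξ : ℂ) * (ξ : G → ℂ) x := by
  classical
  haveI : Fact (Nat.Prime 2) := ⟨Nat.prime_two⟩
  obtain ⟨A, hspec, hsymm, hidem, htr, hodd⟩ := mreg_data hM B hB hd
  have hmem : ∀ χ, χ ∈ Cfsg.Agent.H84.irrFinset B ↔ χ ∈ B :=
    fun χ => Cfsg.Agent.H84.mem_irrFinset
  have hcard : (Cfsg.Agent.H84.irrFinset B).card = 4 := by
    rw [Cfsg.Agent.H84.card_irrFinset, hk]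
  obtain ⟨d, hd'⟩ : ∃ d : IrrCharacter G → IrrCharacter G → ℤ,
      d = fun χ ξ => if χ = ξ then 4 else 0 := ⟨_, rfl⟩
  have hdd : ∀ χ ξ, d χ ξ = if χ = ξ then 4 else 0 := fun χ ξ => by rw [hd']
  have hs1 : ∀ χ ∈ Cfsg.Agent.H84.irrFinset B, ∀ f : IrrCharacter G → ℤ,
      ∑ ψ ∈ Cfsg.Agent.H84.irrFinset B, d χ ψ * f ψ = 4 * f χ := by
    intro χ hχ f
    rw [Finset.sum_eq_single χ]
    · rw [hdd, if_pos rfl]
    · intro ψ _ hne
      rw [hdd, if_neg (Ne.symm hne), zero_mul]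
    · intro h; exact absurd hχ h
  have hs2 : ∀ ξ ∈ Cfsg.Agent.H84.irrFinset B, ∀ f : IrrCharacter G → ℤ,
      ∑ ψ ∈ Cfsg.Agent.H84.irrFinset B, f ψ * d ψ ξ = 4 * f ξ := by
    intro ξ hξ f
    rw [Finset.sum_eq_single ξ]
    · rw [hdd, if_pos rfl]; ring
    · intro ψ _ hne
      rw [hdd, if_neg hne, mul_zero]
    · intro h; exact absurd hξ h
  obtain ⟨h, hh, hqh⟩ := sign_lemma (Cfsg.Agent.H84.irrFinset B) hcard
    (fun χ ξ => d χ ξ - A χ ξ)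
    (fun χ hχ ξ hξ => by
      show d χ ξ - A χ ξ = d ξ χ - A ξ χ
      rw [hsymm χ ((hmem χ).mp hχ) ξ ((hmem ξ).mp hξ), hdd, hdd]
      by_cases e : χ = ξ
      · rw [if_pos e, if_pos e.symm]
      · rw [if_neg e, if_neg (Ne.symm e)])
    (fun χ hχ ξ hξ => by
      show ∑ ψ ∈ Cfsg.Agent.H84.irrFinset B, (d χ ψ - A χ ψ) * (d ψ ξ - A ψ ξ)
        = 4 * (d χ ξ - A χ ξ)
      have e1 : ∀ ψ, (d χ ψ - A χ ψ) * (d ψ ξ - A ψ ξ) =
          d χ ψ * (fun ψ => d ψ ξ) ψ - d χ ψ * (fun ψ => A ψ ξ) ψ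
            - (fun ψ => A χ ψ) ψ * d ψ ξ + A χ ψ * A ψ ξ := by
        intro ψ; ring
      rw [Finset.sum_congr rfl (fun ψ _ => e1 ψ), Finset.sum_add_distrib,
        Finset.sum_sub_distrib, Finset.sum_sub_distrib, hs1 χ hχ, hs1 χ hχ, hs2 ξ hξ,
        hidem χ ((hmem χ).mp hχ) ξ ((hmem ξ).mp hξ)]
      ring)
    (by
      show ∑ χ ∈ Cfsg.Agent.H84.irrFinset B, (d χ χ - A χ χ) = 4
      rw [Finset.sum_sub_distrib, htr, hl]
      have : ∑ χ ∈ Cfsg.Agent.H84.irrFinset B, d χ χ = 16 := by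
        rw [Finset.sum_congr rfl (fun χ _ => by rw [hdd, if_pos rfl]), Finset.sum_const, hcard]
        norm_num
      rw [this]; norm_num)
    (fun χ hχ ξ hξ => by
      show ¬ (2 : ℤ) ∣ d χ ξ - A χ ξ
      have h1 := hodd χ ((hmem χ).mp hχ) ξ ((hmem ξ).mp hξ)
      rw [hdd]
      by_cases e : χ = ξ
      · rw [if_pos e]; omega
      · rw [if_neg e]; omega)
  refine ⟨h, fun χ hχ => hh χ ((hmem χ).mpr hχ), ?_⟩
  have hmreg : ∀ χ ∈ B, ∀ ξ ∈ B, Cfsg.Agent.H84.mreg 2 χ ξ =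
      ((d χ ξ : ℤ) : ℂ) / 4 - (h χ : ℂ) * (h ξ : ℂ) / 4 := by
    intro χ hχ ξ hξ
    have h1 := hspec χ hχ ξ
    have h2 : A χ ξ = d χ ξ - h χ * h ξ := by
      have h3 : d χ ξ - A χ ξ = h χ * h ξ := hqh χ ((hmem χ).mpr hχ) ξ ((hmem ξ).mpr hξ)
      linarith
    rw [h2] at h1
    push_cast at h1
    have : Cfsg.Agent.H84.mreg 2 χ ξ = (((d χ ξ : ℤ) : ℂ) - (h χ : ℂ) * (h ξ : ℂ)) / 4 := by
      rw [h1]; ring
    rw [this]; ring
  intro χ hχ x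
  rw [pReg_expand_block hM B hB χ hχ x]
  have e1 : ∀ ξ ∈ Cfsg.Agent.H84.irrFinset B, Cfsg.Agent.H84.mreg 2 χ ξ * (ξ : G → ℂ) x =
      ((d χ ξ : ℤ) : ℂ) / 4 * (ξ : G → ℂ) x
        - (h χ : ℂ) / 4 * ((h ξ : ℂ) * (ξ : G → ℂ) x) := by
    intro ξ hξ
    rw [hmreg χ hχ ξ ((hmem ξ).mp hξ)]
    ring
  rw [Finset.sum_congr rfl e1, Finset.sum_sub_distrib, ← Finset.mul_sum]
  congr 1
  rw [Finset.sum_eq_single χ]
  · rw [hdd, if_pos rfl]; push_cast; ring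
  · intro ψ _ hne
    rw [hdd, if_neg (Ne.symm hne)]; simp
  · intro hc; exact absurd ((hmem χ).mpr hχ) hc

end Cfsg.Agent.H5.Klein4
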