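import Mathlib
import Cfsg.Agent.H4.RBrauer
import Cfsg.Agent.H4.Integral
import Cfsg.Agent.H4.GlaubP
import Cfsg.Agent.H20.LocalRing
import Cfsg.Agent.H20.HeightZero

set_option autoImplicit false
set_option linter.unusedSectionVars false
set_option linter.unusedVariables false
set_option linter.style.haveILetI false

/-!
# helper5: local combinations of characters vanishing on `p`-singular elements

`perfect_local`: if `Θ = ∑ a_i χ_i` with local integers `a_i` vanishes on the `p`-singular
elements, then `Θ(x) / |C_G(x)|` is a local integer for every `x`.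
-/

namespace Cfsg.Agent.H5.Klein4

open Cfsg Cfsg.Agent.H4 Cfsg.Agent.H20
open scoped ComplexConjugate

universe u

theorem perfect_local {G : Type u} [Group G] [Fintype G] {p : ℕ} [Fact p.Prime]
    {M : Ideal AlgInt} (hM : IsPModular p M) {ι : Type*} (S : Finset ι) (a : ι → ℂ)
    (χ : ι → IrrCharacter G) (ha : ∀ i ∈ S, MemLocalRing M (a i))
    (h0 : ∀ x : G, p ∣ orderOf x → ∑ i ∈ S, a i * (χ i : G → ℂ) x = 0) (x : G) :
    MemLocalRing M ((∑ i ∈ S, a i * (χ i : G → ℂ) x) /
      (Nat.card (Subgroup.centralizer ({x} : Set G)) : ℂ)) := by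
  classical
  have hp : p.Prime := Fact.out
  have hMp := isPrime_of_isPModular hM
  by_cases hx : p ∣ orderOf x
  · rw [h0 x hx, zero_div]
    exact memLocalRing_zero hMp
  obtain ⟨m, hm⟩ : ∃ m : ℕ, m = p ^ (Nat.card G).factorization p := ⟨_, rfl⟩
  obtain ⟨n, hn⟩ : ∃ n : ℕ, n = Nat.card G / p ^ (Nat.card G).factorization p := ⟨_, rfl⟩
  have hmn : Nat.card G = m * n := by
    rw [hm, hn]; exact (Nat.ordProj_mul_ordCompl_eq_self _ p).symm
  have hpn : ¬ p ∣ n := by
    rw [hn]; exact Nat.not_dvd_ordCompl hp Nat.card_pos.ne'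
  have hcop : Nat.Coprime m n := by
    rw [hm]
    exact Nat.Coprime.pow_left _ ((Nat.Prime.coprime_iff_not_dvd hp).2 hpn)
  obtain ⟨ϑ, hϑ⟩ : ∃ ϑ : G → ℂ, ϑ = fun y => if SecPred m n x y then (n : ℂ) else 0 :=
    ⟨_, rfl⟩
  obtain ⟨c, hc1, hc2⟩ := section_indicator_isIntegral m n hmn hcop x ϑ
    (fun y hy => by rw [hϑ]; exact if_pos hy) (fun y hy => by rw [hϑ]; exact if_neg hy)
  obtain ⟨Θ, hΘ⟩ : ∃ Θ : G → ℂ, Θ = fun y => ∑ i ∈ S, a i * (χ i : G → ℂ) y := ⟨_, rfl⟩
  have hΘx : ∀ y, Θ y = ∑ i ∈ S, a i * (χ i : G → ℂ) y := fun y => by rw [hΘ]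
  have hΘcl : ∀ g h : G, Θ (h * g * h⁻¹) = Θ g := by
    intro g h
    rw [hΘx, hΘx]
    apply Finset.sum_congr rfl
    intro i _
    rw [irr_isClassFunction (χ i) g h]
  have key1 : classInner Θ ϑ = ∑ i ∈ S, a i * conj (c (χ i)) := by
    have e1 : Θ = ∑ i ∈ S, a i • ((χ i : IrrCharacter G) : G → ℂ) := by
      funext y
      rw [hΘx, Finset.sum_apply]
      rfl
    rw [e1, classInner_sum_left]
    apply Finset.sum_congr rfl
    intro i _
    rw [classInner_smul_left, ← classInner_conj_symm, hc2, classInner_finsum_irr]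
  have hxn : ∀ g : G, ¬ p ∣ orderOf g → g ^ n = 1 := by
    intro g hg
    apply orderOf_dvd_iff_pow_eq_one.mp
    have h3 : orderOf g ∣ m * n := hmn ▸ orderOf_dvd_natCard g
    have h4 : Nat.Coprime (orderOf g) m := by
      rw [hm]
      exact Nat.Coprime.pow_right _
        (Nat.Coprime.symm ((Nat.Prime.coprime_iff_not_dvd hp).2 hg))
    exact h4.dvd_of_dvd_mul_left h3
  have hterm : ∀ g : G, Θ g * conj (ϑ g) = if IsConj x g then (n : ℂ) * Θ x else 0 := by
    intro g
    by_cases hg : p ∣ orderOf g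
    · rw [hΘx g, h0 g hg, zero_mul, if_neg]
      intro hc
      obtain ⟨u, hu⟩ := isConj_iff.mp hc
      apply hx
      have : orderOf g = orderOf x := by
        rw [← hu]
        exact (MulAut.conj u).orderOf_eq x
      rw [← this]
      exact hg
    · have h5 := secPred_iff hmn hcop x 1 g (Commute.one_left g) (one_pow m) (hxn g hg)
      rw [one_mul] at h5
      have h6 : ϑ g = if IsConj g x then (n : ℂ) else 0 := by
        rw [hϑ]
        simp only [h5]
      rw [h6]
      by_cases hc : IsConj x g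
      · rw [if_pos hc, if_pos hc.symm, Complex.conj_natCast]
        obtain ⟨u, hu⟩ := isConj_iff.mp hc
        rw [← hu, hΘcl x u]
        ring
      · rw [if_neg hc, if_neg (fun h => hc h.symm), map_zero, mul_zero]
  have hidx := Subgroup.index_mul_card (Subgroup.centralizer ({x} : Set G))
  have hc0 : (Nat.card (Subgroup.centralizer ({x} : Set G)) : ℂ) ≠ 0 := by
    exact_mod_cast (Nat.card_pos (α := Subgroup.centralizer ({x} : Set G))).ne'
  have hi0 : ((Subgroup.centralizer ({x} : Set G)).index : ℂ) ≠ 0 := by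
    have : (Subgroup.centralizer ({x} : Set G)).index ≠ 0 := by
      intro h
      rw [h, zero_mul] at hidx
      exact Nat.card_pos.ne' hidx.symm
    exact_mod_cast this
  have key2 : classInner Θ ϑ = (n : ℂ) * Θ x /
      (Nat.card (Subgroup.centralizer ({x} : Set G)) : ℂ) := by
    unfold classInner
    rw [Finset.sum_congr rfl (fun g _ => hterm g), ← Finset.sum_filter, Finset.sum_const,
      card_filter_isConj x, ← hidx]
    push_cast
    rw [nsmul_eq_mul]
    field_simp
  have hR : MemLocalRing M ((n : ℂ) * Θ x /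
      (Nat.card (Subgroup.centralizer ({x} : Set G)) : ℂ)) := by
    rw [← key2, key1]
    apply memLocalRing_sum hMp
    intro i hi
    exact memLocalRing_mul hMp (ha i hi)
      (memLocalRing_algInt hMp ⟨_, map_isIntegral_int (starRingEnd ℂ) (hc1 (χ i))⟩)
  have hn0 : (n : ℂ) ≠ 0 := by
    have : n ≠ 0 := fun h => hpn (by rw [h]; exact dvd_zero p)
    exact_mod_cast this
  have hfin := memLocalRing_mul hMp (memLocalRing_inv_natCast hM hpn) hR
  have e2 : (n : ℂ)⁻¹ * ((n : ℂ) * Θ x /
      (Nat.card (Subgroup.centralizer ({x} : Set G)) : ℂ)) =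
      Θ x / (Nat.card (Subgroup.centralizer ({x} : Set G)) : ℂ) := by
    field_simp
  rw [e2, hΘx] at hfin
  exact hfin

end Cfsg.Agent.H5.Klein4
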