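import Mathlib
import Cfsg.Agent.H5.Klein4E
import Cfsg.Agent.H79.ExtFirstMain
import Cfsg.Agent.H20.CentDefect
import Cfsg.Agent.H80.AbelFree

set_option autoImplicit false
set_option linter.unusedSectionVars false
set_option linter.unusedVariables false
set_option linter.style.haveILetI false

/-!
# helper5: a block with a four-group as defect group and its Brauer correspondent have the
same type

`T1 M A`: the block `A` has a maximal Brauer pair `(P, c)` with `P` of order four and exponent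
two whose stabilizer is `C(P)`.

`types_match`: for a block `B` with defect group a four-group `P` and the block `c` of
`N = N_G(P)` with defect group `P` inducing `B`: either both are of type `T1`, or both have
three irreducible Brauer characters.
-/

namespace Cfsg.Agent.H5.Klein4

open Cfsg Cfsg.Agent.H20 Cfsg.Agent.H80

universe u

/-- The block `A` has a maximal Brauer pair `(P, c)`, `P` elementary abelian of order four,
whose stabilizer is the centralizer of `P`. -/
def T1 {X : Type u} [Group X] [Fintype X] (M : Ideal AlgInt) (A : Set (IrrCharacter X)) : Prop :=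
  ∃ (P : Subgroup X) (c : Set (IrrCharacter (Subgroup.centralizer (P : Set X)))),
    IsMaximalBrauerPair 2 M A P c ∧ Nat.card P = 4 ∧ (∀ u ∈ P, u * u = 1) ∧
    ∀ y : X, conjPair y ⟨P, c⟩ = ⟨P, c⟩ → y ∈ Subgroup.centralizer (P : Set X)

theorem types_match {G : Type u} [Group G] [Fintype G] {M : Ideal AlgInt} (hM : IsPModular 2 M)
    (B : Set (IrrCharacter G)) (P : Subgroup G) (hPD : IsDefectGroup 2 M B P) [IsKleinFour P]
    (N : Subgroup G) [Fintype N] (hNP : N ≤ Subgroup.normalizer (P : Set G))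
    (hPN' : Subgroup.normalizer (P : Set G) ≤ N)
    (c : Set (IrrCharacter N)) (hcD : IsDefectGroup 2 M c (P.subgroupOf N))
    (hc : IsInducedBlock M N c B) :
    (T1 M B ∧ T1 M c) ∨ (blockRank 2 B = 3 ∧ blockRank 2 c = 3) := by
  classical
  haveI : Fact (Nat.Prime 2) := ⟨Nat.prime_two⟩
  have hMp := isPrime_of_isPModular hM
  have hPN : P ≤ N := Subgroup.le_normalizer.trans hPN'
  have hCN : Subgroup.centralizer (P : Set G) ≤ N :=
    (Subgroup.centralizer_le_normalizer _).trans hPN'
  have hsq : ∀ u ∈ P, u * u = 1 := fun u hu => klein_sq P hu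
  have hP4 : Nat.card P = 4 := IsKleinFour.card_four
  haveI hK' : IsKleinFour ↥(P.subgroupOf N) :=
    ⟨by rw [← hP4]; exact Nat.card_congr (Subgroup.subgroupOfEquivOfLe hPN).toEquiv,
      (Monoid.exponent_eq_of_mulEquiv (Subgroup.subgroupOfEquivOfLe hPN)).trans
        IsKleinFour.exponent_two⟩
  obtain ⟨P', hP'⟩ : ∃ P' : Subgroup N, P' = P.subgroupOf N := ⟨_, rfl⟩
  haveI : IsKleinFour ↥P' := by rw [hP']; exact hK'
  have hfst : P'.map N.subtype = P := by
    rw [hP']; exact Subgroup.map_subgroupOf_eq_of_le hPN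
  have hsq' : ∀ r ∈ P', r * r = 1 := fun r hr => klein_sq P' hr
  have hP4' : Nat.card P' = 4 := IsKleinFour.card_four
  have hP'ab : P' ≤ Subgroup.centralizer (P' : Set N) := klein_le_centralizer P'
  have hP'norm : ∀ y : N, y ∈ Subgroup.normalizer (P' : Set N) := by
    intro y
    rw [Subgroup.mem_normalizer_iff]
    intro r
    rw [hP', Subgroup.mem_subgroupOf, Subgroup.mem_subgroupOf]
    exact Subgroup.mem_normalizer_iff.mp (hNP y.2) (r : G)
  -- a root of `c` in `C_N(P')`
  obtain ⟨η₀, hη₀⟩ := hc.1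
  have hη₀c : η₀ ∈ c := by rw [hη₀]; exact mem_blockOf_self hMp η₀
  have hcD' : IsDefectGroup 2 M c P' := by rw [hP']; exact hcD
  obtain ⟨⟨f', hf'D, hf'ind⟩, -⟩ := Cfsg.Agent.H79.ext_first_main hM P'
    (Subgroup.centralizer (P' : Set N)) hP'ab le_rfl (Subgroup.centralizer_le_normalizer _)
    (fun n hn l hl => (Subgroup.mem_normalizer_iff.mp
      (normalizer_le_normalizer_centralizer P' hn) l).mp hl) η₀ (hη₀ ▸ hcD')
  rw [← hη₀] at hf'ind
  have ha : Subgroup.centralizer ((P'.map N.subtype : Subgroup G) : Set G) ≤ N := by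
    rw [hfst]; exact hCN
  have hc₀blk : IsPBlock M (upBlock N P' f') := isPBlock_upBlock N P' ha hf'ind.1
  have hc₀ind : IsInducedBlock M
      (Subgroup.centralizer ((P'.map N.subtype : Subgroup G) : Set G)) (upBlock N P' f') B := by
    refine ⟨hc₀blk, hc.2.1, fun ξ' hξ' χ hχ g => ?_⟩
    rw [upBlock_eq_image N P' ha] at hξ'
    obtain ⟨ξ, hξ, rfl⟩ := hξ'
    exact ind_trans_down hMp N (Subgroup.centralizer (P' : Set N)) _ (upEqv N P' ha)
      (fun a => rfl) ξ η₀ χ (fun x => hf'ind.2.2 ξ hξ η₀ hη₀c x)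
      (fun g => hc.2.2 η₀ hη₀c χ hχ g) g
  have hQD : IsDefectGroup 2 M B (P'.map N.subtype) := by rw [hfst]; exact hPD
  have hmaxG := isMaximal_of_defect 2 hM B _ hQD _ hc₀ind
  have hmaxN := isMaximal_of_defect 2 hM c P' hcD' f' hf'ind
  have hdown : ∀ y : N, conjPair y ⟨P', f'⟩ = ⟨P', f'⟩ →
      conjPair (y : G) ⟨P'.map N.subtype, upBlock N P' f'⟩
        = ⟨P'.map N.subtype, upBlock N P' f'⟩ := by
    intro y hy
    have h1 := conjPair_up N y ⟨P', f'⟩ ha
    rw [hy] at h1
    exact h1.symm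
  have hup : ∀ y : N, conjPair (y : G) ⟨P'.map N.subtype, upBlock N P' f'⟩
        = ⟨P'.map N.subtype, upBlock N P' f'⟩ → conjPair y ⟨P', f'⟩ = ⟨P', f'⟩ := by
    intro y hy
    have h1 := (stab_iff hMp hc₀blk (y : G)).mp hy
    exact (stab_iff hMp hf'ind.1 y).mpr
      ⟨hP'norm y, stabilizesBlock_of_up N P' ha (hP'norm y) h1.2⟩
  by_cases hT1 : ∀ y : G, conjPair y ⟨P'.map N.subtype, upBlock N P' f'⟩
      = ⟨P'.map N.subtype, upBlock N P' f'⟩ →
      y ∈ Subgroup.centralizer ((P'.map N.subtype : Subgroup G) : Set G)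
  · left
    refine ⟨⟨_, _, hmaxG, ?_, ?_, hT1⟩, ⟨P', f', hmaxN, hP4', hsq', ?_⟩⟩
    · rw [hfst]; exact hP4
    · rw [hfst]; exact hsq
    · intro y hy
      have h1 := hT1 (y : G) (hdown y hy)
      rw [Subgroup.mem_centralizer_iff]
      intro r hr
      apply Subtype.ext
      exact Subgroup.mem_centralizer_iff.mp h1 (r : G) ⟨r, hr, rfl⟩
  · right
    push Not at hT1
    obtain ⟨y₀, hy₀, hy₀C⟩ := hT1
    haveI : IsKleinFour ↥(P'.map N.subtype) := by rw [hfst]; infer_instance
    constructor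
    · obtain ⟨T₀, hT₀⟩ := exists_stabilizer hMp
        (Subgroup.centralizer ((P'.map N.subtype : Subgroup G) : Set G)) hc₀blk
      have hT : ∀ g : G, g ∈ Subgroup.normalizer ((P'.map N.subtype : Subgroup G) : Set G) ⊓ T₀
          ↔ conjPair g ⟨P'.map N.subtype, upBlock N P' f'⟩
            = ⟨P'.map N.subtype, upBlock N P' f'⟩ := by
        intro g
        rw [Subgroup.mem_inf, hT₀, stab_iff hMp hc₀blk]
      refine blockRank_eq_three hM hmaxG _ hT ?_ ?_
      · exact relIndex_odd hM B _ hQD (klein_le_centralizer _) _ hc₀ind _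
          (fun g => by rw [Subgroup.mem_inf, hT₀])
      · intro hle
        exact hy₀C (hle ((hT y₀).mpr hy₀))
    · obtain ⟨T₀', hT₀'⟩ := exists_stabilizer hMp (Subgroup.centralizer (P' : Set N)) hf'ind.1
      have hT' : ∀ g : N, g ∈ Subgroup.normalizer (P' : Set N) ⊓ T₀'
          ↔ conjPair g ⟨P', f'⟩ = ⟨P', f'⟩ := by
        intro g
        rw [Subgroup.mem_inf, hT₀', stab_iff hMp hf'ind.1]
      refine blockRank_eq_three hM hmaxN _ hT' ?_ ?_
      · exact relIndex_odd hM c P' hcD' hP'ab f' hf'ind _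
          (fun g => by rw [Subgroup.mem_inf, hT₀'])
      · intro hle
        have hy₀N : y₀ ∈ N := by
          have := ((stab_iff hMp hc₀blk y₀).mp hy₀).1
          rw [hfst] at this
          exact hPN' this
        have h1 := hle ((hT' ⟨y₀, hy₀N⟩).mpr (hup ⟨y₀, hy₀N⟩ hy₀))
        apply hy₀C
        rw [Subgroup.mem_centralizer_iff]
        rintro _ ⟨r, hr, rfl⟩
        exact congrArg Subtype.val (Subgroup.mem_centralizer_iff.mp h1 r hr)

end Cfsg.Agent.H5.Klein4
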