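import Mathlib
import Cfsg.Agent.H5.K4IsoB
import Cfsg.Agent.H5.K4IsoD
import Cfsg.Agent.H72.ClassSize
import Cfsg.Agent.S0923

set_option autoImplicit false
set_option linter.unusedSectionVars false
set_option linter.unusedVariables false
set_option linter.style.haveILetI false

/-!
# helper5: blocks of type `T1` with a four-group as defect group: subsections

* `t1_basic`: four characters, defect two, one irreducible Brauer character.
* `t1_sub'`: every subsection `(u, b)` of a block of type `T1` has `u² = 1` and `l(b) = 1`.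
* `sub_signs`: for such a subsection, the `b`-parts of the translates `χ(u ·)`, `χ ∈ A`, are
  equal up to signs.
-/

namespace Cfsg.Agent.H5.Klein4

open Cfsg Cfsg.Agent.H4 Cfsg.Agent.H20 Cfsg.Agent.H80
open scoped ComplexConjugate

universe u

section Sub

variable {G : Type u} [Group G] [Fintype G] {M : Ideal AlgInt}

theorem t1_basic (hM : IsPModular 2 M) {A : Set (IrrCharacter G)} {P : Subgroup G}
    {c : Set (IrrCharacter (Subgroup.centralizer (P : Set G)))}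
    (hmax : IsMaximalBrauerPair 2 M A P c) (hP4 : Nat.card P = 4) (hsq : ∀ u ∈ P, u * u = 1)
    (hT1 : ∀ y : G, conjPair y ⟨P, c⟩ = ⟨P, c⟩ → y ∈ Subgroup.centralizer (P : Set G)) :
    IsPBlock M A ∧ Nat.card A = 4 ∧ blockDefect 2 A = 2 ∧ blockRank 2 A = 1 := by
  classical
  haveI : Fact (Nat.Prime 2) := ⟨Nat.prime_two⟩
  have hB : IsPBlock M A := hmax.1.2.1
  have hPD := isDefectGroup_of_maximal 2 hM A P c hmax
  refine ⟨hB, card_block_eq_four hM A hB P hPD hP4, ?_, blockRank_eq_one hM hmax hP4 hsq hT1⟩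
  obtain ⟨χ₀, rfl⟩ := hB
  have h1 := card_defectGroup hM χ₀ P hPD
  rw [hP4] at h1
  have h2 : (2 : ℕ) ^ 2 = 2 ^ blockDefect 2 (blockOf M (χ₀ : G → ℂ)) := by rw [← h1]; norm_num
  exact (Nat.pow_right_injective (le_refl 2) h2).symm

theorem t1_sub (hM : IsPModular 2 M) {A : Set (IrrCharacter G)} {P : Subgroup G}
    {c : Set (IrrCharacter (Subgroup.centralizer (P : Set G)))}
    (hmax : IsMaximalBrauerPair 2 M A P c) (hP4 : Nat.card P = 4) (hsq : ∀ u ∈ P, u * u = 1)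
    (hT1 : ∀ y : G, conjPair y ⟨P, c⟩ = ⟨P, c⟩ → y ∈ Subgroup.centralizer (P : Set G))
    (u : G)
    (f : Set (IrrCharacter (Subgroup.centralizer ((Subgroup.zpowers u : Subgroup G) : Set G))))
    (hpair : IsBrauerPairOf 2 M A (Subgroup.zpowers u) f) :
    u * u = 1 ∧ blockRank 2 f = 1 := by
  classical
  haveI : Fact (Nat.Prime 2) := ⟨Nat.prime_two⟩
  have hMp := isPrime_of_isPModular hM
  obtain ⟨g, hg⟩ := exists_conj_subpairLE 2 hM hmax hpair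
  have h1 := subpairLE_conj 2 g⁻¹ hg
  rw [conjPair_mul, inv_mul_cancel, conjPair_one] at h1
  have hmax1 := isMaximal_conjPair 2 hmax g⁻¹
  obtain ⟨P₁, c₁, hPc⟩ : ∃ P₁ c₁, conjPair g⁻¹ ⟨P, c⟩ = ⟨P₁, c₁⟩ := ⟨_, _, rfl⟩
  rw [hPc] at h1 hmax1
  have hP₁ : P₁ = P.map (MulAut.conj g⁻¹).toMonoidHom := (congrArg Sigma.fst hPc).symm
  have hP4₁ : Nat.card P₁ = 4 := by
    rw [hP₁, Subgroup.card_map_of_injective (MulAut.conj g⁻¹).injective]
    exact hP4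
  have hsq₁ : ∀ w ∈ P₁, w * w = 1 := by
    intro w hw
    rw [hP₁] at hw
    obtain ⟨v, hv, rfl⟩ := hw
    rw [← map_mul, hsq v hv, map_one]
  have hQP₁ : Subgroup.zpowers u ≤ P₁ := subpairLE_le h1
  have hstab : ∀ y : G, conjPair y ⟨P₁, c₁⟩ = ⟨P₁, c₁⟩ →
      y ∈ Subgroup.centralizer ((Subgroup.zpowers u : Subgroup G) : Set G) →
      y ∈ Subgroup.centralizer (P₁ : Set G) := by
    intro y hy _
    have e1 : conjPair (g * y * g⁻¹) ⟨P, c⟩ = ⟨P, c⟩ := by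
      have h3 : conjPair g (conjPair y (conjPair g⁻¹ ⟨P, c⟩))
          = conjPair g (conjPair g⁻¹ ⟨P, c⟩) := by rw [hPc, hy]
      rw [conjPair_mul, conjPair_mul, conjPair_mul, mul_inv_cancel, conjPair_one] at h3
      exact h3
    have h2 := hT1 _ e1
    rw [Subgroup.mem_centralizer_iff]
    intro w hw
    rw [SetLike.mem_coe, hP₁] at hw
    obtain ⟨v, hv, rfl⟩ := hw
    have h3 := Subgroup.mem_centralizer_iff.mp h2 v hv
    show (g⁻¹ * v * g⁻¹⁻¹) * y = y * (g⁻¹ * v * g⁻¹⁻¹)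
    calc g⁻¹ * v * g⁻¹⁻¹ * y = g⁻¹ * (v * (g * y * g⁻¹)) * g := by group
      _ = g⁻¹ * (g * y * g⁻¹ * v) * g := by rw [h3]
      _ = y * (g⁻¹ * v * g⁻¹⁻¹) := by group
  have hr := rank_sub_eq_one hM hmax1 hP4₁ hsq₁ (Subgroup.zpowers u) hQP₁ f hpair.1.2 h1 hstab
  exact ⟨hsq₁ u (hQP₁ (Subgroup.mem_zpowers u)), hr⟩

theorem t1_sub' (hM : IsPModular 2 M) {A : Set (IrrCharacter G)} {P : Subgroup G}
    {c : Set (IrrCharacter (Subgroup.centralizer (P : Set G)))}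
    (hmax : IsMaximalBrauerPair 2 M A P c) (hP4 : Nat.card P = 4) (hsq : ∀ u ∈ P, u * u = 1)
    (hT1 : ∀ y : G, conjPair y ⟨P, c⟩ = ⟨P, c⟩ → y ∈ Subgroup.centralizer (P : Set G))
    (u : G) (hu : ∃ k : ℕ, orderOf u = 2 ^ k) (C : Subgroup G)
    (hC : C = Subgroup.centralizer ((Subgroup.zpowers u : Subgroup G) : Set G))
    (b : Set (IrrCharacter C)) (hind : IsInducedBlock M C b A) :
    u * u = 1 ∧ blockRank 2 b = 1 := by
  classical
  haveI : Fact (Nat.Prime 2) := ⟨Nat.prime_two⟩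
  subst hC
  obtain ⟨k, hk⟩ := hu
  have hx : IsPGroup 2 (Subgroup.zpowers u) :=
    IsPGroup.of_card (n := k) (by rw [Nat.card_zpowers, hk])
  exact t1_sub hM hmax hP4 hsq hT1 u b (isBrauerPairOf_of_isInducedBlock 2 hM hx hind)

end Sub

section Blocks

/-- A sum over a union of blocks lies in an additive subgroup if each block sum does. -/
theorem finsum_mem_of_blocks {H : Type u} [Group H] [Finite H] {M : Ideal AlgInt}
    (hM : M.IsPrime) (S : AddSubgroup ℂ) (β : Set (IrrCharacter H)) (g : IrrCharacter H → ℂ)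
    (hβ : ∀ ψ ψ' : IrrCharacter H, ψ ∈ β → ψ' ∈ blockOf M (ψ : H → ℂ) → ψ' ∈ β)
    (h0 : ∀ ψ₁ ∈ β, ∑ᶠ ψ ∈ blockOf M (ψ₁ : H → ℂ), g ψ ∈ S) :
    ∑ᶠ ψ ∈ β, g ψ ∈ S := by
  classical
  letI := Fintype.ofFinite H
  letI := fintypeIrr H
  rw [finsum_mem_irr, ← Finset.sum_filter]
  obtain ⟨T, hT⟩ : ∃ T : Finset (IrrCharacter H),
      T = Finset.univ.filter (fun ψ : IrrCharacter H => ψ ∈ β) := ⟨_, rfl⟩
  rw [← hT]
  rw [← Finset.sum_fiberwise_of_maps_to (g := fun ψ : IrrCharacter H => blockOf M (ψ : H → ℂ))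
    (t := T.image (fun ψ : IrrCharacter H => blockOf M (ψ : H → ℂ)))
    (fun ψ hψ => Finset.mem_image_of_mem _ hψ)]
  apply AddSubgroup.sum_mem
  intro b hb
  obtain ⟨ψ₁, hψ₁, rfl⟩ := Finset.mem_image.mp hb
  have hψ₁β : ψ₁ ∈ β := by
    rw [hT] at hψ₁
    exact (Finset.mem_filter.mp hψ₁).2
  have hfil : T.filter (fun ψ : IrrCharacter H =>
      blockOf M (ψ : H → ℂ) = blockOf M (ψ₁ : H → ℂ)) =
      Finset.univ.filter (fun ψ : IrrCharacter H => ψ ∈ blockOf M (ψ₁ : H → ℂ)) := by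
    ext ψ
    rw [hT]
    simp only [Finset.mem_filter, Finset.mem_univ, true_and]
    constructor
    · rintro ⟨_, h⟩
      rw [← h]
      exact Cfsg.Agent.H80.mem_blockOf_self hM ψ
    · intro h
      exact ⟨hβ ψ₁ ψ hψ₁β h, Cfsg.Agent.H80.blockOf_eq_of_mem hM h⟩
  rw [hfil, Finset.sum_filter, ← finsum_mem_irr]
  exact h0 ψ₁ hψ₁β

/-- The centralizer of `x = x^a x^b` in `G` and the centralizer of `x^b` in `C_G(x^a)`. -/
theorem card_centralizer_parts {G : Type u} [Group G] (x : G) (a b : ℕ)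
    (hab : x ^ a * x ^ b = x) (C : Subgroup G)
    (hC : ∀ g : G, g ∈ C ↔ x ^ a * g = g * x ^ a) (s : C) (hs : (s : G) = x ^ b) :
    Nat.card (Subgroup.centralizer ({s} : Set C))
      = Nat.card (Subgroup.centralizer ({x} : Set G)) := by
  apply Nat.card_congr
  refine ⟨fun t => ⟨((t : C) : G), ?_⟩, fun g => ⟨⟨(g : G), ?_⟩, ?_⟩, fun t => rfl, fun g => rfl⟩
  · rw [Subgroup.mem_centralizer_singleton_iff]
    have h1 : (t : C) * s = s * (t : C) := Subgroup.mem_centralizer_singleton_iff.mp t.2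
    have h2 : Commute (((t : C) : G)) (x ^ b) := by
      have h5 : ((t : C) : G) * (s : G) = (s : G) * ((t : C) : G) := congrArg Subtype.val h1
      rw [hs] at h5
      exact h5
    have h3 : Commute (((t : C) : G)) (x ^ a) := ((hC _).mp (t : C).2).symm
    have h4 := h3.mul_right h2
    rw [hab] at h4
    exact h4.eq
  · rw [hC]
    have h1 : (g : G) * x = x * (g : G) := Subgroup.mem_centralizer_singleton_iff.mp g.2
    have h2 : Commute (g : G) x := h1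
    exact (h2.pow_right a).eq.symm
  · rw [Subgroup.mem_centralizer_singleton_iff]
    apply Subtype.ext
    show (g : G) * (s : G) = (s : G) * (g : G)
    rw [hs]
    have h1 : (g : G) * x = x * (g : G) := Subgroup.mem_centralizer_singleton_iff.mp g.2
    have h2 : Commute (g : G) x := h1
    exact (h2.pow_right b).eq

end Blocks

section Signs

variable {G : Type u} [Group G] [Fintype G] {M : Ideal AlgInt}

/-- The coefficients of the translate of a character by a central involution are integers. -/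
theorem translate_coeff (u : G) (hu2 : u * u = 1) (C : Subgroup G) [Fintype C] (hum : u ∈ C)
    (huC : ∀ c ∈ C, u * c = c * u) (χ : IrrCharacter G) (ξ : IrrCharacter C) :
    ∃ z : ℤ, classInner (fun c : C => (χ : G → ℂ) (u * (c : G))) (ξ : C → ℂ) = z := by
  have hxc : (⟨u, hum⟩ : C) ∈ Subgroup.center C := by
    rw [Subgroup.mem_center_iff]
    intro c
    apply Subtype.ext
    exact (huC c c.2).symm
  obtain ⟨n, hn⟩ := classInner_isCharacter_nat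
    (isCharacter_restrict C (Cfsg.Agent.H80.isCharacter_of_irr χ))
    (Cfsg.Agent.H80.isCharacter_of_irr ξ)
  have h := Cfsg.Agent.H84.classInner_translate_central (fun c : C => (χ : G → ℂ) c) hxc ξ
  rw [hn] at h
  have h' : (fun c : C => (χ : G → ℂ) (u * (c : G))) =
      (fun c : C => (fun c : C => (χ : G → ℂ) c) ((⟨u, hum⟩ : C) * c)) := rfl
  rw [h', h]
  have h0 := irr_one_ne_zero ξ
  have h1 := irr_central_pow ξ hxc 2
  have hz2 : (⟨u, hum⟩ : C) ^ 2 = 1 := by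
    apply Subtype.ext
    show u ^ 2 = 1
    rw [pow_two, hu2]
  rw [hz2] at h1
  have h2 : ((ξ : C → ℂ) ⟨u, hum⟩ / (ξ : C → ℂ) 1) ^ 2 = 1 :=
    mul_right_cancel₀ h0 (by rw [← h1, one_mul])
  rcases sq_eq_one_iff.mp h2 with h3 | h3
  · exact ⟨n, by rw [h3]; push_cast; ring⟩
  · exact ⟨-n, by rw [h3]; push_cast; ring⟩

theorem sub_signs (hM : IsPModular 2 M) (A : Set (IrrCharacter G)) (hA : IsPBlock M A)
    (hk : Nat.card A = 4) (hd : blockDefect 2 A = 2) (u : G) (hu2 : u * u = 1)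
    (C : Subgroup G) [Fintype C] (hC : C = Subgroup.centralizer ({u} : Set G))
    (ψ₀ : IrrCharacter C) (hind : IsInducedBlock M C (blockOf M (ψ₀ : C → ℂ)) A)
    (hrank : blockRank 2 (blockOf M (ψ₀ : C → ℂ)) = 1) :
    ∃ E : IrrCharacter G → ℤ, (∀ χ ∈ A, E χ = 1 ∨ E χ = -1) ∧
      ∀ χ ∈ A, ∀ χ' ∈ A, ∀ t : C,
        Cfsg.Agent.H84.secPart 2 C (blockOf M (ψ₀ : C → ℂ)) u χ t =
          (E χ : ℂ) * (E χ' : ℂ) * Cfsg.Agent.H84.secPart 2 C (blockOf M (ψ₀ : C → ℂ)) u χ' t := by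
  classical
  haveI : Fact (Nat.Prime 2) := ⟨Nat.prime_two⟩
  have hMp := isPrime_of_isPModular hM
  have hu : ∃ k : ℕ, orderOf u = 2 ^ k := exists_pow_two_of_sq hu2
  have hum : u ∈ C := by
    rw [hC, Subgroup.mem_centralizer_singleton_iff]
  have hxC : ∀ c ∈ C, u * c = c * u := by
    intro c hc
    rw [hC, Subgroup.mem_centralizer_singleton_iff] at hc
    exact hc.symm
  have hCx : ∀ g : G, g * u = u * g → g ∈ C := by
    intro g hg
    rw [hC, Subgroup.mem_centralizer_singleton_iff]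
    exact hg
  have h2' : Cfsg.Agent.H84.SecondMain 2 M G := fun x hx B hB χ hχ b hb hnot y hy =>
    Cfsg.Agent.S0923.result 2 M hM x hx B hB χ hχ b hb hnot y hy
  have h2 := Cfsg.Agent.H84.secondMain_both' hM h2' u hu C hC A hA
  have h0 : ∀ χ : IrrCharacter G, χ ∉ A → ∀ y : C, ¬ 2 ∣ orderOf y →
      blockPart (blockOf M (ψ₀ : C → ℂ)) (fun c : C => (χ : G → ℂ) (u * (c : G))) y = 0 :=
    fun χ hχ y hy => (h2 χ _ ⟨ψ₀, rfl⟩).2 hχ hind y hy
  obtain ⟨d, hddef⟩ : ∃ d : ℕ, d = blockDefect 2 (blockOf M (ψ₀ : C → ℂ)) := ⟨_, rfl⟩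
  have hdle : d ≤ 2 := by
    have h3 := Cfsg.Agent.H84.defect_le_of_isInducedBlock hM C _ A hind
    rw [hd] at h3
    rw [hddef]
    exact h3
  have hu2' : u ^ 2 = 1 := by rw [pow_two, hu2]
  obtain ⟨n, e, Q, hQ, he, hform⟩ := Cfsg.Agent.H84.exists_contrib_data hM u 2 (by norm_num) hu2'
    C hum hxC ψ₀ (-1) (IsPrimitiveRoot.neg_one 0 (by norm_num))
  have hint : ∀ χ ψ : IrrCharacter G, ∃ z : ℤ, ((2 : ℕ) : ℂ) ^ d *
      Cfsg.Agent.H84.contrib 2 C (blockOf M (ψ₀ : C → ℂ)) u χ ψ = z := by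
    intro χ ψ
    have h := hform χ ψ 1
    simp only [pow_one] at h
    rw [← hddef] at h
    refine ⟨∑ ξ ∈ Cfsg.Agent.H84.irrFinset (blockOf M (ψ₀ : C → ℂ)),
      ∑ ξ' ∈ Cfsg.Agent.H84.irrFinset (blockOf M (ψ₀ : C → ℂ)),
        (n χ ξ : ℤ) * (n ψ ξ' : ℤ) * Q ξ ξ' * (-1) ^ (e ξ + (2 - e ξ')), ?_⟩
    rw [h]
    push_cast
    rfl
  choose a' ha' using hint
  have hmem : ∀ χ, χ ∈ Cfsg.Agent.H84.irrFinset A ↔ χ ∈ A :=
    fun χ => Cfsg.Agent.H84.mem_irrFinset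
  have hcard : (Cfsg.Agent.H84.irrFinset A).card = 4 := by
    rw [Cfsg.Agent.H84.card_irrFinset, hk]
  have h2d : ((2 : ℕ) : ℂ) ^ d ≠ 0 := pow_ne_zero _ (by norm_num)
  have hsymm : ∀ χ ψ : IrrCharacter G, a' χ ψ = a' ψ χ := by
    intro χ ψ
    apply Int.cast_injective (α := ℂ)
    rw [← ha' χ ψ, ← ha' ψ χ, ← Cfsg.Agent.H84.contrib_conj 2 C _ u χ ψ]
    have h3 : conj (((2 : ℕ) : ℂ) ^ d * Cfsg.Agent.H84.contrib 2 C (blockOf M (ψ₀ : C → ℂ)) u χ ψ)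
        = ((2 : ℕ) : ℂ) ^ d * Cfsg.Agent.H84.contrib 2 C (blockOf M (ψ₀ : C → ℂ)) u χ ψ := by
      rw [ha' χ ψ, map_intCast]
    rw [map_mul, map_pow, Complex.conj_natCast] at h3
    exact h3.symm
  have h710 := (Cfsg.Agent.S4710.result 2 M hM A hA 2 hd).2
  have hht : ∀ χ ∈ A, blockHeight 2 A (χ : G → ℂ) = 0 := by
    intro χ hχ
    have := (h710 χ hχ).2 (le_refl 2)
    omega
  have hodd : ∀ χ ∈ A, ∀ ψ ∈ A, ¬ (2 : ℤ) ∣ a' χ ψ := by
    intro χ hχ ψ hψ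
    have h3 := Cfsg.Agent.H84.not_memLocalIdeal_contrib hM u (k := 1)
      (by rw [pow_one]; exact hu2') C hum hxC ψ₀ A hind χ ψ hχ hψ (hht χ hχ) (hht ψ hψ)
    rw [← hddef, ha' χ ψ, memLocalIdeal_intCast_iff hM] at h3
    exact_mod_cast h3
  have hidem : ∀ χ ξ : IrrCharacter G,
      ∑ ψ ∈ Cfsg.Agent.H84.irrFinset A, a' χ ψ * a' ψ ξ = 2 ^ d * a' χ ξ := by
    intro χ ξ
    apply Int.cast_injective (α := ℂ)
    push_cast
    rw [← ha' χ ξ, ← Cfsg.Agent.H84.sum_contrib_mul_contrib hM u hu C hxC hCx A ψ₀ h0 χ ξ,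
      Finset.mul_sum, Finset.mul_sum]
    apply Finset.sum_congr rfl
    intro ψ _
    rw [← ha' χ ψ, ← ha' ψ ξ]
    push_cast
    ring
  have htr : ∑ χ ∈ Cfsg.Agent.H84.irrFinset A, a' χ χ = 2 ^ d := by
    apply Int.cast_injective (α := ℂ)
    push_cast
    have h3 := Cfsg.Agent.H84.sum_contrib_self hM u hu C hxC hCx A ψ₀ h0
    rw [hrank] at h3
    have h4 : ∑ χ ∈ Cfsg.Agent.H84.irrFinset A, ((a' χ χ : ℤ) : ℂ) = ((2 : ℕ) : ℂ) ^ d *
        ∑ χ ∈ Cfsg.Agent.H84.irrFinset A,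
          Cfsg.Agent.H84.contrib 2 C (blockOf M (ψ₀ : C → ℂ)) u χ χ := by
      rw [Finset.mul_sum]
      apply Finset.sum_congr rfl
      intro χ _
      rw [ha' χ χ]
    rw [h4, h3]
    push_cast
    ring
  have hd2 : d = 2 := by
    have hsq1 : ∀ χ ∈ Cfsg.Agent.H84.irrFinset A, ∀ ψ ∈ Cfsg.Agent.H84.irrFinset A,
        1 ≤ a' χ ψ ^ 2 := by
      intro χ hχ ψ hψ
      have h0' : a' χ ψ ≠ 0 := fun h =>
        hodd χ ((hmem χ).mp hχ) ψ ((hmem ψ).mp hψ) (by rw [h]; exact dvd_zero _)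
      have : 0 < a' χ ψ ^ 2 := by positivity
      omega
    have hrow : ∀ χ, ∑ ψ ∈ Cfsg.Agent.H84.irrFinset A, a' χ ψ ^ 2 = 2 ^ d * a' χ χ := by
      intro χ
      rw [← hidem χ χ]
      apply Finset.sum_congr rfl
      intro ψ _
      rw [hsymm ψ χ]; ring
    have hge : (16 : ℤ) ≤ ∑ χ ∈ Cfsg.Agent.H84.irrFinset A,
        ∑ ψ ∈ Cfsg.Agent.H84.irrFinset A, a' χ ψ ^ 2 := by
      calc (16 : ℤ) = ∑ χ ∈ Cfsg.Agent.H84.irrFinset A,
            ∑ ψ ∈ Cfsg.Agent.H84.irrFinset A, 1 := by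
            rw [Finset.sum_const, Finset.sum_const, hcard]; norm_num
        _ ≤ _ := Finset.sum_le_sum (fun χ hχ => Finset.sum_le_sum (fun ψ hψ => hsq1 χ hχ ψ hψ))
    rw [Finset.sum_congr rfl (fun χ _ => hrow χ), ← Finset.mul_sum, htr] at hge
    interval_cases d
    · norm_num at hge
    · norm_num at hge
    · rfl
  subst hd2
  obtain ⟨E, hE, hAE⟩ := sign_lemma (Cfsg.Agent.H84.irrFinset A) hcard a'
    (fun χ _ ξ _ => hsymm χ ξ)
    (fun χ _ ξ _ => by rw [hidem χ ξ]; norm_num)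
    (by rw [htr]; norm_num)
    (fun χ hχ ξ hξ => hodd χ ((hmem χ).mp hχ) ξ ((hmem ξ).mp hξ))
  refine ⟨E, fun χ hχ => hE χ ((hmem χ).mpr hχ), ?_⟩
  have hcon : ∀ χ ∈ A, ∀ ψ ∈ A, Cfsg.Agent.H84.contrib 2 C (blockOf M (ψ₀ : C → ℂ)) u χ ψ
      = (E χ : ℂ) * (E ψ : ℂ) / 4 := by
    intro χ hχ ψ hψ
    have h3 := ha' χ ψ
    rw [hAE χ ((hmem χ).mpr hχ) ψ ((hmem ψ).mpr hψ)] at h3
    push_cast at h3
    have h4 : (4 : ℂ) * Cfsg.Agent.H84.contrib 2 C (blockOf M (ψ₀ : C → ℂ)) u χ ψ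
        = (E χ : ℂ) * (E ψ : ℂ) := by
      rw [← h3]; norm_num
    rw [← h4]; ring
  have hrep : ∀ χ ∈ A, ∀ t : C,
      Cfsg.Agent.H84.secPart 2 C (blockOf M (ψ₀ : C → ℂ)) u χ t = (E χ : ℂ) / 4 *
        ∑ ψ ∈ Cfsg.Agent.H84.irrFinset A,
          (E ψ : ℂ) * Cfsg.Agent.H84.secPart 2 C (blockOf M (ψ₀ : C → ℂ)) u ψ t := by
    intro χ hχ t
    rw [← Cfsg.Agent.H84.sum_contrib_mul_secPart hM u hu C hxC hCx A ψ₀ h0 χ t, Finset.mul_sum]
    apply Finset.sum_congr rfl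
    intro ψ hψ
    rw [hcon χ hχ ψ ((hmem ψ).mp hψ)]
    ring
  intro χ hχ χ' hχ' t
  rw [hrep χ hχ t, hrep χ' hχ' t]
  have hE2 : (E χ' : ℂ) * (E χ' : ℂ) = 1 := by
    rcases hE χ' ((hmem χ').mpr hχ') with h | h <;> rw [h] <;> norm_num
  calc (E χ : ℂ) / 4 * ∑ ψ ∈ Cfsg.Agent.H84.irrFinset A,
        (E ψ : ℂ) * Cfsg.Agent.H84.secPart 2 C (blockOf M (ψ₀ : C → ℂ)) u ψ t
      = (E χ : ℂ) * ((E χ' : ℂ) * (E χ' : ℂ)) / 4 * ∑ ψ ∈ Cfsg.Agent.H84.irrFinset A,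
        (E ψ : ℂ) * Cfsg.Agent.H84.secPart 2 C (blockOf M (ψ₀ : C → ℂ)) u ψ t := by
        rw [hE2, mul_one]
    _ = _ := by ring

end Signs

end Cfsg.Agent.H5.Klein4
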