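import Mathlib
import Cfsg.Agent.H5.K4IsoE
import Cfsg.Agent.H4.GlaubP

set_option autoImplicit false
set_option linter.unusedSectionVars false
set_option linter.unusedVariables false
set_option linter.style.haveILetI false

/-!
# helper5: blocks of type `T1` with a four-group as defect group: differences of characters

`t1_diff`: for `χ, χ'` in a block of type `T1` and any `x`: `χ(x) - χ'(x) = 2ρ` with `ρ` a
local integer such that `4ρ / |C_G(x)|` is a local integer.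
-/

namespace Cfsg.Agent.H5.Klein4

open Cfsg Cfsg.Agent.H4 Cfsg.Agent.H20 Cfsg.Agent.H80
open scoped ComplexConjugate

universe u

/-- The additive group of the `2ρ` with `ρ` and `4ρ/n` local integers. -/
def diffSub (M : Ideal AlgInt) (hMp : M.IsPrime) (n : ℂ) : AddSubgroup ℂ where
  carrier := {z | ∃ ρ : ℂ, MemLocalRing M ρ ∧ z = 2 * ρ ∧ MemLocalRing M (4 * ρ / n)}
  add_mem' := by
    rintro _ _ ⟨ρ₁, h1, rfl, h1'⟩ ⟨ρ₂, h2, rfl, h2'⟩
    refine ⟨ρ₁ + ρ₂, memLocalRing_add hMp h1 h2, by ring, ?_⟩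
    have e : 4 * (ρ₁ + ρ₂) / n = 4 * ρ₁ / n + 4 * ρ₂ / n := by ring
    rw [e]
    exact memLocalRing_add hMp h1' h2'
  zero_mem' := ⟨0, memLocalRing_zero hMp, by ring, by
    rw [mul_zero, zero_div]; exact memLocalRing_zero hMp⟩
  neg_mem' := by
    rintro _ ⟨ρ, h1, rfl, h1'⟩
    refine ⟨-ρ, memLocalRing_neg h1, by ring, ?_⟩
    have e : 4 * (-ρ) / n = -(4 * ρ / n) := by ring
    rw [e]
    exact memLocalRing_neg h1'

theorem mem_diffSub {M : Ideal AlgInt} (hMp : M.IsPrime) (n z : ℂ) :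
    z ∈ diffSub M hMp n ↔ ∃ ρ : ℂ, MemLocalRing M ρ ∧ z = 2 * ρ ∧ MemLocalRing M (4 * ρ / n) :=
  Iff.rfl

variable {G : Type u} [Group G] [Fintype G] {M : Ideal AlgInt}

theorem t1_section (hM : IsPModular 2 M) {A : Set (IrrCharacter G)} {P : Subgroup G}
    {c : Set (IrrCharacter (Subgroup.centralizer (P : Set G)))}
    (hmax : IsMaximalBrauerPair 2 M A P c) (hP4 : Nat.card P = 4) (hsq : ∀ u ∈ P, u * u = 1)
    (hT1 : ∀ y : G, conjPair y ⟨P, c⟩ = ⟨P, c⟩ → y ∈ Subgroup.centralizer (P : Set G))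
    (u : G) (hu : ∃ k : ℕ, orderOf u = 2 ^ k) (C : Subgroup G)
    (hC : C = Subgroup.centralizer ((Subgroup.zpowers u : Subgroup G) : Set G))
    (χ χ' : IrrCharacter G) (hχ : χ ∈ A) (hχ' : χ' ∈ A) (s : C) (hs : ¬ 2 ∣ orderOf s) :
    ∃ ρ : ℂ, MemLocalRing M ρ ∧
      (χ : G → ℂ) (u * (s : G)) - (χ' : G → ℂ) (u * (s : G)) = 2 * ρ ∧
      MemLocalRing M (4 * ρ / (Nat.card (Subgroup.centralizer ({s} : Set C)) : ℂ)) := by
  classical
  haveI : Fact (Nat.Prime 2) := ⟨Nat.prime_two⟩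
  letI : Fintype C := Fintype.ofFinite C
  have hMp := isPrime_of_isPModular hM
  obtain ⟨hA, hk, hd, hl⟩ := t1_basic hM hmax hP4 hsq hT1
  have hC' : C = Subgroup.centralizer ({u} : Set G) := by
    rw [hC]; exact Cfsg.Agent.H84.centralizer_zpowers_eq u
  have hum : u ∈ C := by
    rw [hC', Subgroup.mem_centralizer_singleton_iff]
  have hxC : ∀ c ∈ C, u * c = c * u := by
    intro c hc
    rw [hC', Subgroup.mem_centralizer_singleton_iff] at hc
    exact hc.symm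
  have h2' : Cfsg.Agent.H84.SecondMain 2 M G := fun x hx B hB χ hχ b hb hnot y hy =>
    Cfsg.Agent.S0923.result 2 M hM x hx B hB χ hχ b hb hnot y hy
  have h2 := Cfsg.Agent.H84.secondMain_both' hM h2' u hu C hC' A hA
  have e1 := Cfsg.Agent.H84.translate_eq_sum_induced hM u C hxC A h2 χ hχ s hs
  have e2 := Cfsg.Agent.H84.translate_eq_sum_induced hM u C hxC A h2 χ' hχ' s hs
  suffices hmem : (χ : G → ℂ) (u * (s : G)) - (χ' : G → ℂ) (u * (s : G)) ∈
      diffSub M hMp (Nat.card (Subgroup.centralizer ({s} : Set C)) : ℂ) by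
    obtain ⟨ρ, h1, h2, h3⟩ := hmem
    exact ⟨ρ, h1, h2, h3⟩
  have e3 : (χ : G → ℂ) (u * (s : G)) - (χ' : G → ℂ) (u * (s : G)) =
      ∑ᶠ ψ ∈ {ψ : IrrCharacter C | IsInducedBlock M C (blockOf M (ψ : C → ℂ)) A},
        (classInner (fun c : C => (χ : G → ℂ) (u * (c : G))) (ψ : C → ℂ) * (ψ : C → ℂ) s -
          classInner (fun c : C => (χ' : G → ℂ) (u * (c : G))) (ψ : C → ℂ) * (ψ : C → ℂ) s) := by
    rw [e1, e2]
    exact (finsum_mem_sub_distrib _ _ (Set.toFinite _)).symm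
  rw [e3]
  apply finsum_mem_of_blocks hMp
  · intro ψ ψ' hψ hψ'
    show IsInducedBlock M C (blockOf M (ψ' : C → ℂ)) A
    rw [Cfsg.Agent.H80.blockOf_eq_of_mem hMp hψ']
    exact hψ
  · intro ψ₁ hψ₁
    have hind : IsInducedBlock M C (blockOf M (ψ₁ : C → ℂ)) A := hψ₁
    obtain ⟨hu2, hrank⟩ := t1_sub' hM hmax hP4 hsq hT1 u hu C hC _ hind
    obtain ⟨E, hE, hEE⟩ := sub_signs hM A hA hk hd u hu2 C hC' ψ₁ hind hrank
    have hsum : ∑ᶠ ψ ∈ blockOf M (ψ₁ : C → ℂ),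
        (classInner (fun c : C => (χ : G → ℂ) (u * (c : G))) (ψ : C → ℂ) * (ψ : C → ℂ) s -
          classInner (fun c : C => (χ' : G → ℂ) (u * (c : G))) (ψ : C → ℂ) * (ψ : C → ℂ) s)
        = Cfsg.Agent.H84.secPart 2 C (blockOf M (ψ₁ : C → ℂ)) u χ s -
          Cfsg.Agent.H84.secPart 2 C (blockOf M (ψ₁ : C → ℂ)) u χ' s := by
      rw [Cfsg.Agent.H84.secPart_of_not_dvd 2 C _ u χ hs,
        Cfsg.Agent.H84.secPart_of_not_dvd 2 C _ u χ' hs,
        Cfsg.Agent.H84.blockPart_apply', Cfsg.Agent.H84.blockPart_apply']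
      exact finsum_mem_sub_distrib _ _ (Set.toFinite _)
    rw [hsum, hEE χ hχ χ' hχ' s]
    obtain ⟨σ, hσ⟩ : ∃ σ : ℂ, σ = Cfsg.Agent.H84.secPart 2 C (blockOf M (ψ₁ : C → ℂ)) u χ' s :=
      ⟨_, rfl⟩
    have hdb : blockDefect 2 (blockOf M (ψ₁ : C → ℂ)) ≤ 2 := by
      have h3 := Cfsg.Agent.H84.defect_le_of_isInducedBlock hM C _ A hind
      rw [hd] at h3
      exact h3
    have hσR : MemLocalRing M σ ∧ MemLocalRing M
        (4 * σ / (Nat.card (Subgroup.centralizer ({s} : Set C)) : ℂ)) := by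
      rw [hσ, Cfsg.Agent.H84.secPart_of_not_dvd 2 C _ u χ' hs, Cfsg.Agent.H84.blockPart_apply',
        Cfsg.Agent.H84.finsum_mem_eq_sum_irrFinset]
      constructor
      · apply memLocalRing_sum hMp
        intro ξ hξ
        obtain ⟨z, hz⟩ := translate_coeff u hu2 C hum hxC χ' ξ
        rw [hz]
        exact memLocalRing_mul hMp (memLocalRing_intCast hMp z)
          (memLocalRing_algInt hMp ⟨_, isIntegral_irr ξ s⟩)
      · rw [Finset.mul_sum, Finset.sum_div]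
        apply memLocalRing_sum hMp
        intro ξ hξ
        rw [Cfsg.Agent.H84.mem_irrFinset] at hξ
        obtain ⟨z, hz⟩ := translate_coeff u hu2 C hum hxC χ' ξ
        rw [hz]
        have h4 := factorization_card_le_add_blockDefect (p := 2) (blockOf M (ψ₁ : C → ℂ)) ξ hξ
        have h3 := hz_integral hM ξ 2 (by omega) s
        have e : 4 * ((z : ℂ) * (ξ : C → ℂ) s) /
            (Nat.card (Subgroup.centralizer ({s} : Set C)) : ℂ) =
            (z : ℂ) * (((2 : ℕ) : ℂ) ^ 2 * (ξ : C → ℂ) s /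
              (Nat.card (Subgroup.centralizer ({s} : Set C)) : ℂ)) := by
          push_cast; ring
        rw [e]
        exact memLocalRing_mul hMp (memLocalRing_intCast hMp z) h3
    rw [← hσ, mem_diffSub]
    rcases hE χ hχ with h1 | h1 <;> rcases hE χ' hχ' with h2 | h2
    · refine ⟨0, memLocalRing_zero hMp, by rw [h1, h2]; push_cast; ring, ?_⟩
      rw [mul_zero, zero_div]; exact memLocalRing_zero hMp
    · refine ⟨-σ, memLocalRing_neg hσR.1, by rw [h1, h2]; push_cast; ring, ?_⟩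
      have e : 4 * (-σ) / (Nat.card (Subgroup.centralizer ({s} : Set C)) : ℂ) =
          -(4 * σ / (Nat.card (Subgroup.centralizer ({s} : Set C)) : ℂ)) := by ring
      rw [e]; exact memLocalRing_neg hσR.2
    · refine ⟨-σ, memLocalRing_neg hσR.1, by rw [h1, h2]; push_cast; ring, ?_⟩
      have e : 4 * (-σ) / (Nat.card (Subgroup.centralizer ({s} : Set C)) : ℂ) =
          -(4 * σ / (Nat.card (Subgroup.centralizer ({s} : Set C)) : ℂ)) := by ring
      rw [e]; exact memLocalRing_neg hσR.2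
    · refine ⟨0, memLocalRing_zero hMp, by rw [h1, h2]; push_cast; ring, ?_⟩
      rw [mul_zero, zero_div]; exact memLocalRing_zero hMp

theorem t1_diff (hM : IsPModular 2 M) {A : Set (IrrCharacter G)} {P : Subgroup G}
    {c : Set (IrrCharacter (Subgroup.centralizer (P : Set G)))}
    (hmax : IsMaximalBrauerPair 2 M A P c) (hP4 : Nat.card P = 4) (hsq : ∀ u ∈ P, u * u = 1)
    (hT1 : ∀ y : G, conjPair y ⟨P, c⟩ = ⟨P, c⟩ → y ∈ Subgroup.centralizer (P : Set G))
    (χ χ' : IrrCharacter G) (hχ : χ ∈ A) (hχ' : χ' ∈ A) (x : G) :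
    ∃ ρ : ℂ, MemLocalRing M ρ ∧ (χ : G → ℂ) x - (χ' : G → ℂ) x = 2 * ρ ∧
      MemLocalRing M (4 * ρ / (Nat.card (Subgroup.centralizer ({x} : Set G)) : ℂ)) := by
  classical
  obtain ⟨a, b, hab, hua, hcop⟩ := Cfsg.Agent.H72.exists_pparts 2 Nat.prime_two x
  have hxb : x ^ b ∈ Subgroup.centralizer ((Subgroup.zpowers (x ^ a) : Subgroup G) : Set G) := by
    rw [Cfsg.Agent.H84.centralizer_zpowers_eq, Subgroup.mem_centralizer_singleton_iff,
      ← pow_add, ← pow_add, add_comm]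
  have hs : ¬ 2 ∣ orderOf (⟨x ^ b, hxb⟩ :
      Subgroup.centralizer ((Subgroup.zpowers (x ^ a) : Subgroup G) : Set G)) := by
    rw [← Subgroup.orderOf_coe]
    exact (Nat.Prime.coprime_iff_not_dvd Nat.prime_two).mp hcop.symm
  obtain ⟨ρ, h1, h2, h3⟩ := t1_section hM hmax hP4 hsq hT1 (x ^ a) hua _ rfl χ χ' hχ hχ'
    ⟨x ^ b, hxb⟩ hs
  have e1 : x ^ a * ((⟨x ^ b, hxb⟩ :
      Subgroup.centralizer ((Subgroup.zpowers (x ^ a) : Subgroup G) : Set G)) : G) = x := hab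
  rw [e1] at h2
  rw [card_centralizer_parts x a b hab _ (fun g => by
    rw [Cfsg.Agent.H84.centralizer_zpowers_eq, Subgroup.mem_centralizer_singleton_iff]
    exact eq_comm) ⟨x ^ b, hxb⟩ rfl] at h3
  exact ⟨ρ, h1, h2, h3⟩

end Cfsg.Agent.H5.Klein4
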