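import Mathlib
import Cfsg.Agent.H5.K4IsoF
import Cfsg.Agent.H5.K4IsoC

set_option autoImplicit false
set_option linter.unusedSectionVars false
set_option linter.unusedVariables false
set_option linter.style.haveILetI false

/-!
# helper5: perfect isometries between blocks with a four-group as defect group

* `Pack1 M A`: the character-theoretic properties of a block of type `T1` (one irreducible
  Brauer character); `pack1_of_T1`.
* `Pack3 M A`: the properties of a block with three irreducible Brauer characters;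
  `pack3_of_rank`.
* `asm1`, `asm3`: two blocks with four characters satisfying both `Pack1` (resp. both `Pack3`)
  are perfectly isometric.
-/

namespace Cfsg.Agent.H5.Klein4

open Cfsg Cfsg.Agent.H4 Cfsg.Agent.H20 Cfsg.Agent.H80
open scoped ComplexConjugate

universe u

/-- Properties of the characters of a block with four characters and one irreducible Brauer
character. -/
def Pack1 {X : Type u} [Group X] [Finite X] (M : Ideal AlgInt) (A : Set (IrrCharacter X)) :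
    Prop :=
  (∀ χ ∈ A, ∀ χ' ∈ A, ∀ x : X, ∃ ρ : ℂ, MemLocalRing M ρ ∧
      (χ : X → ℂ) x - (χ' : X → ℂ) x = 2 * ρ ∧
      MemLocalRing M (4 * ρ / (Nat.card (Subgroup.centralizer ({x} : Set X)) : ℂ))) ∧
  (∀ χ ∈ A, ∀ χ' ∈ A, ∀ x : X, ¬ 2 ∣ orderOf x → (χ : X → ℂ) x = (χ' : X → ℂ) x) ∧
  (∀ x : X, 2 ∣ orderOf x → ∑ χ ∈ Cfsg.Agent.H84.irrFinset A, (χ : X → ℂ) x = 0) ∧
  (∀ χ ∈ A, ∀ x : X,
    MemLocalRing M (4 * (χ : X → ℂ) x / (Nat.card (Subgroup.centralizer ({x} : Set X)) : ℂ)))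

/-- Properties of the characters of a block with four characters and three irreducible Brauer
characters. -/
def Pack3 {X : Type u} [Group X] [Finite X] (M : Ideal AlgInt) (A : Set (IrrCharacter X)) :
    Prop :=
  ∃ h : IrrCharacter X → ℤ, (∀ χ ∈ A, h χ = 1 ∨ h χ = -1) ∧
    (∀ x : X, ¬ 2 ∣ orderOf x →
      ∑ χ ∈ Cfsg.Agent.H84.irrFinset A, (h χ : ℂ) * (χ : X → ℂ) x = 0) ∧
    (∀ x : X, 2 ∣ orderOf x → ∀ χ ∈ A, (h χ : ℂ) * (χ : X → ℂ) x =
      (1 / 4 : ℂ) * ∑ ξ ∈ Cfsg.Agent.H84.irrFinset A, (h ξ : ℂ) * (ξ : X → ℂ) x) ∧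
    (∀ χ ∈ A, ∀ x : X,
      MemLocalRing M (4 * (χ : X → ℂ) x / (Nat.card (Subgroup.centralizer ({x} : Set X)) : ℂ)))

section Packs

variable {G : Type u} [Group G] [Fintype G] {M : Ideal AlgInt}

theorem four_integral (hM : IsPModular 2 M) (A : Set (IrrCharacter G))
    (hd : blockDefect 2 A = 2) (χ : IrrCharacter G) (hχ : χ ∈ A) (x : G) :
    MemLocalRing M (4 * (χ : G → ℂ) x /
      (Nat.card (Subgroup.centralizer ({x} : Set G)) : ℂ)) := by
  haveI : Fact (Nat.Prime 2) := ⟨Nat.prime_two⟩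
  have h4 := factorization_card_le_add_blockDefect (p := 2) A χ hχ
  have h3 := hz_integral hM χ 2 (by omega) x
  have e : 4 * (χ : G → ℂ) x / (Nat.card (Subgroup.centralizer ({x} : Set G)) : ℂ) =
      ((2 : ℕ) : ℂ) ^ 2 * (χ : G → ℂ) x /
        (Nat.card (Subgroup.centralizer ({x} : Set G)) : ℂ) := by
    push_cast; ring
  rw [e]
  exact h3

theorem pack1_of_T1 (hM : IsPModular 2 M) (A : Set (IrrCharacter G)) (hT : T1 M A) :
    Pack1 M A := by
  classical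
  haveI : Fact (Nat.Prime 2) := ⟨Nat.prime_two⟩
  have hMp := isPrime_of_isPModular hM
  obtain ⟨P, c, hmax, hP4, hsq, hT1⟩ := hT
  obtain ⟨hA, hk, hd, hl⟩ := t1_basic hM hmax hP4 hsq hT1
  have hs := type1_struct hM A hA hk hd hl
  refine ⟨fun χ hχ χ' hχ' x => t1_diff hM hmax hP4 hsq hT1 χ χ' hχ hχ' x, ?_, ?_, ?_⟩
  · intro χ hχ χ' hχ' x hx
    have h1 := hs χ hχ x
    have h2 := hs χ' hχ' x
    rw [Cfsg.Agent.H81.pRegularPart_of_not_dvd 2 _ hx] at h1 h2
    rw [h1, h2]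
  · intro x hx
    obtain ⟨χ₀, hχ₀⟩ := hA
    have hχ : χ₀ ∈ A := by rw [hχ₀]; exact mem_blockOf_self hMp χ₀
    have h1 := hs χ₀ hχ x
    rw [Cfsg.Agent.H81.pRegularPart_of_dvd 2 _ hx] at h1
    have h4 : (1 / 4 : ℂ) ≠ 0 := by norm_num
    exact (mul_eq_zero.mp h1.symm).resolve_left h4
  · intro χ hχ x
    exact four_integral hM A hd χ hχ x

theorem pack3_of_rank (hM : IsPModular 2 M) (A : Set (IrrCharacter G)) (hA : IsPBlock M A)
    (hk : Nat.card A = 4) (hd : blockDefect 2 A = 2) (hl : blockRank 2 A = 3) :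
    Pack3 M A := by
  classical
  haveI : Fact (Nat.Prime 2) := ⟨Nat.prime_two⟩
  have hMp := isPrime_of_isPModular hM
  obtain ⟨h, hh, hs⟩ := type3_struct hM A hA hk hd hl
  have hne : ∀ χ ∈ A, (h χ : ℂ) ≠ 0 := by
    intro χ hχ
    rcases hh χ hχ with e | e <;> rw [e] <;> norm_num
  have hsq : ∀ χ ∈ A, (h χ : ℂ) * (h χ : ℂ) = 1 := by
    intro χ hχ
    rcases hh χ hχ with e | e <;> rw [e] <;> norm_num
  refine ⟨h, hh, ?_, ?_, fun χ hχ x => four_integral hM A hd χ hχ x⟩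
  · intro x hx
    obtain ⟨χ₀, hχ₀⟩ := hA
    have hχ : χ₀ ∈ A := by rw [hχ₀]; exact mem_blockOf_self hMp χ₀
    have h1 := hs χ₀ hχ x
    rw [Cfsg.Agent.H81.pRegularPart_of_not_dvd 2 _ hx] at h1
    have h2 : (h χ₀ : ℂ) / 4 * ∑ ξ ∈ Cfsg.Agent.H84.irrFinset A,
        (h ξ : ℂ) * (ξ : G → ℂ) x = 0 := by
      linear_combination h1
    have h4 : (h χ₀ : ℂ) / 4 ≠ 0 := div_ne_zero (hne χ₀ hχ) (by norm_num)
    exact (mul_eq_zero.mp h2).resolve_left h4
  · intro x hx χ hχ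
    have h1 := hs χ hχ x
    rw [Cfsg.Agent.H81.pRegularPart_of_dvd 2 _ hx] at h1
    have h2 := hsq χ hχ
    linear_combination (-(h χ : ℂ)) * h1 +
      (1 / 4 : ℂ) * (∑ ξ ∈ Cfsg.Agent.H84.irrFinset A, (h ξ : ℂ) * (ξ : G → ℂ) x) * h2

end Packs

section Bij

variable {G H : Type u} [Group G] [Finite G] [Group H] [Finite H]

theorem exists_bij (c : Set (IrrCharacter H)) (B : Set (IrrCharacter G))
    (hcard : Nat.card c = Nat.card B) (hne : B.Nonempty) :
    ∃ I : IrrCharacter H → IrrCharacter G, Set.BijOn I c B := by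
  classical
  letI := fintypeIrr G
  letI := fintypeIrr H
  obtain ⟨e⟩ := (Finite.card_eq (α := c) (β := B)).mp hcard
  obtain ⟨χ₀, hχ₀⟩ := hne
  refine ⟨fun η => if h : η ∈ c then (e ⟨η, h⟩ : IrrCharacter G) else χ₀, ?_, ?_, ?_⟩
  · intro η hη
    simp only [dif_pos hη]
    exact (e ⟨η, hη⟩).2
  · intro η hη η' hη' heq
    simp only [dif_pos hη, dif_pos hη'] at heq
    have := e.injective (Subtype.ext heq)
    exact congrArg Subtype.val this
  · intro χ hχ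
    refine ⟨(e.symm ⟨χ, hχ⟩ : IrrCharacter H), (e.symm ⟨χ, hχ⟩).2, ?_⟩
    simp only [dif_pos (e.symm ⟨χ, hχ⟩).2, Subtype.coe_eta, Equiv.apply_symm_apply]

theorem sum_bij_irr {c : Set (IrrCharacter H)} {B : Set (IrrCharacter G)}
    (I : IrrCharacter H → IrrCharacter G) (hI : Set.BijOn I c B) (F : IrrCharacter G → ℂ) :
    ∑ η ∈ Cfsg.Agent.H84.irrFinset c, F (I η) = ∑ χ ∈ Cfsg.Agent.H84.irrFinset B, F χ := by
  apply Finset.sum_nbij I
  · intro η hη
    exact Cfsg.Agent.H84.mem_irrFinset.mpr (hI.1 (Cfsg.Agent.H84.mem_irrFinset.mp hη))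
  · intro η hη η' hη' h
    exact hI.2.1 (Cfsg.Agent.H84.mem_irrFinset.mp (Finset.mem_coe.mp hη))
      (Cfsg.Agent.H84.mem_irrFinset.mp (Finset.mem_coe.mp hη')) h
  · intro χ hχ
    obtain ⟨η, hη, rfl⟩ := hI.2.2 (Cfsg.Agent.H84.mem_irrFinset.mp (Finset.mem_coe.mp hχ))
    exact ⟨η, Finset.mem_coe.mpr (Cfsg.Agent.H84.mem_irrFinset.mpr hη), rfl⟩
  · intro η _
    rfl

end Bij

end Cfsg.Agent.H5.Klein4
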