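import Mathlib
import Cfsg.Agent.H5.K4IsoG

set_option autoImplicit false
set_option linter.unusedSectionVars false
set_option linter.unusedVariables false
set_option linter.style.haveILetI false

/-!
# helper5: perfect isometries between blocks with a four-group as defect group (assembly)

`asm1`, `asm3`: two blocks with four characters satisfying both `Pack1` (resp. both `Pack3`)
are perfectly isometric.
-/

namespace Cfsg.Agent.H5.Klein4

open Cfsg Cfsg.Agent.H4 Cfsg.Agent.H20 Cfsg.Agent.H80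
open scoped ComplexConjugate

universe u

variable {G H : Type u} [Group G] [Fintype G] [Group H] [Fintype H] {M : Ideal AlgInt}

theorem kernel_eq (c : Set (IrrCharacter H)) (I : IrrCharacter H → IrrCharacter G)
    (ε : IrrCharacter H → ℤ) (x : G) (y : H) :
    signedBijectionKernel c I ε x y = ∑ η ∈ Cfsg.Agent.H84.irrFinset c,
      (ε η : ℂ) * (I η : G → ℂ) x * (η : H → ℂ) y := by
  unfold signedBijectionKernel
  rw [Cfsg.Agent.H84.finsum_mem_eq_sum_irrFinset]

theorem irr_memLocalRing {X : Type u} [Group X] [Finite X] (hMp : M.IsPrime)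
    (χ : IrrCharacter X) (x : X) : MemLocalRing M ((χ : X → ℂ) x) :=
  memLocalRing_algInt hMp ⟨_, isIntegral_irr χ x⟩

theorem nonempty_of_card_four {α : Type*} (S : Set α) (h : Nat.card S = 4) : S.Nonempty := by
  have h1 : Nonempty S := (Nat.card_pos_iff.mp (by rw [h]; norm_num)).1
  obtain ⟨⟨a, ha⟩⟩ := h1
  exact ⟨a, ha⟩

theorem asm1 (hM : IsPModular 2 M) (B : Set (IrrCharacter G)) (c : Set (IrrCharacter H))
    (hkB : Nat.card B = 4) (hkc : Nat.card c = 4) (hPB : Pack1 M B) (hPc : Pack1 M c) :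
    ∃ (I : IrrCharacter H → IrrCharacter G) (ε : IrrCharacter H → ℤ),
      IsPerfectIsometry 2 M c B I ε := by
  classical
  have hMp := isPrime_of_isPModular hM
  obtain ⟨I, hI⟩ := exists_bij c B (hkc.trans hkB.symm) (nonempty_of_card_four B hkB)
  obtain ⟨η₁, hη₁⟩ := nonempty_of_card_four c hkc
  have hχ₁ : I η₁ ∈ B := hI.1 hη₁
  obtain ⟨D1B, R1B, R2B, L2B⟩ := hPB
  obtain ⟨D1c, R1c, R2c, L2c⟩ := hPc
  have hcardc : (Cfsg.Agent.H84.irrFinset c).card = 4 := by
    rw [Cfsg.Agent.H84.card_irrFinset, hkc]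
  have hmemc : ∀ η, η ∈ Cfsg.Agent.H84.irrFinset c ↔ η ∈ c :=
    fun η => Cfsg.Agent.H84.mem_irrFinset
  refine ⟨I, fun _ => 1, hI, fun η _ => Or.inl rfl, ?_⟩
  intro x y
  have hμ : signedBijectionKernel c I (fun _ => 1) x y =
      ∑ η ∈ Cfsg.Agent.H84.irrFinset c, (I η : G → ℂ) x * (η : H → ℂ) y := by
    rw [kernel_eq]
    apply Finset.sum_congr rfl
    intro η _
    push_cast; ring
  have hSB : ∑ η ∈ Cfsg.Agent.H84.irrFinset c, (I η : G → ℂ) x =
      ∑ χ ∈ Cfsg.Agent.H84.irrFinset B, (χ : G → ℂ) x :=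
    sum_bij_irr I hI (fun χ => (χ : G → ℂ) x)
  obtain ⟨nG, hnG⟩ : ∃ nG : ℂ, nG = (Nat.card (Subgroup.centralizer ({x} : Set G)) : ℂ) :=
    ⟨_, rfl⟩
  obtain ⟨nH, hnH⟩ : ∃ nH : ℂ, nH = (Nat.card (Subgroup.centralizer ({y} : Set H)) : ℂ) :=
    ⟨_, rfl⟩
  obtain ⟨a, ha⟩ : ∃ a : ℂ, a = (I η₁ : G → ℂ) x := ⟨_, rfl⟩
  obtain ⟨b, hb⟩ : ∃ b : ℂ, b = (η₁ : H → ℂ) y := ⟨_, rfl⟩
  have haR : MemLocalRing M a := by rw [ha]; exact irr_memLocalRing hMp _ _
  have hbR : MemLocalRing M b := by rw [hb]; exact irr_memLocalRing hMp _ _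
  have haL : MemLocalRing M (4 * a / nG) := by rw [ha, hnG]; exact L2B _ hχ₁ x
  have hbL : MemLocalRing M (4 * b / nH) := by rw [hb, hnH]; exact L2c _ hη₁ y
  have keyρ : ∀ η : IrrCharacter H, ∃ ρ : ℂ, η ∈ c → (MemLocalRing M ρ ∧
      (I η : G → ℂ) x - a = 2 * ρ ∧ MemLocalRing M (4 * ρ / nG)) := by
    intro η
    by_cases hη : η ∈ c
    · obtain ⟨ρ, h⟩ := D1B (I η) (hI.1 hη) (I η₁) hχ₁ x
      exact ⟨ρ, fun _ => by rw [ha, hnG]; exact h⟩
    · exact ⟨0, fun h => absurd h hη⟩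
  choose ρ hρ using keyρ
  have keyσ : ∀ η : IrrCharacter H, ∃ σ : ℂ, η ∈ c → (MemLocalRing M σ ∧
      (η : H → ℂ) y - b = 2 * σ ∧ MemLocalRing M (4 * σ / nH)) := by
    intro η
    by_cases hη : η ∈ c
    · obtain ⟨σ, h⟩ := D1c η hη η₁ hη₁ y
      exact ⟨σ, fun _ => by rw [hb, hnH]; exact h⟩
    · exact ⟨0, fun h => absurd h hη⟩
  choose σ hσ using keyσ
  have hτB : ∃ τ : ℂ, MemLocalRing M τ ∧
      ∑ η ∈ Cfsg.Agent.H84.irrFinset c, (I η : G → ℂ) x = 4 * τ ∧
      MemLocalRing M (4 * τ / nG) := by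
    by_cases hx : 2 ∣ orderOf x
    · refine ⟨0, memLocalRing_zero hMp, ?_, by
        rw [mul_zero, zero_div]; exact memLocalRing_zero hMp⟩
      rw [hSB, R2B x hx, mul_zero]
    · refine ⟨a, haR, ?_, haL⟩
      have e : ∀ η ∈ Cfsg.Agent.H84.irrFinset c, (I η : G → ℂ) x = a := by
        intro η hη
        rw [ha]
        exact R1B (I η) (hI.1 ((hmemc η).mp hη)) (I η₁) hχ₁ x hx
      rw [Finset.sum_congr rfl e, Finset.sum_const, hcardc, nsmul_eq_mul]
      norm_num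
  have hτc : ∃ τ : ℂ, MemLocalRing M τ ∧
      ∑ η ∈ Cfsg.Agent.H84.irrFinset c, (η : H → ℂ) y = 4 * τ ∧
      MemLocalRing M (4 * τ / nH) := by
    by_cases hy : 2 ∣ orderOf y
    · refine ⟨0, memLocalRing_zero hMp, ?_, by
        rw [mul_zero, zero_div]; exact memLocalRing_zero hMp⟩
      rw [R2c y hy, mul_zero]
    · refine ⟨b, hbR, ?_, hbL⟩
      have e : ∀ η ∈ Cfsg.Agent.H84.irrFinset c, (η : H → ℂ) y = b := by
        intro η hη
        rw [hb]
        exact R1c η ((hmemc η).mp hη) η₁ hη₁ y hy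
      rw [Finset.sum_congr rfl e, Finset.sum_const, hcardc, nsmul_eq_mul]
      norm_num
  obtain ⟨τB, hτB1, hτB2, hτB3⟩ := hτB
  obtain ⟨τc, hτc1, hτc2, hτc3⟩ := hτc
  have hform : signedBijectionKernel c I (fun _ => 1) x y =
      4 * a * τc + 4 * b * τB - 4 * a * b +
        4 * ∑ η ∈ Cfsg.Agent.H84.irrFinset c, ρ η * σ η := by
    rw [hμ]
    have e : ∀ η ∈ Cfsg.Agent.H84.irrFinset c, (I η : G → ℂ) x * (η : H → ℂ) y =
        a * (η : H → ℂ) y + b * (I η : G → ℂ) x - a * b + 4 * (ρ η * σ η) := by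
      intro η hη
      have h1 := (hρ η ((hmemc η).mp hη)).2.1
      have h2 := (hσ η ((hmemc η).mp hη)).2.1
      linear_combination ((η : H → ℂ) y - b) * h1 + 2 * ρ η * h2
    rw [Finset.sum_congr rfl e]
    simp only [Finset.sum_add_distrib, Finset.sum_sub_distrib, ← Finset.mul_sum,
      Finset.sum_const, hcardc, nsmul_eq_mul, hτc2, hτB2]
    push_cast
    ring
  have hsumG : (4 * ∑ η ∈ Cfsg.Agent.H84.irrFinset c, ρ η * σ η) / nG =
      ∑ η ∈ Cfsg.Agent.H84.irrFinset c, (4 * ρ η / nG) * σ η := by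
    rw [Finset.mul_sum, Finset.sum_div]
    apply Finset.sum_congr rfl
    intro η _
    ring
  have hsumH : (4 * ∑ η ∈ Cfsg.Agent.H84.irrFinset c, ρ η * σ η) / nH =
      ∑ η ∈ Cfsg.Agent.H84.irrFinset c, ρ η * (4 * σ η / nH) := by
    rw [Finset.mul_sum, Finset.sum_div]
    apply Finset.sum_congr rfl
    intro η _
    ring
  refine ⟨?_, ?_, ?_⟩
  · rw [← hnG, hform]
    have e : (4 * a * τc + 4 * b * τB - 4 * a * b +
        4 * ∑ η ∈ Cfsg.Agent.H84.irrFinset c, ρ η * σ η) / nG =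
        (4 * a / nG) * τc + b * (4 * τB / nG) - (4 * a / nG) * b +
          (4 * ∑ η ∈ Cfsg.Agent.H84.irrFinset c, ρ η * σ η) / nG := by ring
    rw [e, hsumG]
    exact memLocalRing_add hMp (memLocalRing_sub hMp (memLocalRing_add hMp
      (memLocalRing_mul hMp haL hτc1) (memLocalRing_mul hMp hbR hτB3))
      (memLocalRing_mul hMp haL hbR)) (memLocalRing_sum hMp _ _ (fun η hη =>
        memLocalRing_mul hMp (hρ η ((hmemc η).mp hη)).2.2 (hσ η ((hmemc η).mp hη)).1))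
  · rw [← hnH, hform]
    have e : (4 * a * τc + 4 * b * τB - 4 * a * b +
        4 * ∑ η ∈ Cfsg.Agent.H84.irrFinset c, ρ η * σ η) / nH =
        a * (4 * τc / nH) + (4 * b / nH) * τB - a * (4 * b / nH) +
          (4 * ∑ η ∈ Cfsg.Agent.H84.irrFinset c, ρ η * σ η) / nH := by ring
    rw [e, hsumH]
    exact memLocalRing_add hMp (memLocalRing_sub hMp (memLocalRing_add hMp
      (memLocalRing_mul hMp haR hτc3) (memLocalRing_mul hMp hbL hτB1))
      (memLocalRing_mul hMp haR hbL)) (memLocalRing_sum hMp _ _ (fun η hη =>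
        memLocalRing_mul hMp (hρ η ((hmemc η).mp hη)).1 (hσ η ((hmemc η).mp hη)).2.2))
  · by_cases hx : 2 ∣ orderOf x <;> by_cases hy : 2 ∣ orderOf y
    · left
      exact iff_of_false (fun h => h hx) (fun h => h hy)
    · right
      have e1 : ∀ η ∈ Cfsg.Agent.H84.irrFinset c, (I η : G → ℂ) x * (η : H → ℂ) y =
          (I η : G → ℂ) x * b := by
        intro η hη
        rw [hb, R1c η ((hmemc η).mp hη) η₁ hη₁ y hy]
      rw [hμ, Finset.sum_congr rfl e1, ← Finset.sum_mul, hSB, R2B x hx, zero_mul]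
    · right
      have e1 : ∀ η ∈ Cfsg.Agent.H84.irrFinset c, (I η : G → ℂ) x * (η : H → ℂ) y =
          a * (η : H → ℂ) y := by
        intro η hη
        rw [ha, R1B (I η) (hI.1 ((hmemc η).mp hη)) (I η₁) hχ₁ x hx]
      rw [hμ, Finset.sum_congr rfl e1, ← Finset.mul_sum, R2c y hy, mul_zero]
    · left
      exact iff_of_true hx hy

theorem asm3 (hM : IsPModular 2 M) (B : Set (IrrCharacter G)) (c : Set (IrrCharacter H))
    (hkB : Nat.card B = 4) (hkc : Nat.card c = 4) (hQB : Pack3 M B) (hQc : Pack3 M c) :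
    ∃ (I : IrrCharacter H → IrrCharacter G) (ε : IrrCharacter H → ℤ),
      IsPerfectIsometry 2 M c B I ε := by
  classical
  haveI : Fact (Nat.Prime 2) := ⟨Nat.prime_two⟩
  have hMp := isPrime_of_isPModular hM
  obtain ⟨I, hI⟩ := exists_bij c B (hkc.trans hkB.symm) (nonempty_of_card_four B hkB)
  obtain ⟨η₁, hη₁⟩ := nonempty_of_card_four c hkc
  have hχ₁ : I η₁ ∈ B := hI.1 hη₁
  obtain ⟨sB, hsB, T1B, T2B, L2B⟩ := hQB
  obtain ⟨sc, hsc, T1c, T2c, L2c⟩ := hQc
  have hmemc : ∀ η, η ∈ Cfsg.Agent.H84.irrFinset c ↔ η ∈ c :=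
    fun η => Cfsg.Agent.H84.mem_irrFinset
  refine ⟨I, fun η => sc η * sB (I η), hI, ?_, ?_⟩
  · intro η hη
    rcases hsc η hη with h1 | h1 <;> rcases hsB (I η) (hI.1 hη) with h2 | h2 <;>
      simp [h1, h2]
  intro x y
  have hμ : ∀ (x' : G) (y' : H),
      signedBijectionKernel c I (fun η => sc η * sB (I η)) x' y' =
        ∑ η ∈ Cfsg.Agent.H84.irrFinset c,
          ((sB (I η) : ℂ) * (I η : G → ℂ) x') * ((sc η : ℂ) * (η : H → ℂ) y') := by
    intro x' y'
    rw [kernel_eq]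
    apply Finset.sum_congr rfl
    intro η _
    push_cast; ring
  have hΨB : ∀ x' : G, ∑ η ∈ Cfsg.Agent.H84.irrFinset c, (sB (I η) : ℂ) * (I η : G → ℂ) x' =
      ∑ χ ∈ Cfsg.Agent.H84.irrFinset B, (sB χ : ℂ) * (χ : G → ℂ) x' :=
    fun x' => sum_bij_irr I hI (fun χ => (sB χ : ℂ) * (χ : G → ℂ) x')
  have hF1 : ∀ x' : G, 2 ∣ orderOf x' → ∀ y' : H,
      signedBijectionKernel c I (fun η => sc η * sB (I η)) x' y' =
        (1 / 4 : ℂ) * (∑ χ ∈ Cfsg.Agent.H84.irrFinset B, (sB χ : ℂ) * (χ : G → ℂ) x') *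
          ∑ η ∈ Cfsg.Agent.H84.irrFinset c, (sc η : ℂ) * (η : H → ℂ) y' := by
    intro x' hx' y'
    rw [hμ, Finset.mul_sum]
    apply Finset.sum_congr rfl
    intro η hη
    rw [T2B x' hx' (I η) (hI.1 ((hmemc η).mp hη))]
  have hF2 : ∀ y' : H, 2 ∣ orderOf y' → ∀ x' : G,
      signedBijectionKernel c I (fun η => sc η * sB (I η)) x' y' =
        (1 / 4 : ℂ) * (∑ η ∈ Cfsg.Agent.H84.irrFinset c, (sc η : ℂ) * (η : H → ℂ) y') *
          ∑ χ ∈ Cfsg.Agent.H84.irrFinset B, (sB χ : ℂ) * (χ : G → ℂ) x' := by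
    intro y' hy' x'
    rw [hμ, ← hΨB x', Finset.mul_sum]
    apply Finset.sum_congr rfl
    intro η hη
    rw [T2c y' hy' η ((hmemc η).mp hη)]
    ring
  obtain ⟨nG, hnG⟩ : ∃ nG : ℂ, nG = (Nat.card (Subgroup.centralizer ({x} : Set G)) : ℂ) :=
    ⟨_, rfl⟩
  obtain ⟨nH, hnH⟩ : ∃ nH : ℂ, nH = (Nat.card (Subgroup.centralizer ({y} : Set H)) : ℂ) :=
    ⟨_, rfl⟩
  have haL : MemLocalRing M (4 * (I η₁ : G → ℂ) x / nG) := by rw [hnG]; exact L2B _ hχ₁ x
  have hbL : MemLocalRing M (4 * (η₁ : H → ℂ) y / nH) := by rw [hnH]; exact L2c _ hη₁ y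
  show MemLocalRing M (signedBijectionKernel c I (fun η => sc η * sB (I η)) x y /
      (Nat.card (Subgroup.centralizer ({x} : Set G)) : ℂ)) ∧
    MemLocalRing M (signedBijectionKernel c I (fun η => sc η * sB (I η)) x y /
      (Nat.card (Subgroup.centralizer ({y} : Set H)) : ℂ)) ∧
    ((IsPRegular 2 x ↔ IsPRegular 2 y) ∨
      signedBijectionKernel c I (fun η => sc η * sB (I η)) x y = 0)
  rw [← hnG, ← hnH]
  by_cases hx : 2 ∣ orderOf x <;> by_cases hy : 2 ∣ orderOf y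
  · have e1 := T2B x hx (I η₁) hχ₁
    have e2 := T2c y hy η₁ hη₁
    have hval : signedBijectionKernel c I (fun η => sc η * sB (I η)) x y =
        4 * ((sB (I η₁) : ℂ) * (I η₁ : G → ℂ) x) * ((sc η₁ : ℂ) * (η₁ : H → ℂ) y) := by
      rw [hF1 x hx y, e1, e2]; ring
    refine ⟨?_, ?_, Or.inl (iff_of_false (fun h => h hx) (fun h => h hy))⟩
    · rw [hval]
      have e : 4 * ((sB (I η₁) : ℂ) * (I η₁ : G → ℂ) x) * ((sc η₁ : ℂ) * (η₁ : H → ℂ) y) / nG =
          (sB (I η₁) : ℂ) * (4 * (I η₁ : G → ℂ) x / nG) *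
            ((sc η₁ : ℂ) * (η₁ : H → ℂ) y) := by ring
      rw [e]
      exact memLocalRing_mul hMp (memLocalRing_mul hMp (memLocalRing_intCast hMp _) haL)
        (memLocalRing_mul hMp (memLocalRing_intCast hMp _) (irr_memLocalRing hMp _ _))
    · rw [hval]
      have e : 4 * ((sB (I η₁) : ℂ) * (I η₁ : G → ℂ) x) * ((sc η₁ : ℂ) * (η₁ : H → ℂ) y) / nH =
          ((sB (I η₁) : ℂ) * (I η₁ : G → ℂ) x) *
            ((sc η₁ : ℂ) * (4 * (η₁ : H → ℂ) y / nH)) := by ring
      rw [e]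
      exact memLocalRing_mul hMp
        (memLocalRing_mul hMp (memLocalRing_intCast hMp _) (irr_memLocalRing hMp _ _))
        (memLocalRing_mul hMp (memLocalRing_intCast hMp _) hbL)
  · have hval : signedBijectionKernel c I (fun η => sc η * sB (I η)) x y = 0 := by
      rw [hF1 x hx y, T1c y hy, mul_zero]
    refine ⟨?_, ?_, Or.inr hval⟩
    · rw [hval, zero_div]; exact memLocalRing_zero hMp
    · rw [hval, zero_div]; exact memLocalRing_zero hMp
  · have hval : signedBijectionKernel c I (fun η => sc η * sB (I η)) x y = 0 := by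
      rw [hF2 y hy x, T1B x hx, mul_zero]
    refine ⟨?_, ?_, Or.inr hval⟩
    · rw [hval, zero_div]; exact memLocalRing_zero hMp
    · rw [hval, zero_div]; exact memLocalRing_zero hMp
  · refine ⟨?_, ?_, Or.inl (iff_of_true hx hy)⟩
    · have ha : ∀ η ∈ Cfsg.Agent.H84.irrFinset c,
          MemLocalRing M ((sc η : ℂ) * (sB (I η) : ℂ) * (η : H → ℂ) y) := fun η _ =>
        memLocalRing_mul hMp (memLocalRing_mul hMp (memLocalRing_intCast hMp _)
          (memLocalRing_intCast hMp _)) (irr_memLocalRing hMp _ _)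
      have h0 : ∀ x' : G, 2 ∣ orderOf x' → ∑ η ∈ Cfsg.Agent.H84.irrFinset c,
          ((sc η : ℂ) * (sB (I η) : ℂ) * (η : H → ℂ) y) * (I η : G → ℂ) x' = 0 := by
        intro x' hx'
        have e' : ∑ η ∈ Cfsg.Agent.H84.irrFinset c,
            ((sc η : ℂ) * (sB (I η) : ℂ) * (η : H → ℂ) y) * (I η : G → ℂ) x' =
            signedBijectionKernel c I (fun η => sc η * sB (I η)) x' y := by
          rw [hμ]
          apply Finset.sum_congr rfl
          intro η _
          ring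
        rw [e', hF1 x' hx' y, T1c y hy, mul_zero]
      have h := perfect_local hM (Cfsg.Agent.H84.irrFinset c)
        (fun η => (sc η : ℂ) * (sB (I η) : ℂ) * (η : H → ℂ) y) I ha h0 x
      have e : signedBijectionKernel c I (fun η => sc η * sB (I η)) x y =
          ∑ η ∈ Cfsg.Agent.H84.irrFinset c,
            ((sc η : ℂ) * (sB (I η) : ℂ) * (η : H → ℂ) y) * (I η : G → ℂ) x := by
        rw [hμ]
        apply Finset.sum_congr rfl
        intro η _
        ring
      rw [e, hnG]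
      exact h
    · have ha : ∀ η ∈ Cfsg.Agent.H84.irrFinset c,
          MemLocalRing M ((sc η : ℂ) * (sB (I η) : ℂ) * (I η : G → ℂ) x) := fun η _ =>
        memLocalRing_mul hMp (memLocalRing_mul hMp (memLocalRing_intCast hMp _)
          (memLocalRing_intCast hMp _)) (irr_memLocalRing hMp _ _)
      have h0 : ∀ y' : H, 2 ∣ orderOf y' → ∑ η ∈ Cfsg.Agent.H84.irrFinset c,
          ((sc η : ℂ) * (sB (I η) : ℂ) * (I η : G → ℂ) x) * (η : H → ℂ) y' = 0 := by
        intro y' hy'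
        have e' : ∑ η ∈ Cfsg.Agent.H84.irrFinset c,
            ((sc η : ℂ) * (sB (I η) : ℂ) * (I η : G → ℂ) x) * (η : H → ℂ) y' =
            signedBijectionKernel c I (fun η => sc η * sB (I η)) x y' := by
          rw [hμ]
          apply Finset.sum_congr rfl
          intro η _
          ring
        rw [e', hF2 y' hy' x, T1B x hx, mul_zero]
      have h := perfect_local hM (Cfsg.Agent.H84.irrFinset c)
        (fun η => (sc η : ℂ) * (sB (I η) : ℂ) * (I η : G → ℂ) x) (fun η => η) ha h0 y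
      have e : signedBijectionKernel c I (fun η => sc η * sB (I η)) x y =
          ∑ η ∈ Cfsg.Agent.H84.irrFinset c,
            ((sc η : ℂ) * (sB (I η) : ℂ) * (I η : G → ℂ) x) * (η : H → ℂ) y := by
        rw [hμ]
        apply Finset.sum_congr rfl
        intro η _
        ring
      rw [e, hnH]
      exact h

end Cfsg.Agent.H5.Klein4
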