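import Cfsg.Agent.H87.OlMain
import Cfsg.Agent.H87.OpPrime
import Cfsg.Agent.H88.Subnormal

/-!
# The `p`-elements of `Aut_E(P)` lie in every invariant subsystem over the same subgroup

Piece `S5142-G0` of helper87's project.
-/

set_option autoImplicit false
set_option linter.style.haveILetI false

namespace Cfsg.Agent.H5.Op

open Cfsg Cfsg.FusionSystem Cfsg.Agent.H86 Cfsg.Agent.H87

open scoped Pointwise

universe u

variable {Ω : Type u} [Group Ω] {S T : Subgroup Ω}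

/-- Powers of conjugate automorphisms. -/
theorem autFun_pow_conj {P P' : Subgroup Ω} {ψ : Ω → Ω} (β : MulAut P) (γ : MulAut P')
    (hψ : ∀ x ∈ P, ψ x ∈ P')
    (h : ∀ x ∈ P, autFun P' γ (ψ x) = ψ (autFun P β x)) (n : ℕ) :
    ∀ x ∈ P, autFun P' (γ ^ n) (ψ x) = ψ (autFun P (β ^ n) x) := by
  induction n with
  | zero =>
    intro x hx
    rw [pow_zero, pow_zero, autFun_one (hψ x hx), autFun_one hx]
  | succ n ih =>
    intro x hx
    rw [pow_succ, pow_succ, autFun_mul _ _ (hψ x hx), h x hx, ih _ (autFun_mem _ hx),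
      autFun_mul _ _ hx]

/-- In a system where `P` is fully automized, an automorphism of `p`-power order of `P` is
conjugate, inside the automorphism group, to a conjugation by an element of `S`. -/
theorem exists_conj_of_pow_eq_one [Finite S] {p : ℕ} [Fact p.Prime] {F : FusionSystem S}
    {P : Subgroup Ω} (hP : F.IsFullyAutomized p P) (γ : MulAut P) (hγ : γ ∈ F.autGroup P)
    (k : ℕ) (hk : γ ^ (p ^ k) = 1) :
    ∃ b ∈ F.autGroup P, ∃ t ∈ S, ∀ x : P, (((b * γ * b⁻¹) x : P) : Ω) = t * (x : Ω) * t⁻¹ := by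
  have hPS : P ≤ S := hP.1
  haveI : Finite P := finite_of_le hPS
  obtain ⟨R, hR⟩ := hP.2
  obtain ⟨g, hg⟩ : ∃ g : F.autGroup P, g = ⟨γ, hγ⟩ := ⟨_, rfl⟩
  have hgk : g ^ (p ^ k) = 1 := by
    rw [hg]
    exact Subtype.ext hk
  have hzp : IsPGroup p (Subgroup.zpowers g) := by
    rintro ⟨h, hh⟩
    obtain ⟨n, rfl⟩ := Subgroup.mem_zpowers_iff.1 hh
    refine ⟨k, Subtype.ext ?_⟩
    show (g ^ n) ^ (p ^ k) = 1
    rw [← zpow_natCast, ← zpow_mul, mul_comm, zpow_mul, zpow_natCast, hgk, one_zpow]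
  obtain ⟨R', hR'⟩ := hzp.exists_le_sylow
  obtain ⟨a, ha⟩ := MulAction.exists_smul_eq (F.autGroup P) R' R
  have hgR' : g ∈ (R' : Subgroup (F.autGroup P)) := hR' (Subgroup.mem_zpowers g)
  have h3 : MulAut.conj a • g ∈ MulAut.conj a • (R' : Subgroup (F.autGroup P)) :=
    Subgroup.smul_mem_pointwise_smul _ _ _ hgR'
  rw [← Sylow.coe_subgroup_smul, ha, hR, MulAut.smul_def, MulAut.conj_apply,
    Subgroup.mem_subgroupOf] at h3
  obtain ⟨t, htS, Ht⟩ := (mem_autInducedBy_iff S P _).1 h3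
  refine ⟨(a : MulAut P), a.2, t, htS, fun x => ?_⟩
  rw [← Ht x, hg]
  rfl

/-- `S5142-G0`. -/
theorem gen0_of_invariant [Finite S] {p : ℕ} [Fact p.Prime] (hS : IsPGroup p S)
    {F : FusionSystem S} (hF : F.IsSaturated p) {T : Subgroup Ω} {E D' : FusionSystem T}
    (hE : E.IsNormalIn F p) (hD' : D'.IsInvariantIn F) : Gen0 p E D' := by
  have hEsat : E.IsSaturated p := hE.1.1
  have hEinv : E.IsInvariantIn F := hE.1.2.2
  have hTcl : F.StronglyClosed T := hEinv.2.1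
  have hTS : T ≤ S := hTcl.1
  haveI : Finite T := finite_of_le hTS
  have hTp : IsPGroup p T := hS.to_le hTS
  have hSE : StrongInv E F := (invariant_iff_strongInv hS hF hEinv.1 hTcl).1 hEinv
  have hSD : StrongInv D' F := (invariant_iff_strongInv hS hF hD'.1 hTcl).1 hD'
  intro P hPc
  have hPT : P ≤ T := hPc.1
  rw [Subgroup.map_le_iff_le_comap, Subgroup.closure_le]
  rintro φ ⟨k, hk⟩
  show (φ : MulAut P) ∈ D'.autGroup P
  rw [mem_autGroup_iff hPT]
  have hφE : Mor E P (autFun P (φ : MulAut P)) := (mem_autGroup_iff hPT _).1 φ.2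
  have hφk : (φ : MulAut P) ^ (p ^ k) = 1 := by
    have h1 : φ ^ (p ^ k) = 1 := by rw [← hk]; exact pow_orderOf_eq_one φ
    have h2 := congrArg (fun a : E.autGroup P => (a : MulAut P)) h1
    simpa using h2
  -- a fully `F`-normalized conjugate
  obtain ⟨P', hPP', hP'fn⟩ := exists_fullyNormalized_conj F (hPT.trans hTS)
  obtain ⟨ψ, hψ, rfl⟩ := Cfsg.Agent.H86.isConj_iff.1 hPP'
  have hψT : ∀ x ∈ P, ψ x ∈ T := fun x hx => (stronglyClosed_iff.1 hTcl).2 P ψ hPT hψ x hx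
  have hP'T : imgS P ψ ≤ T := by
    intro y hy
    obtain ⟨x, hx, rfl⟩ := hψ.mem_imgS.1 hy
    exact hψT x hx
  haveI : Finite (imgS P ψ) := finite_of_le hP'T
  -- transport `φ` to `P'`
  obtain ⟨χ, hχ, hχeq⟩ := hSE P P (autFun P (φ : MulAut P)) ψ le_rfl hPT hφE
    (fun x hx => autFun_mem _ hx) hψ
  have hχmaps : ∀ y ∈ imgS P ψ, χ y ∈ imgS P ψ := by
    intro y hy
    obtain ⟨x, hx, rfl⟩ := hψ.mem_imgS.1 hy
    rw [hχeq x hx]
    exact hψ.mem_imgS_of_mem (autFun_mem _ hx)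
  have himg : imgS (imgS P ψ) χ = imgS P ψ := imgS_eq_of_maps hχ hχmaps
  obtain ⟨γ, hγdef⟩ : ∃ γ : MulAut (imgS P ψ), γ = mkAut hχ himg := ⟨_, rfl⟩
  have hγmem : γ ∈ E.autGroup (imgS P ψ) := by rw [hγdef]; exact mkAut_mem hχ himg
  have hγχ : ∀ y ∈ imgS P ψ, autFun (imgS P ψ) γ y = χ y := by
    intro y hy
    rw [hγdef]
    exact autFun_mkAut hχ himg hy
  have hγk : γ ^ (p ^ k) = 1 := by
    apply autFun_ext
    intro y hy
    obtain ⟨x, hx, rfl⟩ := hψ.mem_imgS.1 hy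
    rw [autFun_pow_conj (φ : MulAut P) γ (fun x hx => hψ.mem_imgS_of_mem hx)
      (fun x hx => by rw [hγχ _ (hψ.mem_imgS_of_mem hx), hχeq x hx]) (p ^ k) x hx,
      hφk, autFun_one hx, autFun_one (hψ.mem_imgS_of_mem hx)]
  -- `P'` is fully normalized, hence fully automized, in `E`
  have hsub : E.IsSubnormalIn F p := IsSubnormalIn.step (IsSubnormalIn.refl E p) hE
  have hP'fnE : E.IsFullyNormalized (imgS P ψ) :=
    Cfsg.Agent.H88.subnormal_fullyNormalized hsub inferInstance inferInstance hS hF _ hP'T hP'fn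
  have hP'fa : E.IsFullyAutomized p (imgS P ψ) := (saturated_fullyNormalized hTp hEsat hP'fnE).2
  obtain ⟨b, hb, t, htT, Ht⟩ := exists_conj_of_pow_eq_one hP'fa γ hγmem k hγk
  -- conjugation by `t` is a map of `D'`; conjugate it back by `b⁻¹`
  have hct : Mor D' (imgS P ψ) (fun x => t * x * t⁻¹) := Mor.conj D' hP'T htT
  have hctmaps : ∀ y ∈ imgS P ψ, t * y * t⁻¹ ∈ imgS P ψ := by
    intro y hy
    have := Ht ⟨y, hy⟩
    rw [← this]
    exact ((b * γ * b⁻¹) ⟨y, hy⟩).2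
  have hbinvF : Mor F (imgS P ψ) (autFun (imgS P ψ) b⁻¹) :=
    mor_of_subsystem hEinv.1 ((mem_autGroup_iff hP'T _).1 ((E.autGroup (imgS P ψ)).inv_mem hb))
  obtain ⟨χ₁, hχ₁, hχ₁eq⟩ := hSD (imgS P ψ) (imgS P ψ) (fun x => t * x * t⁻¹)
    (autFun (imgS P ψ) b⁻¹) le_rfl hP'T hct hctmaps hbinvF
  rw [imgS_autFun hbinvF] at hχ₁
  have hχD : Mor D' (imgS P ψ) χ := by
    refine hχ₁.congr (fun z hz => ?_)
    have hbz : autFun (imgS P ψ) b z ∈ imgS P ψ := autFun_mem b hz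
    have h1 := hχ₁eq _ hbz
    rw [autFun_inv_apply b hz] at h1
    rw [h1, ← hγχ z hz]
    have h2 := Ht ⟨autFun (imgS P ψ) b z, hbz⟩
    have h3 : t * autFun (imgS P ψ) b z * t⁻¹ =
        autFun (imgS P ψ) (b * γ * b⁻¹) (autFun (imgS P ψ) b z) := by
      rw [autFun_of_mem _ hbz]
      exact h2.symm
    rw [h3, mul_assoc, autFun_mul _ _ hbz, autFun_mul _ _ hbz, autFun_inv_apply b hz,
      autFun_inv_apply b (autFun_mem γ hz)]
  -- pull back to `P`
  obtain ⟨χ₂, hχ₂, hχ₂eq⟩ := hSD (imgS P ψ) (imgS P ψ) χ (invOn P ψ) le_rfl hP'T hχD hχmaps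
    hψ.inv
  rw [hψ.imgS_inv] at hχ₂
  refine hχ₂.congr (fun x hx => ?_)
  have h1 := hχ₂eq (ψ x) (hψ.mem_imgS_of_mem hx)
  rw [invOn_apply hψ.injOn hx, hχeq x hx, invOn_apply hψ.injOn (autFun_mem _ hx)] at h1
  exact h1

end Cfsg.Agent.H5.Op
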