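import Cfsg.Agent.H87.OlMain
import Cfsg.Agent.H87.OpPrime
import Cfsg.Agent.H88.PPower

/-!
# The system generated by an invariant subsystem and a group of automorphisms

Piece `S5142-MSYS` of helper87's project: for `D'` over `T` invariant under `Aut_F(T)` and
`M ≤ Aut_F(T)`, the maps "an element of `M` after a map of `D'`" form a fusion system over `T`.
-/

set_option autoImplicit false

namespace Cfsg.Agent.H5.Op

open Cfsg Cfsg.FusionSystem Cfsg.Agent.H86 Cfsg.Agent.H87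

universe u

variable {Ω : Type u} [Group Ω] {S T : Subgroup Ω}

theorem morM {F : FusionSystem S} (hTS : T ≤ S) {M : Subgroup (MulAut T)}
    (hM : M ≤ F.autGroup T) {k : MulAut T} (hk : k ∈ M) : Mor F T (autFun T k) :=
  (mem_autGroup_iff hTS k).1 (hM hk)

theorem ke_comp {F : FusionSystem S} (hTS : T ≤ S) {D' : FusionSystem T} (hai : AutInv D' F)
    {M : Subgroup (MulAut T)} (hM : M ≤ F.autGroup T) {P Q : Subgroup Ω} {f g : Ω → Ω}
    (hf : KE D' M P f) (hg : KE D' M Q g) (hPQ : ∀ x ∈ P, f x ∈ Q) (hQT : Q ≤ T) :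
    KE D' M P (g ∘ f) := by
  obtain ⟨k₁, hk₁, f₀, hf₀, hfa⟩ := hf
  obtain ⟨k₂, hk₂, g₀, hg₀, hgb⟩ := hg
  have hainv : Mor F T (autFun T k₁⁻¹) := morM hTS hM (M.inv_mem hk₁)
  have hainvT : imgS T (autFun T k₁⁻¹) = T := imgS_autFun hainv
  obtain ⟨χ, hχ, hχeq⟩ := hai Q g₀ (autFun T k₁⁻¹) hQT hg₀ hainv hainvT
  have hf₀T : ∀ x ∈ P, f₀ x ∈ T := fun x hx => hf₀.mem hx
  have haQ : ∀ x ∈ P, autFun T k₁ (f₀ x) ∈ Q := fun x hx => by
    rw [← hfa x hx]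
    exact hPQ x hx
  have hmaps : ∀ x ∈ P, f₀ x ∈ imgS Q (autFun T k₁⁻¹) := by
    intro x hx
    have h2 : autFun T k₁⁻¹ (autFun T k₁ (f₀ x)) = f₀ x := autFun_inv_apply k₁ (hf₀T x hx)
    rw [← h2]
    exact (hainv.restrict hQT).mem_imgS_of_mem (haQ x hx)
  refine ⟨k₂ * k₁, M.mul_mem hk₂ hk₁, χ ∘ f₀, hf₀.comp hχ hmaps, fun x hx => ?_⟩
  show g (f x) = autFun T (k₂ * k₁) (χ (f₀ x))
  have h1 := haQ x hx
  have h2 : autFun T k₁⁻¹ (autFun T k₁ (f₀ x)) = f₀ x := autFun_inv_apply k₁ (hf₀T x hx)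
  have h3 := hχeq _ h1
  rw [h2] at h3
  have h4 : g₀ (autFun T k₁ (f₀ x)) ∈ T := hg₀.mem h1
  have h5 : χ (f₀ x) ∈ T := hχ.mem (hmaps x hx)
  rw [autFun_mul _ _ h5, h3, autFun_apply_inv k₁ h4, hfa x hx, hgb _ h1]

theorem ke_inv {F : FusionSystem S} (hTS : T ≤ S) {D' : FusionSystem T}
    (hD'F : D'.IsSubsystemOf F) (hai : AutInv D' F)
    {M : Subgroup (MulAut T)} (hM : M ≤ F.autGroup T) {P : Subgroup Ω} {f : Ω → Ω}
    (hf : KE D' M P f) (hfm : Mor F P f) : KE D' M (imgS P f) (invOn P f) := by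
  obtain ⟨k, hk, f₀, hf₀, hfa⟩ := hf
  have hPT : P ≤ T := hf₀.le
  have ha : Mor F T (autFun T k) := morM hTS hM hk
  have haT : imgS T (autFun T k) = T := imgS_autFun ha
  obtain ⟨χ, hχ, hχeq⟩ := hai (imgS P f₀) (invOn P f₀) (autFun T k) hf₀.imgS_le hf₀.inv ha haT
  have hf₀F : Mor F P f₀ := mor_of_subsystem hD'F hf₀
  have himg : imgS (imgS P f₀) (autFun T k) = imgS P f := by
    rw [← hf₀F.imgS_comp ha (fun x hx => hf₀.mem hx)]
    exact Mor.imgS_congr (hf₀F.comp ha (fun x hx => hf₀.mem hx)) (fun x hx => (hfa x hx).symm)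
  rw [himg] at hχ
  refine ⟨k⁻¹, M.inv_mem hk, χ, hχ, fun y hy => ?_⟩
  obtain ⟨x, hx, rfl⟩ := hfm.mem_imgS.1 hy
  rw [invOn_apply hfm.injOn hx, hfa x hx, hχeq _ (hf₀.mem_imgS_of_mem hx),
    invOn_apply hf₀.injOn hx, autFun_inv_apply k (hPT hx)]

/-- The system of the maps "an element of `M` after a map of `D'`". -/
def mSys (F : FusionSystem S) (hTS : T ≤ S) (D' : FusionSystem T) (hD'F : D'.IsSubsystemOf F)
    (hai : AutInv D' F) (M : Subgroup (MulAut T)) (hM : M ≤ F.autGroup T) : FusionSystem T :=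
  Cfsg.Agent.H88.subSys (Cfsg.Agent.H88.restrictSystem F T hTS) (fun W f => KE D' M W f)
    (fun _ _ _ _ hfg hk => hk.congr hfg)
    (fun _ _ hP hg => ke_of_mor (Mor.conj D' hP hg))
    (fun _ _ _ _ _ hg hfR hkf hkg => ke_comp hTS hai hM hkf hkg hfR hg.le)
    (fun _ _ hf hkf => ke_inv hTS hD'F hai hM hkf (Cfsg.Agent.H88.mor_restrictSystem_iff.1 hf).1)

theorem mor_mSys_iff {F : FusionSystem S} {hTS : T ≤ S} {D' : FusionSystem T}
    {hD'F : D'.IsSubsystemOf F} {hai : AutInv D' F} {M : Subgroup (MulAut T)}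
    {hM : M ≤ F.autGroup T} {P : Subgroup Ω} {f : Ω → Ω} :
    Mor (mSys F hTS D' hD'F hai M hM) P f ↔
      (Mor F P f ∧ P ≤ T ∧ ∀ x ∈ P, f x ∈ T) ∧ KE D' M P f := by
  unfold mSys
  rw [Cfsg.Agent.H88.mor_subSys_iff, Cfsg.Agent.H88.mor_restrictSystem_iff]

theorem mor_mSys_of_mor {F : FusionSystem S} {hTS : T ≤ S} {D' : FusionSystem T}
    {hD'F : D'.IsSubsystemOf F} {hai : AutInv D' F} {M : Subgroup (MulAut T)}
    {hM : M ≤ F.autGroup T} {P : Subgroup Ω} {f : Ω → Ω} (hf : Mor D' P f) :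
    Mor (mSys F hTS D' hD'F hai M hM) P f :=
  mor_mSys_iff.2 ⟨⟨mor_of_subsystem hD'F hf, hf.le, fun _ hx => hf.mem hx⟩, ke_of_mor hf⟩

theorem mor_mSys_autFun {F : FusionSystem S} {hTS : T ≤ S} {D' : FusionSystem T}
    {hD'F : D'.IsSubsystemOf F} {hai : AutInv D' F} {M : Subgroup (MulAut T)}
    {hM : M ≤ F.autGroup T} {m : MulAut T} (hm : m ∈ M) :
    Mor (mSys F hTS D' hD'F hai M hM) T (autFun T m) :=
  mor_mSys_iff.2 ⟨⟨morM hTS hM hm, le_rfl, fun _ hx => autFun_mem m hx⟩,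
    m, hm, fun x => x, Mor.id D' le_rfl, fun _ _ => rfl⟩

/-- `S5142-MSYS`. -/
theorem exists_mSys [Finite S] {F : FusionSystem S} {T : Subgroup Ω} (hTS : T ≤ S)
    {D' : FusionSystem T} (hD'F : D'.IsSubsystemOf F) (hai : AutInv D' F)
    {M : Subgroup (MulAut T)} (hM : M ≤ F.autGroup T) :
    ∃ F₁ : FusionSystem T, D'.IsSubsystemOf F₁ ∧ AutInv D' F₁ ∧ Frat D' F₁ ∧
      (∀ m ∈ M, Mor F₁ T (autFun T m)) ∧
      ∀ β ∈ F₁.autGroup T, ∃ m ∈ M, ∃ δ ∈ D'.autGroup T, β = m * δ := by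
  have : Finite T := finite_of_le hTS
  refine ⟨mSys F hTS D' hD'F hai M hM, ?_, ?_, ?_, fun m hm => mor_mSys_autFun hm, ?_⟩
  · -- `D' ≤ F₁`
    intro P φ hφ
    refine ⟨⟨hD'F P hφ, (D'.le_of_mem hφ).1, (D'.le_of_mem hφ).2⟩, ?_⟩
    exact ke_of_mor (mor_extFun hφ)
  · -- invariance of `D'` under the automorphisms of `T` in `F₁`
    intro P f a hPT hf ha haT
    obtain ⟨-, k, hk, f₀, hf₀, hak⟩ := mor_mSys_iff.1 ha
    have hf₀P : Mor D' P f₀ := hf₀.restrict hPT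
    -- conjugate by `f₀` inside `D'`
    have hχ₀ : Mor D' (imgS P f₀) (fun y => f₀ (f (invOn P f₀ y))) := by
      have h1 : Mor D' (imgS P f₀) (invOn P f₀) := hf₀P.inv
      have h2 : Mor D' (imgS P f₀) (f ∘ invOn P f₀) :=
        h1.comp hf (fun y hy => hf₀P.invOn_mem hy)
      exact h2.comp hf₀ (fun y hy => hf.mem (hf₀P.invOn_mem hy))
    have hkF : Mor F T (autFun T k) := morM hTS hM hk
    have hkT : imgS T (autFun T k) = T := imgS_autFun hkF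
    obtain ⟨χ, hχ, hχeq⟩ := hai (imgS P f₀) _ (autFun T k) hf₀P.imgS_le hχ₀ hkF hkT
    have himg : imgS (imgS P f₀) (autFun T k) = imgS P a := by
      ext y
      rw [(hkF.restrict hf₀P.imgS_le).mem_imgS, ((mor_mSys_iff.1 ha).1.1.restrict hPT).mem_imgS]
      constructor
      · rintro ⟨z, hz, rfl⟩
        obtain ⟨x, hx, rfl⟩ := hf₀P.mem_imgS.1 hz
        exact ⟨x, hx, hak x (hPT hx)⟩
      · rintro ⟨x, hx, rfl⟩
        exact ⟨f₀ x, hf₀P.mem_imgS_of_mem hx, (hak x (hPT hx)).symm⟩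
    rw [himg] at hχ
    refine ⟨χ, hχ, fun x hx => ?_⟩
    rw [hak x (hPT hx), hχeq _ (hf₀P.mem_imgS_of_mem hx), invOn_apply hf₀P.injOn hx,
      hak (f x) (hf.mem hx)]
  · -- the Frattini condition
    intro P f hPT hf
    obtain ⟨-, k, hk, f₀, hf₀, hfk⟩ := mor_mSys_iff.1 hf
    exact ⟨autFun T k, f₀, mor_mSys_autFun hk, imgS_autFun (morM hTS hM hk), hf₀, hfk⟩
  · -- automorphisms of `T`
    intro β hβ
    have hβm := (mem_autGroup_iff le_rfl β).1 hβ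
    obtain ⟨-, k, hk, f₀, hf₀, hβk⟩ := mor_mSys_iff.1 hβm
    have himg : imgS T f₀ = T := imgS_eq_of_maps hf₀ (fun x hx => hf₀.mem hx)
    refine ⟨k, hk, mkAut hf₀ himg, mkAut_mem hf₀ himg, ?_⟩
    apply autFun_ext
    intro x hx
    rw [hβk x hx, autFun_mul _ _ hx, autFun_mkAut hf₀ himg hx]

end Cfsg.Agent.H5.Op
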