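import Mathlib
import Cfsg.Agent.H26.P2Defs
import Cfsg.Agent.H28.BrBase

/-! P2-MOM (piece of helper26's S4705 project): the norm equation
`2 |G| = p |Z| ((p - 2)² + I)`, `I` the number of involutions of `G / Z(G)`. -/

set_option autoImplicit false

universe u

namespace Cfsg.Agent.H5.P2

open Cfsg Cfsg.Agent.H26.P2
open scoped ComplexConjugate

section
variable {G : Type u} [Group G]

/-- a bijection `G ≃ (G ⧸ Z) × Z` whose first component is the quotient map -/
noncomputable def quotProdEquiv (Z : Subgroup G) : G ≃ (G ⧸ Z) × Z where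
  toFun g := (QuotientGroup.mk g,
    ⟨(QuotientGroup.mk g : G ⧸ Z).out⁻¹ * g,
      QuotientGroup.eq.mp (QuotientGroup.out_eq' (QuotientGroup.mk g : G ⧸ Z))⟩)
  invFun x := x.1.out * x.2
  left_inv g := by
    show (QuotientGroup.mk g : G ⧸ Z).out * ((QuotientGroup.mk g : G ⧸ Z).out⁻¹ * g) = g
    rw [mul_inv_cancel_left]
  right_inv x := by
    have h1 : (QuotientGroup.mk (x.1.out * (x.2 : G)) : G ⧸ Z) = x.1 := by
      rw [QuotientGroup.mk_mul_of_mem _ x.2.2, QuotientGroup.out_eq']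
    refine Prod.ext h1 (Subtype.ext ?_)
    show (QuotientGroup.mk (x.1.out * (x.2 : G)) : G ⧸ Z).out⁻¹ * (x.1.out * (x.2 : G)) = x.2
    rw [h1, inv_mul_cancel_left]

theorem quotProdEquiv_fst (Z : Subgroup G) (g : G) :
    (quotProdEquiv Z g).1 = QuotientGroup.mk g := rfl

/-- the elements that are involutions modulo the centre -/
theorem card_invol_mod_center [Finite G] :
    Nat.card {g : G // g ∉ Subgroup.center G ∧ g * g ∈ Subgroup.center G} =
      Nat.card {t : G ⧸ Subgroup.center G // orderOf t = 2} *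
        Nat.card (Subgroup.center G) := by
  rw [← Nat.card_prod]
  apply Nat.card_congr
  refine (Equiv.subtypeEquiv (quotProdEquiv (Subgroup.center G))
    (q := fun x => orderOf x.1 = 2) (fun g => ?_)).trans
    (Equiv.prodSubtypeFstEquivSubtypeProd (p := fun t : G ⧸ Subgroup.center G => orderOf t = 2))
  rw [quotProdEquiv_fst, orderOf_eq_prime_iff, ← QuotientGroup.mk_pow, QuotientGroup.eq_one_iff,
    Ne, QuotientGroup.eq_one_iff, sq]
  exact and_comm

end

/-- P2-MOM -/
theorem mom : StMom.{u} := by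
  intro G _ _ p _ P χ μ s hyp hSing hPwA hPwB
  classical
  have hp : p.Prime := Fact.out
  have hp5 := hyp.hp5
  have h2p : 2 ≤ p := by omega
  haveI : Fintype G := Fintype.ofFinite G
  haveI : Fintype (Subgroup.center G) := Fintype.ofFinite _
  haveI : Fintype (P : Subgroup G) := Fintype.ofFinite _
  obtain ⟨F, hFdef⟩ : ∃ F : G → ℂ, F = fun g => χ g * conj (χ g) := ⟨_, rfl⟩
  have hFapp : ∀ g, F g = χ g * conj (χ g) := fun g => by rw [hFdef]
  have hconjχ : ∀ g h : G, χ (h * g * h⁻¹) = χ g := fun g h =>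
    Cfsg.Agent.H82.irr_conj (⟨χ, hyp.irr⟩ : IrrCharacter G) g h
  have hFc : IsClassFunction G F := by
    intro g h
    rw [hFapp, hFapp, hconjχ g h]
  have htot : ∑ g : G, F g = (Nat.card G : ℂ) := by
    rw [hFdef]; exact Cfsg.Agent.H82.irr_norm_sq (⟨χ, hyp.irr⟩ : IrrCharacter G)
  have hFz : ∀ z ∈ Subgroup.center G, ∀ g : G, F (g * z) = F g := by
    intro z hz g
    obtain ⟨c, hc, hcc⟩ := Cfsg.Agent.H28.Br.central_scalar (⟨χ, hyp.irr⟩ : IrrCharacter G) z hz
    have e : g * z = z * g := Subgroup.mem_center_iff.mp hz g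
    have h1 : χ (z * g) = c * χ g := hc g
    rw [hFapp, hFapp, e, h1, map_mul]
    calc c * χ g * (conj c * conj (χ g)) = (c * conj c) * (χ g * conj (χ g)) := by ring
      _ = χ g * conj (χ g) := by rw [hcc, one_mul]
  have hχ1 : χ 1 = (p : ℂ) - 2 := by
    have e : χ 1 = (charDegree χ : ℂ) :=
      Cfsg.Agent.H82.irr_one_eq_charDegree (⟨χ, hyp.irr⟩ : IrrCharacter G)
    rw [e]
    have h2 : ((charDegree χ + 2 : ℕ) : ℂ) = (p : ℂ) := by rw [hyp.deg]
    push_cast at h2
    linear_combination h2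
  have hxp : ∀ x : ↥(P : Subgroup G), x ^ p = 1 := by
    intro x
    have : x ^ Nat.card (P : Subgroup G) = 1 := pow_card_eq_one'
    rwa [hyp.cardP] at this
  have hFx : ∀ x : ↥(P : Subgroup G), x ≠ 1 →
      F (x : G) = ((μ x : ℂˣ) : ℂ) ^ 2 + 2 + (((μ x)⁻¹ : ℂˣ) : ℂ) ^ 2 := by
    intro x hx
    rw [hFapp, hyp.val x hx]
    have hmul : ((μ x : ℂˣ) : ℂ) * (((μ x)⁻¹ : ℂˣ) : ℂ) = 1 := by
      rw [← Units.val_mul, mul_inv_cancel, Units.val_one]
    have hn : ((μ x : ℂˣ) : ℂ) ^ p = 1 := by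
      rw [← Units.val_pow_eq_pow_val, ← map_pow, hxp x, map_one, Units.val_one]
    have hnorm : ‖((μ x : ℂˣ) : ℂ)‖ = 1 := by
      have h5 : ‖((μ x : ℂˣ) : ℂ)‖ ^ p = 1 := by rw [← norm_pow, hn, norm_one]
      exact (pow_eq_one_iff_of_nonneg (norm_nonneg _) hp.ne_zero).mp h5
    have hmc : ((μ x : ℂˣ) : ℂ) * conj ((μ x : ℂˣ) : ℂ) = 1 := by
      rw [Complex.mul_conj, Complex.normSq_eq_norm_sq, hnorm]
      simp
    have hconj : conj ((μ x : ℂˣ) : ℂ) = (((μ x)⁻¹ : ℂˣ) : ℂ) :=
      mul_left_cancel₀ (Units.ne_zero _) (hmc.trans hmul.symm)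
    have hconj' : conj ((((μ x)⁻¹ : ℂˣ)) : ℂ) = ((μ x : ℂˣ) : ℂ) := by
      rw [← hconj, Complex.conj_conj]
    rw [map_neg, map_add, hconj, hconj']
    linear_combination 2 * hmul
  have hsumP : ∀ ν : ↥(P : Subgroup G) →* ℂˣ, ν ≠ 1 →
      ∑ x : ↥(P : Subgroup G), ((ν x : ℂˣ) : ℂ) ^ 2 = 0 := by
    intro ν hν
    have hne : ((Units.coeHom ℂ).comp (ν ^ 2)) ≠ 1 := by
      intro h
      apply hν
      apply MonoidHom.ext
      intro x
      have h1 : (ν x) ^ 2 = 1 := by
        have h0 := DFunLike.congr_fun h x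
        apply Units.ext
        simpa using h0
      have h2 : (ν x) ^ p = 1 := by rw [← map_pow, hxp x, map_one]
      have h3 : orderOf (ν x) ∣ Nat.gcd 2 p :=
        Nat.dvd_gcd (orderOf_dvd_of_pow_eq_one h1) (orderOf_dvd_of_pow_eq_one h2)
      have h4 : Nat.gcd 2 p = 1 := (Nat.coprime_primes Nat.prime_two hp).mpr (by omega)
      rw [h4, Nat.dvd_one, orderOf_eq_one_iff] at h3
      rw [h3]; rfl
    have h5 := sum_hom_units_eq_zero ((Units.coeHom ℂ).comp (ν ^ 2)) hne
    simpa using h5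
  have hμinv : μ⁻¹ ≠ 1 := by
    intro h
    apply hyp.μne
    apply MonoidHom.ext
    intro x
    have h0 := DFunLike.congr_fun h x
    rw [MonoidHom.inv_apply, MonoidHom.one_apply, inv_eq_one] at h0
    rw [h0]; rfl
  have hR : ∑ᶠ (x : ↥(P : Subgroup G)) (_ : x ≠ 1), ∑ᶠ z : Subgroup.center G,
      F ((x : G) * (z : G)) = (Nat.card (Subgroup.center G) : ℂ) * (2 * (p : ℂ) - 4) := by
    rw [finsum_eq_sum_of_fintype]
    have h1 : ∀ x : ↥(P : Subgroup G), (∑ᶠ (_ : x ≠ 1), ∑ᶠ z : Subgroup.center G,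
        F ((x : G) * (z : G))) = (Nat.card (Subgroup.center G) : ℂ) *
          ((if x = 1 then 0 else 1) *
            (((μ x : ℂˣ) : ℂ) ^ 2 + 2 + (((μ x)⁻¹ : ℂˣ) : ℂ) ^ 2)) := by
      intro x
      rw [finsum_eq_if, finsum_eq_sum_of_fintype]
      by_cases hx : x = 1
      · rw [if_neg (not_not.mpr hx), if_pos hx, zero_mul, mul_zero]
      · rw [if_pos hx, if_neg hx, one_mul, Finset.sum_congr rfl
            (fun (z : ↥(Subgroup.center G)) _ => hFz (z : G) z.2 (x : G)),
          Finset.sum_const, Finset.card_univ, nsmul_eq_mul, hFx x hx, Nat.card_eq_fintype_card]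
    rw [Finset.sum_congr rfl (fun x _ => h1 x), ← Finset.mul_sum]
    congr 1
    have h2 : ∀ x : ↥(P : Subgroup G), ((if x = 1 then (0 : ℂ) else 1) *
        (((μ x : ℂˣ) : ℂ) ^ 2 + 2 + (((μ x)⁻¹ : ℂˣ) : ℂ) ^ 2)) =
        (((μ x : ℂˣ) : ℂ) ^ 2 + 2 + ((((μ⁻¹) x : ℂˣ)) : ℂ) ^ 2) - (if x = 1 then 4 else 0) := by
      intro x
      rw [MonoidHom.inv_apply]
      by_cases hx : x = 1
      · rw [if_pos hx, if_pos hx, hx, map_one, inv_one, Units.val_one]; norm_num
      · rw [if_neg hx, if_neg hx, one_mul, sub_zero]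
    rw [Finset.sum_congr rfl (fun x _ => h2 x), Finset.sum_sub_distrib, Finset.sum_add_distrib,
      Finset.sum_add_distrib, hsumP μ hyp.μne, hsumP μ⁻¹ hμinv,
      Finset.sum_const, Finset.card_univ, ← Nat.card_eq_fintype_card, hyp.cardP,
      Finset.sum_ite_eq' Finset.univ (1 : ↥(P : Subgroup G)) (fun _ => (4 : ℂ)),
      if_pos (Finset.mem_univ _)]
    simp only [nsmul_eq_mul]
    ring
  have hS := hSing F hFc
  rw [hR] at hS
  have hL : ∑ᶠ (g : G) (_ : p ∣ orderOf g), F g = ∑ g : G, if p ∣ orderOf g then F g else 0 := by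
    rw [finsum_eq_sum_of_fintype]
    refine Finset.sum_congr rfl (fun g _ => ?_)
    rw [finsum_eq_if]
  rw [hL] at hS
  -- the pointwise description of the regular part
  have hreg : ∀ g : G, F g = (if p ∣ orderOf g then F g else 0) +
      ((if g ∈ Subgroup.center G then ((p : ℂ) - 2) ^ 2 else 0) +
        (if g ∉ Subgroup.center G ∧ g * g ∈ Subgroup.center G then 1 else 0)) := by
    intro g
    by_cases hz : g ∈ Subgroup.center G
    · have h1 : ¬ p ∣ orderOf g := hyp.zreg g hz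
      have h2 : F g = ((p : ℂ) - 2) ^ 2 := by
        have h3 := hFz g hz 1
        rw [one_mul] at h3
        rw [h3, hFapp, hχ1]
        simp only [map_sub, map_natCast, map_ofNat]
        ring
      rw [if_neg h1, if_pos hz, if_neg (fun h => h.1 hz), h2]
      ring
    · by_cases hzz : g * g ∈ Subgroup.center G
      · have h1 : ¬ p ∣ orderOf g := by
          intro hdvd
          have h3 : ¬ p ∣ orderOf (g * g) := hyp.zreg _ hzz
          have h4 : g ^ (2 * orderOf (g * g)) = 1 := by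
            rw [pow_mul, sq, pow_orderOf_eq_one]
          have h5 : p ∣ 2 * orderOf (g * g) := hdvd.trans (orderOf_dvd_of_pow_eq_one h4)
          rcases (Nat.Prime.dvd_mul hp).mp h5 with h6 | h6
          · have := Nat.le_of_dvd (by norm_num) h6
            omega
          · exact h3 h6
        have h2 : F g = 1 := by rw [hFapp]; exact hPwA g hz hzz
        rw [if_neg h1, if_neg hz, if_pos ⟨hz, hzz⟩, h2]
        ring
      · rw [if_neg hz, if_neg (fun h : g ∉ Subgroup.center G ∧ g * g ∈ Subgroup.center G =>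
          hzz h.2)]
        by_cases h1 : p ∣ orderOf g
        · rw [if_pos h1]; ring
        · rw [if_neg h1, hFapp, hPwB g h1 hzz]; ring
  have hcnt1 : (∑ g : G, if g ∈ Subgroup.center G then ((p : ℂ) - 2) ^ 2 else 0) =
      (Nat.card (Subgroup.center G) : ℂ) * ((p : ℂ) - 2) ^ 2 := by
    rw [← Finset.sum_filter, Finset.sum_const, nsmul_eq_mul, Nat.card_eq_fintype_card,
      Fintype.card_subtype]
  have hcnt2 : (∑ g : G, if g ∉ Subgroup.center G ∧ g * g ∈ Subgroup.center G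
      then (1 : ℂ) else 0) =
      (Nat.card {t : G ⧸ Subgroup.center G // orderOf t = 2} : ℂ) *
        (Nat.card (Subgroup.center G) : ℂ) := by
    rw [← Nat.cast_mul, ← card_invol_mod_center, Finset.sum_boole, Nat.card_eq_fintype_card,
      Fintype.card_subtype]
  have htot' : (∑ g : G, if p ∣ orderOf g then F g else 0) +
      ((Nat.card (Subgroup.center G) : ℂ) * ((p : ℂ) - 2) ^ 2 +
        (Nat.card {t : G ⧸ Subgroup.center G // orderOf t = 2} : ℂ) *
          (Nat.card (Subgroup.center G) : ℂ)) = (Nat.card G : ℂ) := by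
    rw [← htot, Finset.sum_congr rfl (fun g _ => hreg g), Finset.sum_add_distrib,
      Finset.sum_add_distrib, hcnt1, hcnt2]
  have hZ0 : (Nat.card (Subgroup.center G) : ℂ) ≠ 0 := by
    have : 0 < Nat.card (Subgroup.center G) := Nat.card_pos
    exact_mod_cast this.ne'
  have h1 : 2 * (p : ℂ) * (∑ g : G, if p ∣ orderOf g then F g else 0) =
      (Nat.card G : ℂ) * (2 * (p : ℂ) - 4) :=
    mul_left_cancel₀ hZ0 (by linear_combination hS)
  have hfinal : 2 * (Nat.card G : ℂ) = (p : ℂ) * (Nat.card (Subgroup.center G) : ℂ) *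
      (((p : ℂ) - 2) ^ 2 + (Nat.card {t : G ⧸ Subgroup.center G // orderOf t = 2} : ℂ)) := by
    linear_combination (1 / 2 : ℂ) * h1 - (p : ℂ) * htot'
  show 2 * Nat.card G = p * Nat.card (Subgroup.center G) *
    ((p - 2) ^ 2 + Nat.card {t : G ⧸ Subgroup.center G // orderOf t = 2})
  have hcast : ((2 * Nat.card G : ℕ) : ℂ) = ((p * Nat.card (Subgroup.center G) *
      ((p - 2) ^ 2 + Nat.card {t : G ⧸ Subgroup.center G // orderOf t = 2}) : ℕ) : ℂ) := by
    push_cast [Nat.cast_sub h2p]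
    exact hfinal
  exact_mod_cast hcast

example : StMom.{u} := mom

end Cfsg.Agent.H5.P2

#print axioms Cfsg.Agent.H5.P2.mom
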