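import Mathlib
import Cfsg.Agent.H26.P2Defs

/-! P2-SING (piece of helper26's S4705 project): the summation formula over the `p`-singular
elements when a Sylow `p`-subgroup `P` has order `p`, `C_G(P) = P × Z(G)`, `|N_G(P) : C_G(P)| = 2`. -/

set_option autoImplicit false

universe u

namespace Cfsg.Agent.H5.P2

open Cfsg Cfsg.Agent.H26.P2

section
variable {G : Type u} [Group G] [Finite G] {p : ℕ} [Fact p.Prime]

/-- a `p`-element centralizing a Sylow `p`-subgroup lies in it -/
theorem sg_mem_sylow (Q : Sylow p G) {v : G} {k : ℕ} (hv : v ^ (p ^ k) = 1)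
    (hc : v ∈ Subgroup.centralizer ((Q : Subgroup G) : Set G)) : v ∈ (Q : Subgroup G) := by
  have hz : IsPGroup p (Subgroup.zpowers v) := by
    rintro ⟨w, hw⟩
    obtain ⟨n, rfl⟩ := Subgroup.mem_zpowers_iff.mp hw
    refine ⟨k, Subtype.ext ?_⟩
    show (v ^ n) ^ (p ^ k) = 1
    rw [← zpow_natCast, ← zpow_mul, mul_comm, zpow_mul, zpow_natCast, hv, one_zpow]
  have hle : Subgroup.zpowers v ≤ Subgroup.normalizer ((Q : Subgroup G) : Set G) := by
    rw [Subgroup.zpowers_le]
    exact Subgroup.centralizer_le_normalizer _ hc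
  have hsup : IsPGroup p ↥(Subgroup.zpowers v ⊔ (Q : Subgroup G)) :=
    IsPGroup.to_sup_of_normal_right' hz Q.isPGroup' hle
  have h := Q.is_maximal' hsup le_sup_right
  have hv' : v ∈ Subgroup.zpowers v ⊔ (Q : Subgroup G) :=
    Subgroup.mem_sup_left (Subgroup.mem_zpowers v)
  rw [h] at hv'
  exact hv'

/-- `P ∩ Z(G) = 1` -/
theorem sg_inter (P : Sylow p G) (hcard : Nat.card (P : Subgroup G) = p)
    (hzreg : ∀ z ∈ Subgroup.center G, ¬ p ∣ orderOf z) {w : G} (hw : w ∈ (P : Subgroup G))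
    (hwz : w ∈ Subgroup.center G) : w = 1 := by
  have h1 : orderOf w ∣ p := by
    have := Subgroup.orderOf_dvd_natCard (P : Subgroup G) hw
    rwa [hcard] at this
  rcases (Nat.dvd_prime (Fact.out : p.Prime)).mp h1 with h | h
  · exact orderOf_eq_one_iff.mp h
  · exact absurd (h ▸ dvd_rfl : p ∣ orderOf w) (hzreg w hwz)

theorem sg_iff (P : Sylow p G) (hcard : Nat.card (P : Subgroup G) = p)
    (hzreg : ∀ z ∈ Subgroup.center G, ¬ p ∣ orderOf z) {x z : G} (hx : x ∈ (P : Subgroup G))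
    (hz : z ∈ Subgroup.center G) : p ∣ orderOf (x * z) ↔ x ≠ 1 := by
  have hp : p.Prime := Fact.out
  constructor
  · intro h hx1
    rw [hx1, one_mul] at h
    exact hzreg z hz h
  · intro hx1
    have hcomm : Commute x z := Subgroup.mem_center_iff.mp hz x
    have h1 : (x * z) ^ orderOf (x * z) = 1 := pow_orderOf_eq_one _
    rw [hcomm.mul_pow] at h1
    have h2 : x ^ orderOf (x * z) = (z ^ orderOf (x * z))⁻¹ := eq_inv_of_mul_eq_one_left h1
    have h3 : x ^ orderOf (x * z) = 1 := sg_inter P hcard hzreg (pow_mem hx _)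
      (by rw [h2]; exact inv_mem (pow_mem hz _))
    have h4 : orderOf x = p := by
      have hd : orderOf x ∣ p := by
        have := Subgroup.orderOf_dvd_natCard (P : Subgroup G) hx
        rwa [hcard] at this
      rcases (Nat.dvd_prime hp).mp hd with h | h
      · exact absurd (orderOf_eq_one_iff.mp h) hx1
      · exact h
    rw [← h4]
    exact orderOf_dvd_of_pow_eq_one h3

theorem sg_decomp (P : Sylow p G)
    (hcen : ∀ c ∈ Subgroup.centralizer ((P : Subgroup G) : Set G), ¬ p ∣ orderOf c →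
      c ∈ Subgroup.center G) {t : G}
    (ht : t ∈ Subgroup.centralizer ((P : Subgroup G) : Set G)) :
    ∃ x ∈ (P : Subgroup G), ∃ z ∈ Subgroup.center G, t = x * z := by
  have hp : p.Prime := Fact.out
  have hn : 0 < orderOf t := orderOf_pos t
  obtain ⟨k, m, hm, hnm⟩ := Nat.exists_eq_pow_mul_and_not_dvd hn.ne' p hp.ne_one
  have hcop : Nat.Coprime (p ^ k) m :=
    Nat.Coprime.pow_left k ((Nat.Prime.coprime_iff_not_dvd hp).mpr hm)
  have hbez := Int.gcd_eq_gcd_ab ((p ^ k : ℕ) : ℤ) (m : ℤ)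
  rw [Int.gcd_natCast_natCast, hcop] at hbez
  obtain ⟨a, ha⟩ : ∃ a : ℤ, a = Int.gcdA ((p ^ k : ℕ) : ℤ) (m : ℤ) := ⟨_, rfl⟩
  obtain ⟨b, hb⟩ : ∃ b : ℤ, b = Int.gcdB ((p ^ k : ℕ) : ℤ) (m : ℤ) := ⟨_, rfl⟩
  rw [← ha, ← hb] at hbez
  have hu_c : t ^ (((p ^ k : ℕ) : ℤ) * a) ∈ Subgroup.centralizer ((P : Subgroup G) : Set G) :=
    zpow_mem ht _
  have hv_c : t ^ ((m : ℤ) * b) ∈ Subgroup.centralizer ((P : Subgroup G) : Set G) :=
    zpow_mem ht _
  have hu_ord : ¬ p ∣ orderOf (t ^ (((p ^ k : ℕ) : ℤ) * a)) := by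
    intro hdvd
    have h1 : (t ^ (((p ^ k : ℕ) : ℤ) * a)) ^ m = 1 := by
      rw [← zpow_natCast, ← zpow_mul, mul_right_comm, ← Nat.cast_mul, ← hnm, zpow_mul,
        zpow_natCast, pow_orderOf_eq_one, one_zpow]
    exact hm (hdvd.trans (orderOf_dvd_of_pow_eq_one h1))
  have hv_pow : (t ^ ((m : ℤ) * b)) ^ (p ^ k) = 1 := by
    rw [← zpow_natCast, ← zpow_mul, mul_right_comm, mul_comm (m : ℤ), ← Nat.cast_mul, ← hnm,
      zpow_mul, zpow_natCast, pow_orderOf_eq_one, one_zpow]
  refine ⟨t ^ ((m : ℤ) * b), sg_mem_sylow P hv_pow hv_c, t ^ (((p ^ k : ℕ) : ℤ) * a),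
    hcen _ hu_c hu_ord, ?_⟩
  rw [← zpow_add, add_comm, ← hbez]
  simp

theorem sg_prod_inj (P : Sylow p G) (hcard : Nat.card (P : Subgroup G) = p)
    (hzreg : ∀ z ∈ Subgroup.center G, ¬ p ∣ orderOf z)
    {a b : ↥(P : Subgroup G) × ↥(Subgroup.center G)}
    (h : (a.1 : G) * (a.2 : G) = (b.1 : G) * (b.2 : G)) : a = b := by
  have hw : (b.1 : G)⁻¹ * (a.1 : G) = (b.2 : G) * (a.2 : G)⁻¹ := by
    calc (b.1 : G)⁻¹ * (a.1 : G) = (b.1 : G)⁻¹ * ((a.1 : G) * (a.2 : G)) * (a.2 : G)⁻¹ := by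
          group
      _ = (b.1 : G)⁻¹ * ((b.1 : G) * (b.2 : G)) * (a.2 : G)⁻¹ := by rw [h]
      _ = (b.2 : G) * (a.2 : G)⁻¹ := by group
  have h1 : (b.1 : G)⁻¹ * (a.1 : G) = 1 := sg_inter P hcard hzreg
    (mul_mem (inv_mem b.1.2) a.1.2) (by rw [hw]; exact mul_mem b.2.2 (inv_mem a.2.2))
  have h2 : (a.1 : G) = b.1 := by rw [inv_mul_eq_one] at h1; exact h1.symm
  have h3 : (a.2 : G) = b.2 := by rw [h2] at h; exact mul_left_cancel h
  exact Prod.ext (Subtype.ext h2) (Subtype.ext h3)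

/-- the Sylow subgroup centralized by a singular element is generated by its element of order `p` -/
theorem sg_sylow_eq (Q : Sylow p G) (hQ : Nat.card (Q : Subgroup G) = p) {g y : G}
    (hg : g ∈ Subgroup.centralizer ((Q : Subgroup G) : Set G)) (hy : y ∈ Subgroup.zpowers g)
    (hyo : orderOf y = p) : (Q : Subgroup G) = Subgroup.zpowers y := by
  have hyc : y ∈ Subgroup.centralizer ((Q : Subgroup G) : Set G) :=
    (Subgroup.zpowers_le.mpr hg) hy
  have hyp : y ^ (p ^ 1) = 1 := by rw [pow_one, ← hyo]; exact pow_orderOf_eq_one y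
  have hyQ : y ∈ (Q : Subgroup G) := sg_mem_sylow Q hyp hyc
  symm
  apply Subgroup.eq_of_le_of_card_ge (Subgroup.zpowers_le.mpr hyQ)
  rw [hQ, Nat.card_zpowers, hyo]

theorem sg_unique (hQcard : ∀ Q : Sylow p G, Nat.card (Q : Subgroup G) = p) {g : G}
    (hg : p ∣ orderOf g) {Q Q' : Sylow p G}
    (h : g ∈ Subgroup.centralizer ((Q : Subgroup G) : Set G))
    (h' : g ∈ Subgroup.centralizer ((Q' : Subgroup G) : Set G)) : Q = Q' := by
  have hy : orderOf (g ^ (orderOf g / p)) = p := orderOf_pow_orderOf_div (orderOf_pos g).ne' hg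
  have hmem : g ^ (orderOf g / p) ∈ Subgroup.zpowers g := Subgroup.npow_mem_zpowers g _
  apply Sylow.ext
  rw [sg_sylow_eq Q (hQcard Q) h hmem hy, sg_sylow_eq Q' (hQcard Q') h' hmem hy]

theorem sg_exists (hQcard : ∀ Q : Sylow p G, Nat.card (Q : Subgroup G) = p) {g : G}
    (hg : p ∣ orderOf g) :
    ∃ Q : Sylow p G, g ∈ Subgroup.centralizer ((Q : Subgroup G) : Set G) := by
  have hy : orderOf (g ^ (orderOf g / p)) = p := orderOf_pow_orderOf_div (orderOf_pos g).ne' hg
  have hmem : g ^ (orderOf g / p) ∈ Subgroup.zpowers g := Subgroup.npow_mem_zpowers g _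
  have h2 : IsPGroup p (Subgroup.zpowers (g ^ (orderOf g / p))) := by
    apply IsPGroup.of_card (n := 1)
    rw [Nat.card_zpowers, hy, pow_one]
  obtain ⟨Q, hQ⟩ := h2.exists_le_sylow
  have heq : Subgroup.zpowers (g ^ (orderOf g / p)) = (Q : Subgroup G) := by
    apply Subgroup.eq_of_le_of_card_ge hQ
    rw [hQcard Q, Nat.card_zpowers, hy]
  refine ⟨Q, ?_⟩
  rw [Subgroup.mem_centralizer_iff]
  intro x hx
  have hx' : x ∈ Subgroup.zpowers g := by
    have : x ∈ Subgroup.zpowers (g ^ (orderOf g / p)) := by rw [heq]; exact hx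
    exact (Subgroup.zpowers_le.mpr hmem) this
  obtain ⟨n, rfl⟩ := Subgroup.mem_zpowers_iff.mp hx'
  exact (Commute.zpow_self g n).eq

theorem sg_mem_smul (P : Sylow p G) (c x : G) :
    x ∈ ((c • P : Sylow p G) : Subgroup G) ↔ c⁻¹ * x * c ∈ (P : Subgroup G) := by
  rw [Sylow.coe_subgroup_smul, Subgroup.mem_pointwise_smul_iff_inv_smul_mem, MulAut.smul_def,
    MulAut.conj_inv_apply]

theorem sg_conj_cent (P : Sylow p G) (c t : G) :
    c * t * c⁻¹ ∈ Subgroup.centralizer (((c • P : Sylow p G) : Subgroup G) : Set G) ↔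
      t ∈ Subgroup.centralizer ((P : Subgroup G) : Set G) := by
  constructor
  · intro h
    rw [Subgroup.mem_centralizer_iff]
    intro y hy
    have hmem : c * y * c⁻¹ ∈ ((c • P : Sylow p G) : Subgroup G) := by
      rw [sg_mem_smul]
      have e : c⁻¹ * (c * y * c⁻¹) * c = y := by group
      rw [e]; exact hy
    have h1 := Subgroup.mem_centralizer_iff.mp h _ hmem
    calc y * t = c⁻¹ * ((c * y * c⁻¹) * (c * t * c⁻¹)) * c := by group
      _ = c⁻¹ * ((c * t * c⁻¹) * (c * y * c⁻¹)) * c := by rw [h1]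
      _ = t * y := by group
  · intro h
    rw [Subgroup.mem_centralizer_iff]
    intro x hx
    have hy : c⁻¹ * x * c ∈ (P : Subgroup G) := (sg_mem_smul P c x).mp hx
    have h1 := Subgroup.mem_centralizer_iff.mp h _ hy
    calc x * (c * t * c⁻¹) = c * ((c⁻¹ * x * c) * t) * c⁻¹ := by group
      _ = c * (t * (c⁻¹ * x * c)) * c⁻¹ := by rw [h1]
      _ = c * t * c⁻¹ * x := by group

end

/-- P2-SING -/
theorem sing : StSing.{u} := by
  intro G _ _ p _ P hcard hcen hnor hzreg F hF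
  classical
  have hp : p.Prime := Fact.out
  haveI : Fintype G := Fintype.ofFinite G
  haveI : Fintype (Sylow p G) := Fintype.ofFinite _
  haveI : Fintype (Subgroup.center G) := Fintype.ofFinite _
  haveI : Fintype (P : Subgroup G) := Fintype.ofFinite _
  have hQcard : ∀ Q : Sylow p G, Nat.card (Q : Subgroup G) = p := fun Q => by
    rw [Sylow.card_eq_multiplicity, ← Sylow.card_eq_multiplicity P, hcard]
  have hPab : ∀ a ∈ (P : Subgroup G), ∀ b ∈ (P : Subgroup G), a * b = b * a := by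
    haveI : IsCyclic (P : Subgroup G) := isCyclic_of_prime_card hcard
    intro a ha b hb
    have := (IsCyclic.commGroup (α := (P : Subgroup G))).mul_comm ⟨a, ha⟩ ⟨b, hb⟩
    exact congrArg Subtype.val this
  have hPZ_cent : ∀ x ∈ (P : Subgroup G), ∀ z ∈ Subgroup.center G,
      x * z ∈ Subgroup.centralizer ((P : Subgroup G) : Set G) := by
    intro x hx z hz
    rw [Subgroup.mem_centralizer_iff]
    intro y hy
    have h1 := hPab y hy x hx
    have h2 := Subgroup.mem_center_iff.mp hz y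
    rw [← mul_assoc, h1, mul_assoc, h2, mul_assoc]
  have hL : ∑ᶠ (g : G) (_ : p ∣ orderOf g), F g = ∑ g : G, if p ∣ orderOf g then F g else 0 := by
    rw [finsum_eq_sum_of_fintype]
    refine Finset.sum_congr rfl (fun g _ => ?_)
    rw [finsum_eq_if]
  have hR : ∑ᶠ (x : ↥(P : Subgroup G)) (_ : x ≠ 1), ∑ᶠ z : Subgroup.center G,
      F ((x : G) * (z : G)) = ∑ x : (P : Subgroup G), if x ≠ 1 then
        ∑ z : Subgroup.center G, F ((x : G) * (z : G)) else 0 := by
    rw [finsum_eq_sum_of_fintype]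
    refine Finset.sum_congr rfl (fun x _ => ?_)
    rw [finsum_eq_if, finsum_eq_sum_of_fintype]
  obtain ⟨k, hk⟩ : ∃ k : G → ℂ, k = fun t => if p ∣ orderOf t ∧
      t ∈ Subgroup.centralizer ((P : Subgroup G) : Set G) then F t else 0 := ⟨_, rfl⟩
  have hA : (∑ g : G, if p ∣ orderOf g then F g else 0) =
      (Nat.card (Sylow p G) : ℂ) * ∑ t : G, k t := by
    have h1 : ∀ g : G, (if p ∣ orderOf g then F g else 0) = ∑ Q : Sylow p G,
        if p ∣ orderOf g ∧ g ∈ Subgroup.centralizer ((Q : Subgroup G) : Set G)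
          then F g else 0 := by
      intro g
      by_cases hg : p ∣ orderOf g
      · obtain ⟨Q₀, hQ₀⟩ := sg_exists hQcard hg
        rw [if_pos hg, Finset.sum_eq_single Q₀]
        · rw [if_pos ⟨hg, hQ₀⟩]
        · intro Q _ hne
          rw [if_neg]
          rintro ⟨-, hQ⟩
          exact hne (sg_unique hQcard hg hQ hQ₀)
        · intro h; exact absurd (Finset.mem_univ _) h
      · rw [if_neg hg]
        symm
        apply Finset.sum_eq_zero
        intro Q _
        rw [if_neg (fun h => hg h.1)]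
    have h2 : ∀ Q : Sylow p G, (∑ g : G, if p ∣ orderOf g ∧
        g ∈ Subgroup.centralizer ((Q : Subgroup G) : Set G) then F g else 0) = ∑ t : G, k t := by
      intro Q
      obtain ⟨c, rfl⟩ := MulAction.exists_smul_eq G P Q
      symm
      apply Fintype.sum_equiv (MulAut.conj c).toEquiv
      intro t
      have e1 : (MulAut.conj c).toEquiv t = c * t * c⁻¹ := rfl
      rw [e1, hk]
      have e2 : orderOf (c * t * c⁻¹) = orderOf t := by
        have := MulEquiv.orderOf_eq (MulAut.conj c) t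
        rwa [MulAut.conj_apply] at this
      have e3 := sg_conj_cent P c t
      simp only [e2, e3, hF t c]
    rw [Finset.sum_congr rfl (fun g _ => h1 g), Finset.sum_comm,
      Finset.sum_congr rfl (fun Q _ => h2 Q), Finset.sum_const, Finset.card_univ, nsmul_eq_mul,
      Nat.card_eq_fintype_card]
  have hC : (∑ t : G, k t) = ∑ x : (P : Subgroup G), if x ≠ 1 then
      ∑ z : Subgroup.center G, F ((x : G) * (z : G)) else 0 := by
    have h1 : (∑ x : (P : Subgroup G), if x ≠ 1 then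
        ∑ z : Subgroup.center G, F ((x : G) * (z : G)) else 0) =
        ∑ xz : ↥(P : Subgroup G) × ↥(Subgroup.center G),
          if xz.1 ≠ 1 then F ((xz.1 : G) * (xz.2 : G)) else 0 := by
      rw [Fintype.sum_prod_type]
      refine Finset.sum_congr rfl (fun x _ => ?_)
      by_cases hx : x ≠ 1
      · simp only [if_pos hx]
      · simp only [if_neg hx, Finset.sum_const_zero]
    rw [h1]
    symm
    apply Finset.sum_of_injOn
      (fun xz : ↥(P : Subgroup G) × ↥(Subgroup.center G) => (xz.1 : G) * (xz.2 : G))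
    · intro a _ b _ hab
      exact sg_prod_inj P hcard hzreg hab
    · intro a _; exact Finset.mem_coe.mpr (Finset.mem_univ _)
    · intro t _ ht
      rw [hk]
      show (if _ then _ else _) = (0 : ℂ)
      rw [if_neg]
      rintro ⟨-, htC⟩
      apply ht
      obtain ⟨x, hx, z, hz, rfl⟩ := sg_decomp P hcen htC
      exact ⟨(⟨x, hx⟩, ⟨z, hz⟩), Finset.mem_coe.mpr (Finset.mem_univ _), rfl⟩
    · intro xz _
      rw [hk]
      show _ = if _ then _ else _
      have e1 := sg_iff P hcard hzreg xz.1.2 xz.2.2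
      have e2 : ((xz.1 : G) ≠ 1) ↔ xz.1 ≠ 1 := by
        constructor
        · intro h h'; exact h (by rw [h']; rfl)
        · intro h h'; exact h (Subtype.ext h')
      by_cases hx : xz.1 ≠ 1
      · rw [if_pos hx, if_pos ⟨e1.mpr (e2.mpr hx), hPZ_cent _ xz.1.2 _ xz.2.2⟩]
      · rw [if_neg hx, if_neg (fun h => hx (e2.mp (e1.mp h.1)))]
  have hprod : Nat.card (↥(P : Subgroup G) × ↥(Subgroup.center G)) =
      p * Nat.card (Subgroup.center G) := by rw [Nat.card_prod, hcard]
  have hCcard : Nat.card (Subgroup.centralizer ((P : Subgroup G) : Set G)) =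
      p * Nat.card (Subgroup.center G) := by
    rw [← hprod]
    symm
    apply Nat.card_congr
    apply Equiv.ofBijective (fun xz : ↥(P : Subgroup G) × ↥(Subgroup.center G) =>
      (⟨(xz.1 : G) * (xz.2 : G), hPZ_cent _ xz.1.2 _ xz.2.2⟩ :
        Subgroup.centralizer ((P : Subgroup G) : Set G)))
    constructor
    · intro a b hab
      exact sg_prod_inj P hcard hzreg (congrArg Subtype.val hab)
    · intro t
      obtain ⟨x, hx, z, hz, ht⟩ := sg_decomp P hcen t.2
      exact ⟨(⟨x, hx⟩, ⟨z, hz⟩), Subtype.ext ht.symm⟩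
  have hcount : Nat.card G =
      Nat.card (Sylow p G) * (2 * (p * Nat.card (Subgroup.center G))) := by
    have h1 : Nat.card (Sylow p G) =
        (Subgroup.normalizer ((P : Subgroup G) : Set G)).index :=
      Sylow.card_eq_index_normalizer P
    have h2 := Subgroup.card_mul_index (Subgroup.normalizer ((P : Subgroup G) : Set G))
    rw [← h1, hnor, hCcard] at h2
    rw [← h2, mul_comm]
  show (2 * (p : ℂ) * (Nat.card (Subgroup.center G) : ℂ)) *
      ∑ᶠ (g : G) (_ : p ∣ orderOf g), F g =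
    (Nat.card G : ℂ) * ∑ᶠ (x : ↥(P : Subgroup G)) (_ : x ≠ 1), ∑ᶠ z : Subgroup.center G,
      F ((x : G) * (z : G))
  rw [hL, hR, hA, hC, hcount]
  push_cast
  ring

example : StSing.{u} := sing

end Cfsg.Agent.H5.P2

#print axioms Cfsg.Agent.H5.P2.sing
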