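import Mathlib
import Cfsg.Agent.H26.P2Defs
import Cfsg.Agent.H82.TwoDegA
import Cfsg.Agent.H82.Extra

/-! P2-TW (piece of helper26's S4705 project): twisting an irreducible character of odd degree
by a power of its determinant so that it becomes trivial on the central `2`-elements. -/

set_option autoImplicit false

universe u

namespace Cfsg.Agent.H5.P2

open Cfsg Cfsg.Agent.H26.P2
open scoped ComplexConjugate

theorem tw : StTw.{u} := by
  intro G _ _ ζ hζ p hp hdeg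
  classical
  have h1 : ζ 1 ≠ 0 := by
    have e : ζ 1 = (charDegree ζ : ℂ) :=
      Cfsg.Agent.H82.irr_one_eq_charDegree (⟨ζ, hζ⟩ : IrrCharacter G)
    rw [e]
    have := Cfsg.Agent.H82.charDegree_pos (⟨ζ, hζ⟩ : IrrCharacter G)
    exact_mod_cast this.ne'
  have hcs : ∀ z ∈ Subgroup.center G, ∀ g : G, ζ (z * g) * ζ 1 = ζ z * ζ g := by
    intro z hz g
    obtain ⟨c, hc, -, -⟩ := Cfsg.Agent.H82.irr_central_scalar (⟨ζ, hζ⟩ : IrrCharacter G) z
      (fun g => Subgroup.mem_center_iff.mp hz g)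
    have e1 : ζ (z * g) = c * ζ g := hc g
    have e2 : ζ z = c * ζ 1 := by have := hc 1; rwa [mul_one] at this
    rw [e1, e2]; ring
  let B : Subgroup G :=
    { carrier := {z | z ∈ Subgroup.center G ∧ ∃ i : ℕ, z ^ (2 ^ i) = 1}
      one_mem' := ⟨one_mem _, 0, by simp⟩
      mul_mem' := by
        rintro a b ⟨ha, i, hi⟩ ⟨hb, j, hj⟩
        refine ⟨mul_mem ha hb, i + j, ?_⟩
        have hcomm : Commute a b := Subgroup.mem_center_iff.mp hb a
        rw [hcomm.mul_pow, pow_add, pow_mul, hi, one_pow, mul_comm (2 ^ i) (2 ^ j), pow_mul, hj,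
          one_pow, one_mul]
      inv_mem' := by
        rintro a ⟨ha, i, hi⟩
        exact ⟨inv_mem ha, i, by rw [inv_pow, hi, inv_one]⟩ }
  have hBcen : ∀ b : B, (b : G) ∈ Subgroup.center G := fun b => b.2.1
  let c0 : B →* ℂ :=
    { toFun := fun b => ζ b / ζ 1
      map_one' := by
        show ζ ((1 : B) : G) / ζ 1 = 1
        rw [Subgroup.coe_one, div_self h1]
      map_mul' := by
        intro a b
        have h := hcs a (hBcen a) b
        show ζ ((a * b : B) : G) / ζ 1 = ζ a / ζ 1 * (ζ b / ζ 1)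
        rw [Subgroup.coe_mul, div_mul_div_comm, ← h, mul_div_mul_right _ _ h1] }
  let c : B →* ℂˣ := MonoidHom.toHomUnits c0
  have hc : ∀ b : B, ζ b = ζ 1 * ((c b : ℂˣ) : ℂ) := by
    intro b
    show ζ b = ζ 1 * (ζ b / ζ 1)
    rw [mul_div_cancel₀ _ h1]
  have hB2 : IsPGroup 2 B := by
    intro b
    obtain ⟨i, hi⟩ := b.2.2
    exact ⟨i, Subtype.ext (by rw [Subgroup.coe_pow, hi, Subgroup.coe_one])⟩
  obtain ⟨n, hn⟩ := hB2.exists_card_eq
  have hcop : Nat.Coprime (charDegree ζ) (Nat.card B) := by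
    rw [hn]
    exact Nat.Coprime.pow_right n (Nat.coprime_two_right.mpr hdeg)
  obtain ⟨f, hf⟩ := Cfsg.Agent.H82.exists_hom_of_scalar hζ B c hc hcop
  have hpc : Int.gcd (p : ℤ) (Nat.card B : ℤ) = 1 := by
    rw [Int.gcd_natCast_natCast, hn]
    exact Nat.Coprime.pow_right n (Nat.coprime_two_right.mpr hp)
  have hbez := Int.gcd_eq_gcd_ab (p : ℤ) (Nat.card B : ℤ)
  rw [hpc] at hbez
  obtain ⟨a, ha⟩ : ∃ a : ℤ, a = Int.gcdA (p : ℤ) (Nat.card B : ℤ) := ⟨_, rfl⟩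
  obtain ⟨b', hb'⟩ : ∃ b : ℤ, b = Int.gcdB (p : ℤ) (Nat.card B : ℤ) := ⟨_, rfl⟩
  rw [← ha, ← hb'] at hbez
  have hbez' : (1 : ℤ) = p * a + Nat.card B * b' := by exact_mod_cast hbez
  refine ⟨(zpowGroupHom (-((p : ℤ) * a))).comp f, ?_, ?_⟩
  · intro x hx
    rw [MonoidHom.comp_apply, zpowGroupHom_apply, zpow_neg, zpow_mul, zpow_natCast, ← map_pow,
      hx, map_one, one_zpow, inv_one]
  · intro z hz i hi
    have hzB : z ∈ B := ⟨hz, i, hi⟩
    have hfz : f z = c ⟨z, hzB⟩ := hf ⟨z, hzB⟩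
    have hcard : (c ⟨z, hzB⟩) ^ (Nat.card B : ℤ) = 1 := by
      rw [zpow_natCast, ← map_pow, pow_card_eq_one', map_one]
    have hβ : ((zpowGroupHom (-((p : ℤ) * a))).comp f) z = (c ⟨z, hzB⟩)⁻¹ := by
      rw [MonoidHom.comp_apply, zpowGroupHom_apply, hfz]
      have e : -((p : ℤ) * a) = -1 + (Nat.card B : ℤ) * b' := by linarith
      rw [e, zpow_add, zpow_mul, hcard, one_zpow, mul_one, zpow_neg_one]
    rw [hβ]
    have h2 : ζ z = ζ 1 * ((c ⟨z, hzB⟩ : ℂˣ) : ℂ) := hc ⟨z, hzB⟩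
    rw [h2, mul_assoc, ← Units.val_mul, mul_inv_cancel, Units.val_one, mul_one]

example : StTw.{u} := tw

end Cfsg.Agent.H5.P2

#print axioms Cfsg.Agent.H5.P2.tw
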