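import Cfsg.Agent.H4.Irr

set_option autoImplicit false

/-!
# Basic representation-theoretic helpers (helper5)
-/

namespace Cfsg.Agent.H5

open Cfsg.Agent.H4

section

variable {G : Type*} [Group G] {V : Type*} [AddCommGroup V] [Module ℂ V]

/-- restriction of a representation to a subgroup -/
def resRep (ρ : Representation ℂ G V) (K : Subgroup G) : Representation ℂ ↥K V :=
  ρ.comp K.subtype

theorem resRep_apply (ρ : Representation ℂ G V) (K : Subgroup G) (k : ↥K) :
    resRep ρ K k = ρ (k : G) := rfl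

theorem resRep_character [FiniteDimensional ℂ V] (ρ : Representation ℂ G V) (K : Subgroup G)
    (k : ↥K) : (resRep ρ K).character k = ρ.character (k : G) := rfl

/-- A commutative subgroup has a common eigenvector. -/
theorem exists_common_eigenvector [FiniteDimensional ℂ V] [Nontrivial V]
    (ρ : Representation ℂ G V) (A : Subgroup G) (hA : ∀ a ∈ A, ∀ b ∈ A, a * b = b * a) :
    ∃ w : V, w ≠ 0 ∧ ∀ a ∈ A, ∃ c : ℂ, ρ a w = c • w := by
  have hcomm : IsMulCommutative ↥A := ⟨⟨fun a b => Subtype.ext (hA a a.2 b b.2)⟩⟩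
  obtain ⟨U, hU⟩ := exists_irreducible_subrep (resRep ρ A)
  have h1 : Module.finrank ℂ U.toSubmodule = 1 :=
    Representation.IsIrreducible.finrank_eq_one_of_isMulCommutative U.toRepresentation
  obtain ⟨v, hv, hspan⟩ := finrank_eq_one_iff'.mp h1
  refine ⟨(v : V), fun h => hv (Subtype.ext h), ?_⟩
  intro a ha
  have hmem : resRep ρ A ⟨a, ha⟩ (v : V) ∈ U.toSubmodule :=
    U.apply_mem_toSubmodule ⟨a, ha⟩ v.2
  obtain ⟨c, hc⟩ := hspan ⟨_, hmem⟩
  refine ⟨c, ?_⟩
  have := congrArg Subtype.val hc
  simp only [Submodule.coe_smul] at this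
  rw [this]
  rfl

/-- `ρ g` is injective. -/
theorem rho_injective (ρ : Representation ℂ G V) (g : G) : Function.Injective (ρ g) := by
  intro v w h
  have h1 : ρ g⁻¹ (ρ g v) = ρ g⁻¹ (ρ g w) := by rw [h]
  rw [← Module.End.mul_apply, ← Module.End.mul_apply, ← map_mul, inv_mul_cancel, map_one,
    Module.End.one_apply, Module.End.one_apply] at h1
  exact h1

theorem rho_mul_apply (ρ : Representation ℂ G V) (g h : G) (v : V) :
    ρ (g * h) v = ρ g (ρ h v) := by
  rw [map_mul, Module.End.mul_apply]

end

section Fixed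

variable {G : Type*} [Group G] {V : Type*} [AddCommGroup V] [Module ℂ V]

/-- vectors fixed by a subgroup -/
def fixedSub (ρ : Representation ℂ G V) (K : Subgroup G) : Submodule ℂ V where
  carrier := {v | ∀ k ∈ K, ρ k v = v}
  add_mem' := by
    intro a b ha hb k hk
    rw [map_add, ha k hk, hb k hk]
  zero_mem' := by
    intro k _
    exact map_zero _
  smul_mem' := by
    intro c v hv k hk
    rw [map_smul, hv k hk]

theorem mem_fixedSub (ρ : Representation ℂ G V) (K : Subgroup G) (v : V) :
    v ∈ fixedSub ρ K ↔ ∀ k ∈ K, ρ k v = v := Iff.rfl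

theorem fixedSub_anti (ρ : Representation ℂ G V) {K L : Subgroup G} (h : K ≤ L) :
    fixedSub ρ L ≤ fixedSub ρ K := fun _ hv k hk => hv k (h hk)

/-- the fixed space of a normal subgroup is invariant -/
theorem fixedSub_invariant (ρ : Representation ℂ G V) (K : Subgroup G) [hK : K.Normal] (g : G)
    (v : V) (hv : v ∈ fixedSub ρ K) : ρ g v ∈ fixedSub ρ K := by
  intro k hk
  have h1 : g⁻¹ * k * g ∈ K := by
    have := hK.conj_mem k hk g⁻¹
    simpa using this
  have e : k * g = g * (g⁻¹ * k * g) := by group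
  rw [← rho_mul_apply, e, rho_mul_apply, hv _ h1]

/-- For an irreducible representation, a normal subgroup either acts trivially or has no nonzero
fixed vector. -/
theorem fixedSub_eq_bot_or_trivial (ρ : Representation ℂ G V) [ρ.IsIrreducible] (K : Subgroup G)
    [K.Normal] : fixedSub ρ K = ⊥ ∨ ∀ k ∈ K, ρ k = LinearMap.id := by
  have hirr := (isIrreducible_iff ρ).mp inferInstance
  rcases hirr.2 (fixedSub ρ K) (fun g v hv => fixedSub_invariant ρ K g v hv) with h | h
  · exact Or.inl h
  · right
    intro k hk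
    refine LinearMap.ext fun v => ?_
    have hv : v ∈ fixedSub ρ K := by rw [h]; exact Submodule.mem_top
    simpa using hv k hk

/-- the sum of `ρ h` over a subgroup -/
noncomputable def sumSub (ρ : Representation ℂ G V) (K : Subgroup G) [Fintype K] :
    Module.End ℂ V := ∑ k : K, ρ (k : G)

theorem sumSub_mem_fixedSub (ρ : Representation ℂ G V) (K : Subgroup G) [Fintype K] (v : V) :
    sumSub ρ K v ∈ fixedSub ρ K := by
  intro k hk
  unfold sumSub
  rw [LinearMap.sum_apply, map_sum]
  simp_rw [← rho_mul_apply]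
  exact Fintype.sum_equiv (Equiv.mulLeft (⟨k, hk⟩ : K)) _ _ (fun x => rfl)

theorem trace_mul_sumSub [FiniteDimensional ℂ V] (ρ : Representation ℂ G V) (K : Subgroup G)
    [Fintype K] (g : G) :
    LinearMap.trace ℂ V (ρ g * sumSub ρ K) = ∑ k : K, ρ.character (g * k) := by
  unfold sumSub
  rw [Finset.mul_sum, map_sum]
  apply Finset.sum_congr rfl
  intro k _
  rw [← map_mul]
  rfl

end Fixed

end Cfsg.Agent.H5
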