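import Mathlib
import Cfsg.Prelude.Def_Blocks
import Cfsg.Prelude.Def_Local
import Cfsg.Agent.Lib.Clifford
import Cfsg.Agent.H80.Block

set_option autoImplicit false
open scoped ComplexConjugate

namespace Cfsg.Agent.H5.Rn

/-- S4711-C: Clifford for the trivial character of a normal subgroup. -/
theorem rn_clifford {G : Type*} [Group G] [Finite G] (Nm Q : Subgroup G) (hQN : Q ≤ Nm)
    (hnorm : ∀ n ∈ Nm, ∀ y ∈ Q, n * y * n⁻¹ ∈ Q) (χ : G → ℂ)
    (hirr : Cfsg.IsIrrCharacter ↥Nm (fun n : ↥Nm => χ n))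
    (hne : ∑ᶠ y : ↥Q, χ (y : G) ≠ 0) : ∀ y ∈ Q, χ y = χ 1 := by
  classical
  letI : Fintype ↥Nm := Fintype.ofFinite _
  let N : Subgroup ↥Nm := Q.subgroupOf Nm
  haveI hNn : N.Normal := ⟨fun y hy n => by
    have hy' : ((y : ↥Nm) : G) ∈ Q := Subgroup.mem_subgroupOf.1 hy
    exact Subgroup.mem_subgroupOf.2 (hnorm n n.2 y hy')⟩
  letI : Fintype ↥N := Fintype.ofFinite _
  letI : Fintype ↥Q := Fintype.ofFinite _
  let θ : ↥N → ℂ := fun _ => 1
  have hθ : Cfsg.IsIrrCharacter ↥N θ := (Cfsg.Agent.H80.trivChar ↥N).2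
  -- the sum over N equals the sum over Q
  have hsum : ∑ n : ↥N, χ (((n : ↥Nm) : G)) = ∑ᶠ y : ↥Q, χ (y : G) := by
    rw [finsum_eq_sum_of_fintype]
    exact Fintype.sum_equiv (Subgroup.subgroupOfEquivOfLe hQN).toEquiv _ _ (fun n => rfl)
  have h1 : Cfsg.classInner (fun n : ↥N => (fun m : ↥Nm => χ m) n) θ ≠ 0 := by
    unfold Cfsg.classInner
    have hcard : ((Nat.card ↥N : ℕ) : ℂ) ≠ 0 := by
      exact_mod_cast (Nat.card_pos (α := ↥N)).ne'
    apply mul_ne_zero (inv_ne_zero hcard)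
    have : ∑ g : ↥N, (fun n : ↥N => (fun m : ↥Nm => χ m) n) g * conj (θ g)
        = ∑ n : ↥N, χ (((n : ↥Nm) : G)) := by
      refine Finset.sum_congr rfl fun n _ => ?_
      simp [θ]
    rw [this, hsum]
    exact hne
  have hres := Cfsg.Agent.Clifford.clifford_res (N := N) hirr hθ h1
  have hset : {ψ : ↥N → ℂ | ∃ g : ↥Nm, ψ = Cfsg.Agent.Clifford.conjChar N θ g} = {θ} := by
    ext ψ
    simp only [Set.mem_setOf_eq, Set.mem_singleton_iff]
    constructor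
    · rintro ⟨g, rfl⟩
      rfl
    · intro h
      exact ⟨1, by rw [h]; rfl⟩
  rw [hset, finsum_mem_singleton] at hres
  intro y hy
  have e1 := congrFun hres ⟨⟨y, hQN hy⟩, Subgroup.mem_subgroupOf.2 hy⟩
  have e2 := congrFun hres ⟨⟨1, Nm.one_mem⟩, Subgroup.mem_subgroupOf.2 Q.one_mem⟩
  simp only [Pi.smul_apply, θ, smul_eq_mul, mul_one] at e1 e2
  rw [e1, e2]

end Cfsg.Agent.H5.Rn
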