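import Mathlib
import Cfsg.Prelude.Def_Blocks
import Cfsg.Prelude.Def_Local
import Cfsg.Agent.H31.PLen
import Cfsg.Agent.S0967
import Cfsg.Agent.H80.Block
import Cfsg.Agent.H4.Frob

set_option autoImplicit false
open scoped ComplexConjugate

namespace Cfsg.Agent.H5.Rn

/-- S4711-F: in a group of `p`-length one, every character of the principal block restricts
irreducibly to the normaliser of a Sylow `p`-subgroup. -/
theorem rn_forward {G : Type*} [Group G] [Finite G] (p : ℕ) [Fact p.Prime] (M : Ideal Cfsg.AlgInt)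
    (hM : Cfsg.IsPModular p M) (P : Sylow p G) (h : Cfsg.PLengthLE p 1 G) :
    ∀ χ ∈ Cfsg.principalBlock M G,
      Cfsg.IsIrrCharacter ↥(Subgroup.normalizer ((P : Subgroup G) : Set G))
        (fun n : ↥(Subgroup.normalizer ((P : Subgroup G) : Set G)) => (χ : G → ℂ) n) := by
  intro χ hχ
  obtain ⟨K, hKn, hKcop, hsup⟩ := Cfsg.Agent.H31.exists_normal_pprime_of_plength_one p h P
  haveI := hKn
  have hp : p.Prime := Fact.out
  have hK : ¬ p ∣ Nat.card K := fun hdvd => (hp.coprime_iff_not_dvd.1 hKcop.symm) hdvd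
  have hχ' : χ ∈ Cfsg.blockOf M
      (((Cfsg.Agent.H80.trivChar (G ⧸ K) : Cfsg.IrrCharacter (G ⧸ K)) : G ⧸ K → ℂ) ∘
        QuotientGroup.mk) := hχ
  obtain ⟨ψ', hψ', _⟩ := Cfsg.Agent.S0967.result p M hM K hK (Cfsg.Agent.H80.trivChar (G ⧸ K)) χ hχ'
  let f : ↥(Subgroup.normalizer ((P : Subgroup G) : Set G)) →* G ⧸ K :=
    (QuotientGroup.mk' K).comp (Subgroup.subtype _)
  have hf : Function.Surjective f := by
    intro x
    obtain ⟨g, rfl⟩ := QuotientGroup.mk_surjective x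
    have hg : g ∈ Subgroup.normalizer ((P : Subgroup G) : Set G) ⊔ K := by rw [hsup]; trivial
    have hg' : g ∈ ((Subgroup.normalizer ((P : Subgroup G) : Set G) ⊔ K : Subgroup G) : Set G) := hg
    rw [Subgroup.mul_normal] at hg'
    obtain ⟨n, hn, k, hk, rfl⟩ := Set.mem_mul.1 hg'
    refine ⟨⟨n, hn⟩, ?_⟩
    show (QuotientGroup.mk n : G ⧸ K) = QuotientGroup.mk (n * k)
    rw [QuotientGroup.eq]
    simpa using hk
  have hirr := Cfsg.Agent.H4.isIrrCharacter_comp_surjective f hf ψ'.2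
  have heq : (fun n : ↥(Subgroup.normalizer ((P : Subgroup G) : Set G)) => (χ : G → ℂ) n)
      = fun k => (ψ' : G ⧸ K → ℂ) (f k) := by
    funext n
    rw [hψ']
    rfl
  rw [heq]
  exact hirr

end Cfsg.Agent.H5.Rn
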