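import Mathlib
import Cfsg.Agent.H51.RsDefs
/-!
S2113 team project (helper51), piece RS-NUMUL: `nuL L` is multiplicative on the preimage of `U₁`
(given that the preimage of `U₁` is abelian).
-/
set_option autoImplicit false

namespace Cfsg.Agent.H5.Rs

open Cfsg.Agent.H96.Ro Cfsg.Agent.H51.Rs

universe u v w

/-- `nuL L a` lies over `U₁` when `a` does -/
theorem inU1_nuL {K : Type u} [Field K] {G : Type v} [Group G] {n : ℕ} {Γ : Type w} [Group Γ]
    (E : Ext K G n Γ) (L : List Kˣ) {a : Γ} (ha : E.InU1 a) : E.InU1 (E.nuL L a) := by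
  induction L with
  | nil =>
    have : E.nuL [] a = 1 := by simp [Ext.nuL]
    rw [this]; exact E.inU1_one
  | cons κ L ih =>
    have : E.nuL (κ :: L) a = E.hh κ * a * (E.hh κ)⁻¹ * E.nuL L a := by
      simp [Ext.nuL]
    rw [this]
    exact Ext.InU1.mul E (Ext.InU1.conj E ha (E.σ_hh κ)) ih

theorem nuMul (h1 : StStep1.{u, v, w}) : StNuMul.{u, v, w} := by
  intro K _ _ _ m hm hK G _ Γ _ E L a b ha hb
  induction L with
  | nil => simp [Ext.nuL]
  | cons κ L ih =>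
    have e : ∀ x : Γ, E.nuL (κ :: L) x = E.hh κ * x * (E.hh κ)⁻¹ * E.nuL L x := by
      intro x; simp [Ext.nuL]
    rw [e, e, e, ih]
    have hcb : E.InU1 (E.hh κ * b * (E.hh κ)⁻¹) := Ext.InU1.conj E hb (E.σ_hh κ)
    have hna : E.InU1 (E.nuL L a) := inU1_nuL E L ha
    have hcomm : E.hh κ * b * (E.hh κ)⁻¹ * E.nuL L a = E.nuL L a * (E.hh κ * b * (E.hh κ)⁻¹) :=
      h1 K m hm hK G Γ E _ _ hcb hna
    have e2 : E.hh κ * (a * b) * (E.hh κ)⁻¹ =
        (E.hh κ * a * (E.hh κ)⁻¹) * (E.hh κ * b * (E.hh κ)⁻¹) := by group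
    rw [e2]
    calc E.hh κ * a * (E.hh κ)⁻¹ * (E.hh κ * b * (E.hh κ)⁻¹) * (E.nuL L a * E.nuL L b)
        = E.hh κ * a * (E.hh κ)⁻¹ * ((E.hh κ * b * (E.hh κ)⁻¹) * E.nuL L a) * E.nuL L b := by
          simp only [mul_assoc]
      _ = E.hh κ * a * (E.hh κ)⁻¹ * (E.nuL L a * (E.hh κ * b * (E.hh κ)⁻¹)) * E.nuL L b := by
          rw [hcomm]
      _ = E.hh κ * a * (E.hh κ)⁻¹ * E.nuL L a * (E.hh κ * b * (E.hh κ)⁻¹ * E.nuL L b) := by
          simp only [mul_assoc]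

example (h1 : StStep1.{u, v, w}) : StNuMul.{u, v, w} := nuMul h1

end Cfsg.Agent.H5.Rs

#print axioms Cfsg.Agent.H5.Rs.nuMul
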