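import Mathlib
import Cfsg.Agent.H51.RsDefs
/-!
S2113 team project (helper51), piece RS-STEP1: the preimage of `U₁` in a central extension of a
group with a Ree datum is abelian.
-/
set_option autoImplicit false

namespace Cfsg.Agent.H5.Rs

open Cfsg.Agent.H96.Ro Cfsg.Agent.H51.Rs

universe u v w

section general

variable {K : Type u} [Field K] {G : Type v} [Group G] {n : ℕ} {Γ : Type w} [Group Γ]
  (E : Ext K G n Γ)

/-- additivity of `cm` in the first variable when the inner commutator is over `1` -/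
theorem cm_mul_left_central {x₁ x₂ y : Γ} (h : E.σ (cm x₂ y) = 1) :
    cm (x₁ * x₂) y = cm x₁ y * cm x₂ y := by
  rw [cm_mul_left]
  have h1 : x₁ * cm x₂ y = cm x₂ y * x₁ := E.central _ h x₁
  rw [h1, mul_assoc (cm x₂ y), mul_inv_cancel, mul_one]
  exact E.central' h _

/-- additivity of `cm` in the second variable when the inner commutator is over `1` -/
theorem cm_mul_right_central {x y₁ y₂ : Γ} (h : E.σ (cm x y₂) = 1) :
    cm x (y₁ * y₂) = cm x y₁ * cm x y₂ := by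
  rw [cm_mul_right]
  have h1 : y₁ * cm x y₂ = cm x y₂ * y₁ := E.central _ h y₁
  rw [h1, mul_assoc (cm x y₂), mul_inv_cancel, mul_one]

/-- a commutator over `1` is invariant under simultaneous conjugation -/
theorem cm_conj_central {x y : Γ} (g : Γ) (h : E.σ (cm x y) = 1) :
    cm (g * x * g⁻¹) (g * y * g⁻¹) = cm x y := by
  rw [← cm_conj]
  have h1 : g * cm x y = cm x y * g := E.central _ h g
  rw [h1, mul_assoc, mul_inv_cancel, mul_one]

/-- two elements over `U₁` have commutator over `1` -/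
theorem σ_cm_U1 {a b : Γ} (ha : E.InU1 a) (hb : E.InU1 b) : E.σ (cm a b) = 1 := by
  obtain ⟨u, v, ha⟩ := ha
  obtain ⟨u', v', hb⟩ := hb
  rw [cm_map, ha, hb]
  apply cm_eq_one_iff.mpr
  rw [R_U1_mul, R_U1_mul, add_comm u, add_comm v]

/-- the pairing argument: a family of commutators over `1`, biadditive and torus-invariant
with weights `(A, B)`, is trivial -/
theorem pair_triv (A B : ℕ) (hPV : PairVanish.{u, w} K A B) (α β : K → Γ)
    (hc : ∀ a b, E.σ (cm (α a) (β b)) = 1)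
    (hl : ∀ a a' b, cm (α (a + a')) (β b) = cm (α a) (β b) * cm (α a') (β b))
    (hr : ∀ a b b', cm (α a) (β (b + b')) = cm (α a) (β b) * cm (α a) (β b'))
    (hαc : ∀ (κ : Kˣ) (a : K), E.σ (E.hh κ * α a * (E.hh κ)⁻¹) = E.σ (α ((κ : K) ^ A * a)))
    (hβc : ∀ (κ : Kˣ) (b : K), E.σ (E.hh κ * β b * (E.hh κ)⁻¹) = E.σ (β ((κ : K) ^ B * b))) :
    ∀ a b, cm (α a) (β b) = 1 := by
  apply hPV Γ (fun a b => cm (α a) (β b))
  · intro x y x' y'
    exact E.central' (hc x y) _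
  · exact hl
  · exact hr
  · intro κ hκ x y
    have h1 := cm_conj_central E (E.hh (Units.mk0 κ hκ)) (hc x y)
    rw [← h1]
    exact (E.cm_congr (hαc (Units.mk0 κ hκ) x) (hβc (Units.mk0 κ hκ) y)).symm

end general

theorem step1 (hP : StPairs.{u, w}) : StStep1.{u, v, w} := by
  intro K _ _ _ m hm hK G _ Γ _ E x y hx hy
  obtain ⟨-, -, -, hn1n1, hn1n2, hn2n2⟩ := hP K m hm hK
  -- the two families of lifts
  have hσu : ∀ u : K, E.σ (E.r 0 u 0) = E.D.R 0 u 0 := fun u => E.σ_r 0 u 0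
  have hσv : ∀ v : K, E.σ (E.r 0 0 v) = E.D.R 0 0 v := fun v => E.σ_r 0 0 v
  have haddu : ∀ a a' : K, E.σ (E.r 0 (a + a') 0) = E.σ (E.r 0 a 0 * E.r 0 a' 0) := by
    intro a a'
    rw [map_mul, hσu, hσu, hσu, R_U1_mul, add_zero]
  have haddv : ∀ a a' : K, E.σ (E.r 0 0 (a + a')) = E.σ (E.r 0 0 a * E.r 0 0 a') := by
    intro a a'
    rw [map_mul, hσv, hσv, hσv, R_U1_mul, add_zero]
  have hcu : ∀ (κ : Kˣ) (a : K), E.σ (E.hh κ * E.r 0 a 0 * (E.hh κ)⁻¹) =
      E.σ (E.r 0 ((κ : K) ^ (3 ^ (m + 1) + 1) * a) 0) := by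
    intro κ a
    rw [map_mul, map_mul, map_inv, E.σ_hh, hσu, hσu, h_conj_u]
  have hcv : ∀ (κ : Kˣ) (a : K), E.σ (E.hh κ * E.r 0 0 a * (E.hh κ)⁻¹) =
      E.σ (E.r 0 0 ((κ : K) ^ (3 ^ (m + 1) + 2) * a)) := by
    intro κ a
    rw [map_mul, map_mul, map_inv, E.σ_hh, hσv, hσv, h_conj_v]
  have hUu : ∀ a : K, E.InU1 (E.r 0 a 0) := fun a => E.inU1_r a 0
  have hUv : ∀ a : K, E.InU1 (E.r 0 0 a) := fun a => E.inU1_r 0 a
  -- generic additivity from additivity over `G`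
  have hladd : ∀ (α β : K → Γ), (∀ a, E.InU1 (α a)) → (∀ b, E.InU1 (β b)) →
      (∀ a a', E.σ (α (a + a')) = E.σ (α a * α a')) →
      ∀ a a' b, cm (α (a + a')) (β b) = cm (α a) (β b) * cm (α a') (β b) := by
    intro α β hα hβ hadd a a' b
    rw [E.cm_congr (hadd a a') rfl]
    exact cm_mul_left_central E (σ_cm_U1 E (hα a') (hβ b))
  have hradd : ∀ (α β : K → Γ), (∀ a, E.InU1 (α a)) → (∀ b, E.InU1 (β b)) →
      (∀ b b', E.σ (β (b + b')) = E.σ (β b * β b')) →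
      ∀ a b b', cm (α a) (β (b + b')) = cm (α a) (β b) * cm (α a) (β b') := by
    intro α β hα hβ hadd a b b'
    rw [E.cm_congr rfl (hadd b b')]
    exact cm_mul_right_central E (σ_cm_U1 E (hα a) (hβ b'))
  have huu : ∀ a b : K, cm (E.r 0 a 0) (E.r 0 b 0) = 1 :=
    pair_triv E _ _ hn1n1 (fun a => E.r 0 a 0) (fun b => E.r 0 b 0)
      (fun a b => σ_cm_U1 E (hUu a) (hUu b))
      (hladd _ _ hUu hUu haddu) (hradd _ _ hUu hUu haddu) hcu hcu
  have huv : ∀ a b : K, cm (E.r 0 a 0) (E.r 0 0 b) = 1 :=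
    pair_triv E _ _ hn1n2 (fun a => E.r 0 a 0) (fun b => E.r 0 0 b)
      (fun a b => σ_cm_U1 E (hUu a) (hUv b))
      (hladd _ _ hUu hUv haddu) (hradd _ _ hUu hUv haddv) hcu hcv
  have hvv : ∀ a b : K, cm (E.r 0 0 a) (E.r 0 0 b) = 1 :=
    pair_triv E _ _ hn2n2 (fun a => E.r 0 0 a) (fun b => E.r 0 0 b)
      (fun a b => σ_cm_U1 E (hUv a) (hUv b))
      (hladd _ _ hUv hUv haddv) (hradd _ _ hUv hUv haddv) hcv hcv
  have hvu : ∀ a b : K, cm (E.r 0 0 a) (E.r 0 b 0) = 1 := by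
    intro a b
    rw [← cm_inv, huv, inv_one]
  -- assemble
  obtain ⟨u, v, hx'⟩ := hx
  obtain ⟨u', v', hy'⟩ := hy
  have ex : E.σ x = E.σ (E.r 0 u 0 * E.r 0 0 v) := by
    rw [hx', map_mul, hσu, hσv, ← R_split2]
  have ey : E.σ y = E.σ (E.r 0 u' 0 * E.r 0 0 v') := by
    rw [hy', map_mul, hσu, hσv, ← R_split2]
  apply cm_eq_one_iff.mp
  rw [E.cm_congr ex ey]
  apply cm_eq_one_iff.mpr
  have c1 : Commute (E.r 0 u 0) (E.r 0 u' 0) := cm_eq_one_iff.mp (huu u u')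
  have c2 : Commute (E.r 0 u 0) (E.r 0 0 v') := cm_eq_one_iff.mp (huv u v')
  have c3 : Commute (E.r 0 0 v) (E.r 0 u' 0) := cm_eq_one_iff.mp (hvu v u')
  have c4 : Commute (E.r 0 0 v) (E.r 0 0 v') := cm_eq_one_iff.mp (hvv v v')
  exact ((c1.mul_right c2).mul_left (c3.mul_right c4)).eq

example (hP : StPairs.{u, w}) : StStep1.{u, v, w} := step1 hP

end Cfsg.Agent.H5.Rs

#print axioms Cfsg.Agent.H5.Rs.step1
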