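import Mathlib
import Cfsg.Agent.H51.RsDefs
import Cfsg.Agent.H5.RsStep1
/-!
S2113 team project (helper51), piece RS-STEP2: the preimage of `U₂` is central in the preimage
of `U`.
-/
set_option autoImplicit false

namespace Cfsg.Agent.H5.Rs

open Cfsg.Agent.H96.Ro Cfsg.Agent.H51.Rs

universe u v w

theorem step2 (hP : StPairs.{u, w}) (h1 : StStep1.{u, v, w}) : StStep2.{u, v, w} := by
  intro K _ _ _ m hm hK G _ Γ _ E z x hz hx
  obtain ⟨-, -, hn2_1, -, -, -⟩ := hP K m hm hK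
  have hn : (3 ^ (m + 1) : ℕ) ≠ 0 := by positivity
  have hS1 : ∀ a b : Γ, E.InU1 a → E.InU1 b → cm a b = 1 := by
    intro a b ha hb
    exact cm_eq_one_iff.mpr (h1 K m hm hK G Γ E a b ha hb)
  have hσv : ∀ v : K, E.σ (E.r 0 0 v) = E.D.R 0 0 v := fun v => E.σ_r 0 0 v
  have hσt : ∀ t : K, E.σ (E.r t 0 0) = E.D.R t 0 0 := fun t => E.σ_r t 0 0
  have hUv : ∀ a : K, E.InU1 (E.r 0 0 a) := fun a => E.inU1_r 0 a
  -- the pairing `ω (v, t) = cm (r 0 0 v) (r t 0 0)`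
  have hc : ∀ a b : K, E.σ (cm (E.r 0 0 a) (E.r b 0 0)) = 1 := by
    intro a b
    rw [cm_map, hσv, hσt]
    exact cm_eq_one_iff.mpr (R_U2_comm E.D hn a b 0 0)
  have hl : ∀ a a' b : K, cm (E.r 0 0 (a + a')) (E.r b 0 0) =
      cm (E.r 0 0 a) (E.r b 0 0) * cm (E.r 0 0 a') (E.r b 0 0) := by
    intro a a' b
    have e : E.σ (E.r 0 0 (a + a')) = E.σ (E.r 0 0 a * E.r 0 0 a') := by
      rw [map_mul, hσv, hσv, hσv, R_U1_mul, add_zero]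
    rw [E.cm_congr e rfl]
    exact cm_mul_left_central E (hc a' b)
  have hr : ∀ a b b' : K, cm (E.r 0 0 a) (E.r (b + b') 0 0) =
      cm (E.r 0 0 a) (E.r b 0 0) * cm (E.r 0 0 a) (E.r b' 0 0) := by
    intro a b b'
    obtain ⟨A', hA'⟩ : ∃ A' : K, A' = -(b' ^ (3 ^ (m + 1)) * b) := ⟨_, rfl⟩
    obtain ⟨B', hB'⟩ : ∃ B' : K,
        B' = b' ^ (3 ^ (m + 1)) * b * b' - b' ^ (3 ^ (m + 1)) * b ^ 2 := ⟨_, rfl⟩
    have hmul : E.D.R b 0 0 * E.D.R b' 0 0 = E.D.R (b + b') 0 0 * E.D.R 0 A' B' := by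
      rw [hA', hB']; exact R_t_mul E.D hn b b'
    have e : E.σ (E.r (b + b') 0 0) = E.σ (E.r b 0 0 * E.r b' 0 0 * (E.r 0 A' B')⁻¹) := by
      rw [map_mul, map_mul, map_inv, hσt, hσt, hσt, E.σ_r, hmul, mul_assoc, mul_inv_cancel,
        mul_one]
    rw [E.cm_congr rfl e]
    have hinvU : E.InU1 (E.r 0 A' B')⁻¹ := Ext.InU1.inv E (E.inU1_r A' B')
    rw [cm_mul_right_central E (σ_cm_U1 E (hUv a) hinvU), hS1 _ _ (hUv a) hinvU, mul_one]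
    exact cm_mul_right_central E (hc a b')
  have hαc : ∀ (κ : Kˣ) (a : K), E.σ (E.hh κ * E.r 0 0 a * (E.hh κ)⁻¹) =
      E.σ (E.r 0 0 ((κ : K) ^ (3 ^ (m + 1) + 2) * a)) := by
    intro κ a
    rw [map_mul, map_mul, map_inv, E.σ_hh, hσv, hσv, h_conj_v]
  have hβc : ∀ (κ : Kˣ) (b : K), E.σ (E.hh κ * E.r b 0 0 * (E.hh κ)⁻¹) =
      E.σ (E.r ((κ : K) ^ 1 * b) 0 0) := by
    intro κ b
    rw [map_mul, map_mul, map_inv, E.σ_hh, hσt, hσt, h_conj_t, pow_one]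
  have hω : ∀ a b : K, cm (E.r 0 0 a) (E.r b 0 0) = 1 :=
    pair_triv E _ _ hn2_1 (fun a => E.r 0 0 a) (fun b => E.r b 0 0) hc hl hr hαc hβc
  -- assemble
  obtain ⟨v', hz'⟩ := hz
  obtain ⟨t, u, v, hx'⟩ := hx
  have ez : E.σ z = E.σ (E.r 0 0 v') := by rw [hz', hσv]
  have ex : E.σ x = E.σ (E.r t 0 0 * E.r 0 u v) := by
    rw [hx', map_mul, hσt, E.σ_r, ← R_split1 E.D hn]
  apply cm_eq_one_iff.mp
  rw [E.cm_congr ez ex, cm_mul_right_central E (σ_cm_U1 E (hUv v') (E.inU1_r u v)),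
    hω, hS1 _ _ (hUv v') (E.inU1_r u v), mul_one]

example (hP : StPairs.{u, w}) (h1 : StStep1.{u, v, w}) : StStep2.{u, v, w} := step2 hP h1

end Cfsg.Agent.H5.Rs

#print axioms Cfsg.Agent.H5.Rs.step2
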