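import Mathlib
import Cfsg.Agent.H99.S4Defs

/-!
# S6000-BASIS (team project of helper99)

A symplectic basis `a, b, c, d` of `R` modulo its centre, made of involutions.
-/

set_option autoImplicit false

namespace Cfsg.Agent.H5.S4

open Cfsg.Agent.H99.S4

universe u

theorem basisS : StBasis.{u} := by
  intro F _ R i h2 hS
  classical
  have hfinR : Finite R := Nat.finite_of_card_ne_zero (by rw [hS.card]; norm_num)
  have hi0 : i ≠ 0 := by
    intro h
    have h' := hS.isq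
    rw [h, mul_zero] at h'
    exact one_ne_zero (neg_eq_zero.mp h'.symm)
  obtain ⟨ι, hι⟩ : ∃ ι : G4 F, (ι : M4 F) = i • (1 : M4 F) := by
    refine ⟨⟨i • 1, i⁻¹ • 1, ?_, ?_⟩, rfl⟩
    · rw [Matrix.smul_mul, Matrix.mul_smul, mul_one, smul_smul, mul_inv_cancel₀ hi0, one_smul]
    · rw [Matrix.smul_mul, Matrix.mul_smul, mul_one, smul_smul, inv_mul_cancel₀ hi0, one_smul]
  have hιR : ι ∈ R := hS.imem ι hι
  -- generic matrix facts
  have hT1 : ∀ (X X' Y : M4 F) (s : F), X' = s • X → X * Y = -(Y * X) → X' * Y = -(Y * X') := by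
    intro X X' Y s hX h
    rw [hX, Matrix.smul_mul, Matrix.mul_smul, h, smul_neg]
  have hT2 : ∀ (X X' Y : M4 F) (s : F), X' = s • X → X * Y = Y * X → X' * Y = Y * X' := by
    intro X X' Y s hX h
    rw [hX, Matrix.smul_mul, Matrix.mul_smul, h]
  have hsymm : ∀ X Y : M4 F, X * Y = -(Y * X) → Y * X = -(X * Y) := by
    intro X Y h
    rw [h, neg_neg]
  -- normalisation of squares
  have hnorm : ∀ x ∈ R, ∃ x' ∈ R, ∃ s : F, (x' : M4 F) = s • (x : M4 F) ∧
      (x' : M4 F) * (x' : M4 F) = 1 := by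
    intro x hx
    rcases hS.sq x hx with h | h
    · exact ⟨x, hx, 1, by rw [one_smul], h⟩
    · refine ⟨ι * x, R.mul_mem hιR hx, i, ?_, ?_⟩
      · rw [Units.val_mul, hι, Matrix.smul_mul, one_mul]
      · rw [Units.val_mul, hι, Matrix.smul_mul, one_mul, Matrix.smul_mul, Matrix.mul_smul,
          smul_smul, h, hS.isq, neg_smul, one_smul, neg_neg]
  -- a non-scalar element has an anticommuting partner
  have hpartner : ∀ x ∈ R, (∀ k : ℕ, (x : M4 F) ≠ i ^ k • (1 : M4 F)) →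
      ∃ y ∈ R, (x : M4 F) * (y : M4 F) = -((y : M4 F) * (x : M4 F)) := by
    intro x hxR hx
    have hnc : ¬ ∀ y ∈ R, (x : M4 F) * (y : M4 F) = (y : M4 F) * (x : M4 F) := by
      intro h
      obtain ⟨k, hk⟩ := hS.cent x hxR h
      exact hx k hk
    obtain ⟨y, hy'⟩ := not_forall.mp hnc
    obtain ⟨hyR, hy⟩ := Classical.not_imp.mp hy'
    rcases hS.comm x hxR y hyR with h | h
    · exact absurd h hy
    · exact ⟨y, hyR, h⟩
  -- a non-scalar element exists
  have hex : ∃ a₀ ∈ R, ∀ k : ℕ, (a₀ : M4 F) ≠ i ^ k • (1 : M4 F) := by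
    by_contra hcon
    have hall : ∀ x ∈ R, ∃ k : ℕ, (x : M4 F) = i ^ k • (1 : M4 F) := by
      intro x hx
      by_contra hk
      exact hcon ⟨x, hx, fun k hk' => hk ⟨k, hk'⟩⟩
    obtain ⟨c, hc⟩ := hS.commutant (Matrix.single (0 : Fin 4) (1 : Fin 4) (1 : F)) (fun x hx => by
      obtain ⟨k, hk⟩ := hall x hx
      rw [hk, Matrix.smul_mul, Matrix.mul_smul, one_mul, mul_one])
    have h01 := congrFun (congrFun hc 0) 1
    simp at h01
  obtain ⟨a₀, ha₀R, ha₀⟩ := hex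
  obtain ⟨b₀, hb₀R, hab₀⟩ := hpartner a₀ ha₀R ha₀
  obtain ⟨a, haR, sa, hsa, haa⟩ := hnorm a₀ ha₀R
  obtain ⟨b, hbR, sb, hsb, hbb⟩ := hnorm b₀ hb₀R
  have hab : (a : M4 F) * (b : M4 F) = -((b : M4 F) * (a : M4 F)) := by
    have h1 : (a : M4 F) * (b₀ : M4 F) = -((b₀ : M4 F) * (a : M4 F)) := hT1 _ _ _ sa hsa hab₀
    have h3 := hT1 _ _ _ sb hsb (hsymm _ _ h1)
    exact hsymm _ _ h3
  have hba : (b : M4 F) * (a : M4 F) = -((a : M4 F) * (b : M4 F)) := hsymm _ _ hab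
  -- the correction functions
  obtain ⟨Bf, hBf⟩ : ∃ Bf : G4 F → G4 F, ∀ h : G4 F,
      Bf h = if (h : M4 F) * (a : M4 F) = (a : M4 F) * (h : M4 F) then 1 else b :=
    ⟨_, fun _ => rfl⟩
  obtain ⟨Ae, hAe⟩ : ∃ Ae : G4 F → G4 F, ∀ h : G4 F,
      Ae h = if ((h * Bf h : G4 F) : M4 F) * (b : M4 F) = (b : M4 F) * ((h * Bf h : G4 F) : M4 F)
        then 1 else a :=
    ⟨_, fun _ => rfl⟩
  have hBfmem : ∀ h : G4 F, Bf h = 1 ∨ Bf h = b := by
    intro h
    rw [hBf]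
    split_ifs
    · exact Or.inl rfl
    · exact Or.inr rfl
  have hAemem : ∀ h : G4 F, Ae h = 1 ∨ Ae h = a := by
    intro h
    rw [hAe]
    split_ifs
    · exact Or.inl rfl
    · exact Or.inr rfl
  -- `h * Bf h` commutes with `a`
  have hp1 : ∀ h ∈ R, h * Bf h ∈ R ∧
      ((h * Bf h : G4 F) : M4 F) * (a : M4 F) = (a : M4 F) * ((h * Bf h : G4 F) : M4 F) := by
    intro h hh
    by_cases hc : (h : M4 F) * (a : M4 F) = (a : M4 F) * (h : M4 F)
    · have e : Bf h = 1 := by rw [hBf, if_pos hc]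
      rw [e, mul_one]
      exact ⟨hh, hc⟩
    · have e : Bf h = b := by rw [hBf, if_neg hc]
      have hanti : (h : M4 F) * (a : M4 F) = -((a : M4 F) * (h : M4 F)) := by
        rcases hS.comm h hh a haR with h' | h'
        · exact absurd h' hc
        · exact h'
      rw [e]
      refine ⟨R.mul_mem hh hbR, ?_⟩
      rw [Units.val_mul]
      calc (h : M4 F) * (b : M4 F) * (a : M4 F) = (h : M4 F) * ((b : M4 F) * (a : M4 F)) := by
            rw [mul_assoc]
        _ = -((h : M4 F) * (a : M4 F) * (b : M4 F)) := by rw [hba, mul_neg, mul_assoc]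
        _ = (a : M4 F) * ((h : M4 F) * (b : M4 F)) := by rw [hanti, neg_mul, neg_neg, mul_assoc]
  -- `h * Bf h * Ae h` commutes with `a` and `b`
  have hp2 : ∀ h ∈ R, h * Bf h * Ae h ∈ R ∧
      ((h * Bf h * Ae h : G4 F) : M4 F) * (a : M4 F) =
        (a : M4 F) * ((h * Bf h * Ae h : G4 F) : M4 F) ∧
      ((h * Bf h * Ae h : G4 F) : M4 F) * (b : M4 F) =
        (b : M4 F) * ((h * Bf h * Ae h : G4 F) : M4 F) := by
    intro h hh
    obtain ⟨h1R, h1a⟩ := hp1 h hh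
    obtain ⟨k, hk⟩ : ∃ k : G4 F, k = h * Bf h := ⟨_, rfl⟩
    rw [← hk] at h1R h1a ⊢
    by_cases hc : (k : M4 F) * (b : M4 F) = (b : M4 F) * (k : M4 F)
    · have e : Ae h = 1 := by rw [hAe, ← hk, if_pos hc]
      rw [e, mul_one]
      exact ⟨h1R, h1a, hc⟩
    · have e : Ae h = a := by rw [hAe, ← hk, if_neg hc]
      have hanti : (k : M4 F) * (b : M4 F) = -((b : M4 F) * (k : M4 F)) := by
        rcases hS.comm k h1R b hbR with h' | h'
        · exact absurd h' hc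
        · exact h'
      rw [e]
      refine ⟨R.mul_mem h1R haR, ?_, ?_⟩
      · rw [Units.val_mul]
        calc (k : M4 F) * (a : M4 F) * (a : M4 F) = (a : M4 F) * (k : M4 F) * (a : M4 F) := by
              rw [h1a]
          _ = (a : M4 F) * ((k : M4 F) * (a : M4 F)) := by rw [mul_assoc]
      · rw [Units.val_mul]
        calc (k : M4 F) * (a : M4 F) * (b : M4 F) = (k : M4 F) * ((a : M4 F) * (b : M4 F)) := by
              rw [mul_assoc]
          _ = -((k : M4 F) * (b : M4 F) * (a : M4 F)) := by rw [hab, mul_neg, mul_assoc]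
          _ = (b : M4 F) * ((k : M4 F) * (a : M4 F)) := by
              rw [hanti, neg_mul, neg_neg, mul_assoc]
  -- a non-scalar element commuting with `a` and `b`
  have hexc : ∃ c₀ ∈ R, (c₀ : M4 F) * (a : M4 F) = (a : M4 F) * (c₀ : M4 F) ∧
      (c₀ : M4 F) * (b : M4 F) = (b : M4 F) * (c₀ : M4 F) ∧
      ∀ k : ℕ, (c₀ : M4 F) ≠ i ^ k • (1 : M4 F) := by
    by_contra hcon
    have hall : ∀ h ∈ R, (h : M4 F) * (a : M4 F) = (a : M4 F) * (h : M4 F) →
        (h : M4 F) * (b : M4 F) = (b : M4 F) * (h : M4 F) →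
        ∃ k : ℕ, (h : M4 F) = i ^ k • (1 : M4 F) := by
      intro h hh h1 h2'
      by_contra hk
      exact hcon ⟨h, hh, h1, h2', fun k hk' => hk ⟨k, hk'⟩⟩
    have hpow : ∀ k : ℕ, i ^ k = 1 ∨ i ^ k = -1 ∨ i ^ k = i ∨ i ^ k = -i := by
      intro k
      induction k with
      | zero => left; exact pow_zero i
      | succ k ih =>
        rw [pow_succ]
        rcases ih with h | h | h | h
        · right; right; left; rw [h, one_mul]
        · right; right; right; rw [h, neg_mul, one_mul]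
        · right; left; rw [h, hS.isq]
        · left; rw [h, neg_mul, hS.isq, neg_neg]
    let instR : Fintype R := Fintype.ofFinite R
    obtain ⟨Φ, hΦ⟩ : ∃ Φ : R → F × (G4 F × G4 F), ∀ h : R,
        Φ h = (((h * Bf h * Ae h : G4 F) : M4 F) 0 0, (Bf h, Ae h)) := ⟨_, fun _ => rfl⟩
    have hmaps : ∀ h ∈ (Finset.univ : Finset R),
        Φ h ∈ ({1, -1, i, -i} : Finset F) ×ˢ (({1, b} : Finset (G4 F)) ×ˢ ({1, a} : Finset (G4 F))) := by
      intro h _
      obtain ⟨hR2, h2a, h2b⟩ := hp2 h h.2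
      obtain ⟨k, hk⟩ := hall _ hR2 h2a h2b
      rw [hΦ, Finset.mem_product, Finset.mem_product]
      refine ⟨?_, ?_, ?_⟩
      · show ((((h : G4 F) * Bf h * Ae h : G4 F) : M4 F) 0 0) ∈ ({1, -1, i, -i} : Finset F)
        rw [hk]
        simp only [Matrix.smul_apply, Matrix.one_apply_eq, smul_eq_mul, mul_one,
          Finset.mem_insert, Finset.mem_singleton]
        exact hpow k
      · show Bf h ∈ ({1, b} : Finset (G4 F))
        simp only [Finset.mem_insert, Finset.mem_singleton]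
        exact hBfmem h
      · show Ae h ∈ ({1, a} : Finset (G4 F))
        simp only [Finset.mem_insert, Finset.mem_singleton]
        exact hAemem h
    have hinj : Set.InjOn Φ ((Finset.univ : Finset R) : Set R) := by
      intro h _ k _ hhk
      rw [hΦ, hΦ] at hhk
      have e1 := congrArg Prod.fst hhk
      have e2 := congrArg (fun p : F × (G4 F × G4 F) => p.2.1) hhk
      have e3 := congrArg (fun p : F × (G4 F × G4 F) => p.2.2) hhk
      simp only at e1 e2 e3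
      obtain ⟨hR2, h2a, h2b⟩ := hp2 h h.2
      obtain ⟨kR2, k2a, k2b⟩ := hp2 k k.2
      obtain ⟨n1, hn1⟩ := hall _ hR2 h2a h2b
      obtain ⟨n2, hn2⟩ := hall _ kR2 k2a k2b
      have e4 : i ^ n1 = i ^ n2 := by
        rw [hn1, hn2] at e1
        simpa using e1
      have e5 : (h : G4 F) * Bf h * Ae h = (k : G4 F) * Bf k * Ae k := by
        apply Units.ext
        rw [hn1, hn2, e4]
      rw [e2, e3] at e5
      exact Subtype.ext (mul_right_cancel (mul_right_cancel e5))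
    have hcard := Finset.card_le_card_of_injOn Φ hmaps hinj
    rw [Finset.card_univ, ← Nat.card_eq_fintype_card, hS.card, Finset.card_product,
      Finset.card_product] at hcard
    have c1 : ({1, -1, i, -i} : Finset F).card ≤ 4 := Finset.card_le_four
    have c2 : ({1, b} : Finset (G4 F)).card ≤ 2 := Finset.card_le_two
    have c3 : ({1, a} : Finset (G4 F)).card ≤ 2 := Finset.card_le_two
    have c4 : ({1, -1, i, -i} : Finset F).card *
        (({1, b} : Finset (G4 F)).card * ({1, a} : Finset (G4 F)).card) ≤ 4 * (2 * 2) :=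
      Nat.mul_le_mul c1 (Nat.mul_le_mul c2 c3)
    omega
  obtain ⟨c₀, hc₀R, hc₀a, hc₀b, hc₀⟩ := hexc
  obtain ⟨d₀, hd₀R, hcd₀⟩ := hpartner c₀ hc₀R hc₀
  -- the corrected `d`
  obtain ⟨d₁, hd₁⟩ : ∃ d₁ : G4 F, d₁ = d₀ * Bf d₀ * Ae d₀ := ⟨_, rfl⟩
  obtain ⟨hd₁R, hd₁a, hd₁b⟩ := hp2 d₀ hd₀R
  rw [← hd₁] at hd₁R hd₁a hd₁b
  have hcB : (c₀ : M4 F) * ((Bf d₀ : G4 F) : M4 F) = ((Bf d₀ : G4 F) : M4 F) * (c₀ : M4 F) := by
    rcases hBfmem d₀ with h | h
    · rw [h, Units.val_one, mul_one, one_mul]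
    · rw [h]
      exact hc₀b
  have hcA : (c₀ : M4 F) * ((Ae d₀ : G4 F) : M4 F) = ((Ae d₀ : G4 F) : M4 F) * (c₀ : M4 F) := by
    rcases hAemem d₀ with h | h
    · rw [h, Units.val_one, mul_one, one_mul]
    · rw [h]
      exact hc₀a
  have hcd₁ : (c₀ : M4 F) * (d₁ : M4 F) = -((d₁ : M4 F) * (c₀ : M4 F)) := by
    rw [hd₁, Units.val_mul, Units.val_mul]
    calc (c₀ : M4 F) * ((d₀ : M4 F) * ((Bf d₀ : G4 F) : M4 F) * ((Ae d₀ : G4 F) : M4 F))
        = ((c₀ : M4 F) * (d₀ : M4 F)) * ((Bf d₀ : G4 F) : M4 F) * ((Ae d₀ : G4 F) : M4 F) := by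
          simp only [mul_assoc]
      _ = -((d₀ : M4 F) * ((c₀ : M4 F) * ((Bf d₀ : G4 F) : M4 F)) * ((Ae d₀ : G4 F) : M4 F)) := by
          rw [hcd₀, neg_mul, neg_mul, mul_assoc (d₀ : M4 F)]
      _ = -((d₀ : M4 F) * ((Bf d₀ : G4 F) : M4 F) * ((c₀ : M4 F) * ((Ae d₀ : G4 F) : M4 F))) := by
          rw [hcB]
          simp only [mul_assoc]
      _ = -((d₀ : M4 F) * ((Bf d₀ : G4 F) : M4 F) * ((Ae d₀ : G4 F) : M4 F) * (c₀ : M4 F)) := by
          rw [hcA]
          simp only [mul_assoc]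
  obtain ⟨c, hcR, sc, hsc, hcc⟩ := hnorm c₀ hc₀R
  obtain ⟨d, hdR, sd, hsd, hdd⟩ := hnorm d₁ hd₁R
  have hcdf : (c : M4 F) * (d : M4 F) = -((d : M4 F) * (c : M4 F)) := by
    have h1 : (c : M4 F) * (d₁ : M4 F) = -((d₁ : M4 F) * (c : M4 F)) := hT1 _ _ _ sc hsc hcd₁
    have h3 := hT1 _ _ _ sd hsd (hsymm _ _ h1)
    exact hsymm _ _ h3
  have hca : (c : M4 F) * (a : M4 F) = (a : M4 F) * (c : M4 F) := hT2 _ _ _ sc hsc hc₀a
  have hcb : (c : M4 F) * (b : M4 F) = (b : M4 F) * (c : M4 F) := hT2 _ _ _ sc hsc hc₀b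
  have hda : (d : M4 F) * (a : M4 F) = (a : M4 F) * (d : M4 F) := hT2 _ _ _ sd hsd hd₁a
  have hdb : (d : M4 F) * (b : M4 F) = (b : M4 F) * (d : M4 F) := hT2 _ _ _ sd hsd hd₁b
  exact ⟨a, b, c, d, ⟨haR, hbR, hcR, hdR, haa, hbb, hcc, hdd, hab, hcdf, hca.symm, hda.symm,
    hcb.symm, hdb.symm⟩⟩

example : StBasis.{u} := basisS

end Cfsg.Agent.H5.S4

#print axioms Cfsg.Agent.H5.S4.basisS
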