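import Mathlib
import Cfsg.Agent.H99.S4Defs

/-!
# S6000-CENT (team project of helper99)

The possible sizes of `C_R(y)`: `y` is scalar or `|C_R(y)| ∈ {4, 8, 16, 32}`.
-/

set_option autoImplicit false

namespace Cfsg.Agent.H5.S4

open Cfsg.Agent.H99.S4

universe u

theorem centS : StCent.{u} := by
  intro F _ R i h2 hS y
  classical
  have hfinR : Finite R := Nat.finite_of_card_ne_zero (by rw [hS.card]; norm_num)
  have hi0 : i ≠ 0 := by
    intro h
    have h' := hS.isq
    rw [h, mul_zero] at h'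
    exact one_ne_zero (neg_eq_zero.mp h'.symm)
  -- the scalar `i` as an element of `GL_4`
  obtain ⟨ι, hι⟩ : ∃ ι : G4 F, (ι : M4 F) = i • (1 : M4 F) := by
    refine ⟨⟨i • 1, i⁻¹ • 1, ?_, ?_⟩, rfl⟩
    · rw [Matrix.smul_mul, Matrix.mul_smul, mul_one, smul_smul, mul_inv_cancel₀ hi0, one_smul]
    · rw [Matrix.smul_mul, Matrix.mul_smul, mul_one, smul_smul, inv_mul_cancel₀ hi0, one_smul]
  have hιR : ι ∈ R := hS.imem ι hι
  obtain ⟨C, hC⟩ : ∃ C : Subgroup (G4 F), C = R ⊓ Subgroup.centralizer {y} := ⟨_, rfl⟩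
  have hιC : ι ∈ C := by
    rw [hC, Subgroup.mem_inf]
    refine ⟨hιR, ?_⟩
    rw [Subgroup.mem_centralizer_singleton_iff]
    apply Units.ext
    rw [Units.val_mul, Units.val_mul, hι, Matrix.smul_mul, Matrix.mul_smul, one_mul, mul_one]
  have hιsq : ι * ι = -1 := by
    apply Units.ext
    rw [Units.val_mul, hι, Matrix.smul_mul, Matrix.mul_smul, mul_one, smul_smul, hS.isq,
      Units.val_neg, Units.val_one, neg_smul, one_smul]
  have hι2 : ¬ ι ^ 2 ^ 1 = 1 := by
    intro h
    rw [pow_one, pow_two, hιsq] at h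
    have h' := congrArg (fun g : G4 F => (g : M4 F) 0 0) h
    simp only [Units.val_neg, Units.val_one, Matrix.neg_apply, Matrix.one_apply_eq] at h'
    apply h2
    linear_combination -h'
  have hι4 : ι ^ 2 ^ (1 + 1) = 1 := by
    have e4 : (2 : ℕ) ^ (1 + 1) = 2 + 2 := by norm_num
    rw [e4, pow_add, pow_two, hιsq, neg_mul_neg, one_mul]
  have hord : orderOf ι = 2 ^ (1 + 1) := orderOf_eq_prime_pow hι2 hι4
  have h4dvd : 4 ∣ Nat.card C := by
    have h' := orderOf_dvd_natCard (⟨ι, hιC⟩ : C)
    rw [Subgroup.orderOf_mk, hord] at h'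
    exact h'
  have hCR : C ≤ R := by
    rw [hC]
    exact inf_le_left
  have hdvd64 : Nat.card C ∣ 2 ^ 6 := by
    have h' := Subgroup.card_dvd_of_le hCR
    rw [hS.card] at h'
    exact h'
  have hcardeq : Nat.card (CentR R y) = Nat.card C := by
    apply Nat.card_congr
    exact Equiv.subtypeEquivRight (fun h => by
      rw [hC, Subgroup.mem_inf, Subgroup.mem_centralizer_singleton_iff]
      constructor
      · rintro ⟨h1, h3⟩
        exact ⟨h1, h3.symm⟩
      · rintro ⟨h1, h3⟩
        exact ⟨h1, h3.symm⟩)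
  rw [hcardeq]
  obtain ⟨k, hk, hk2⟩ := (Nat.dvd_prime_pow Nat.prime_two).1 hdvd64
  rw [hk2] at h4dvd
  interval_cases k
  · exfalso
    omega
  · exfalso
    omega
  · right; left; rw [hk2]; norm_num
  · right; right; left; rw [hk2]; norm_num
  · right; right; right; left; rw [hk2]; norm_num
  · right; right; right; right; rw [hk2]; norm_num
  · left
    have hCeq : C = R := Subgroup.eq_of_le_of_card_ge hCR (by rw [hk2, hS.card]; norm_num)
    apply hS.commutant
    intro x hxR
    have hxC : x ∈ C := by rw [hCeq]; exact hxR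
    rw [hC] at hxC
    have h' := (Subgroup.mem_centralizer_singleton_iff.mp hxC.2)
    have h'' := congrArg (fun g : G4 F => (g : M4 F)) h'
    simp only [Units.val_mul] at h''
    exact h''.symm

example : StCent.{u} := centS

end Cfsg.Agent.H5.S4

#print axioms Cfsg.Agent.H5.S4.centS
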