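import Mathlib
import Cfsg.Agent.H99.S4Defs

/-!
# S6000-FIX (team project of helper99)

Orbit counting: for `y` in the normaliser of `R` with `y ^ r` scalar, `r` prime,
`r ∣ 64 - |C_R(y)|`.
-/

set_option autoImplicit false

namespace Cfsg.Agent.H5.S4

open Cfsg.Agent.H99.S4

universe u

theorem fixS : StFix.{u} := by
  intro F _ R i h2 hS y hy r z hr hyr
  classical
  have hfinR : Finite R := Nat.finite_of_card_ne_zero (by rw [hS.card]; norm_num)
  let instR : Fintype R := Fintype.ofFinite R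
  have hrfact : Fact r.Prime := ⟨hr⟩
  have hyN : ∀ h : G4 F, h ∈ R → y * h * y⁻¹ ∈ R := fun h hh =>
    (Subgroup.mem_set_normalizer_iff.mp hy h).mp hh
  -- `y ^ r` is central
  have hcentral : ∀ h : G4 F, y ^ r * h = h * y ^ r := by
    intro h
    apply Units.ext
    rw [Units.val_mul, Units.val_mul, Units.val_pow_eq_pow_val, hyr, Matrix.smul_mul,
      Matrix.mul_smul, one_mul, mul_one]
  obtain ⟨f, hf⟩ : ∃ f : Function.End R, ∀ h : R, ((f h : R) : G4 F) = y * h * y⁻¹ :=
    ⟨fun h => ⟨y * h * y⁻¹, hyN h h.2⟩, fun _ => rfl⟩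
  have hpow : ∀ n : ℕ, ∀ h : R, (((f ^ n) h : R) : G4 F) = y ^ n * h * (y ^ n)⁻¹ := by
    intro n
    induction n with
    | zero =>
      intro h
      rw [pow_zero, pow_zero, one_mul, inv_one, mul_one]
      rfl
    | succ n ih =>
      intro h
      have e1 : (f ^ (n + 1)) h = f ((f ^ n) h) := by
        rw [pow_succ']
        rfl
      rw [e1, hf, ih, pow_succ']
      group
  have hfr : f ^ r ^ 1 = 1 := by
    rw [pow_one]
    funext h
    apply Subtype.ext
    rw [hpow, hcentral, mul_inv_cancel_right]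
    rfl
  have hmod := Equiv.Perm.card_fixedPoints_modEq (f := f) (p := r) (n := 1) hfr
  have hcardR : Fintype.card R = 64 := by
    rw [← Nat.card_eq_fintype_card, hS.card]
  obtain ⟨e⟩ : Nonempty (↥(Function.fixedPoints f) ≃ {h : G4 F // h ∈ R ∧ y * h = h * y}) :=
    ⟨{ toFun := fun h => ⟨h.1.1, h.1.2, by
          have h' : f h.1 = h.1 := h.2
          have h'' := congrArg (fun g : R => (g : G4 F)) h'
          simp only [hf] at h''
          exact mul_inv_eq_iff_eq_mul.mp h''⟩
       invFun := fun h => ⟨⟨h.1, h.2.1⟩, by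
          show f ⟨h.1, h.2.1⟩ = ⟨h.1, h.2.1⟩
          apply Subtype.ext
          rw [hf]
          exact mul_inv_eq_iff_eq_mul.mpr h.2.2⟩
       left_inv := fun h => Subtype.ext (Subtype.ext rfl)
       right_inv := fun h => Subtype.ext rfl }⟩
  have hle : Nat.card (CentR R y) ≤ 64 := by
    rw [← hS.card]
    exact Nat.card_le_card_of_injective
      (fun h : {h : G4 F // h ∈ R ∧ y * h = h * y} => (⟨h.1, h.2.1⟩ : R))
      (fun a b hab => Subtype.ext (congrArg (fun g : R => (g : G4 F)) hab))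
  have hgen : ∀ inst : Fintype ↥(Function.fixedPoints f),
      @Fintype.card _ inst = Nat.card ↥(Function.fixedPoints f) :=
    fun inst => (@Nat.card_eq_fintype_card _ inst).symm
  have key : ∃ c : ℕ, Fintype.card R ≡ c [MOD r] ∧ c = Nat.card (CentR R y) :=
    ⟨_, hmod, (hgen _).trans (Nat.card_congr e)⟩
  obtain ⟨c, hc1, hc2⟩ := key
  rw [hcardR, hc2] at hc1
  exact (Nat.modEq_iff_dvd' hle).mp hc1.symm

example : StFix.{u} := fixS

end Cfsg.Agent.H5.S4

#print axioms Cfsg.Agent.H5.S4.fixS
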