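import Mathlib
import Cfsg.Agent.H99.S4Defs

/-!
# S6000-MAT (team project of helper99)

The hypotheses of S6000 on `R` give the structure `IsS4 R i`, given the two abstract
group-theoretic statements `StGrpA` (commutators are central) and `StGrpB` (squares are central).
-/

set_option autoImplicit false

namespace Cfsg.Agent.H5.S4

open Cfsg.Agent.H99.S4

universe u

theorem matS (hA : StGrpA.{u}) (hB : StGrpB.{u}) : StMat.{u} := by
  intro F _ _ R i hi h2 hdata hcard
  classical
  have hsym := hdata.symplecticType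
  have habs := hdata.absIrred
  have hcen : Nat.card (Subgroup.center R) = 4 := by
    obtain ⟨p, e, hp, hmin, hcases⟩ := hdata.field
    rcases hcases with ⟨hodd, _⟩ | ⟨_, _, h4, _⟩ | ⟨_, _, hcard2, _⟩
    · exact absurd hodd (by decide)
    · exact h4
    · simp at hcard2
  have hfin : Finite R := Nat.finite_of_card_ne_zero (by rw [hcard]; norm_num)
  have hexp : ∀ x : R, x ^ 4 = 1 := by
    intro x
    have h := Monoid.pow_exponent_eq_one x
    rw [hsym.exponent_eq] at h
    exact h
  have hc64 : Nat.card R = 64 := by rw [hcard]; norm_num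
  have hAR := hA R hc64 hcen hexp hsym.cyclic_of_characteristic
  have hBR := hB R hc64 hcen hexp hsym.cyclic_of_characteristic hAR
  -- central elements are scalars `1, -1, i, -i`
  have hscal : ∀ z : R, z ∈ Subgroup.center R → ∃ c : F,
      ((z : G4 F) : M4 F) = c • (1 : M4 F) ∧ (c = 1 ∨ c = -1 ∨ c = i ∨ c = -i) := by
    intro z hz
    obtain ⟨c, hc⟩ := habs.2 ((z : G4 F) : M4 F) (by
      rintro s ⟨g, hg, rfl⟩
      have h := Subgroup.mem_center_iff.mp hz ⟨g, hg⟩
      have h' := congrArg (fun r : R => ((r : G4 F) : M4 F)) h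
      simpa using h'.symm)
    refine ⟨c, hc, ?_⟩
    have h4 : c ^ 4 = 1 := by
      have h' := congrArg (fun r : R => ((r : G4 F) : M4 F)) (hexp z)
      simp only [Subgroup.coe_pow, Units.val_pow_eq_pow_val, Subgroup.coe_one,
        Units.val_one] at h'
      rw [hc, smul_pow, one_pow] at h'
      have h00 := congrFun (congrFun h' 0) 0
      simpa using h00
    have hfac : (c - 1) * (c + 1) * (c - i) * (c + i) = 0 := by
      linear_combination h4 - (c ^ 2 - 1) * hi
    rcases mul_eq_zero.mp hfac with h | h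
    · rcases mul_eq_zero.mp h with h | h
      · rcases mul_eq_zero.mp h with h | h
        · left
          linear_combination h
        · right; left
          linear_combination h
      · right; right; left
        linear_combination h
    · right; right; right
      linear_combination h
  have hmemc : ∀ x : G4 F, ∀ hx : x ∈ R,
      (∀ y ∈ R, (x : M4 F) * (y : M4 F) = (y : M4 F) * (x : M4 F)) →
      (⟨x, hx⟩ : R) ∈ Subgroup.center R := by
    intro x hx hxy
    refine Subgroup.mem_center_iff.mpr (fun g => Subtype.ext (Units.ext ?_))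
    rw [Subgroup.coe_mul, Subgroup.coe_mul, Units.val_mul, Units.val_mul]
    exact (hxy g g.2).symm
  -- cent
  have hcent : ∀ x ∈ R, (∀ y ∈ R, (x : M4 F) * (y : M4 F) = (y : M4 F) * (x : M4 F)) →
      ∃ k : ℕ, (x : M4 F) = i ^ k • (1 : M4 F) := by
    intro x hx hxy
    obtain ⟨c, hc, hcases⟩ := hscal ⟨x, hx⟩ (hmemc x hx hxy)
    have hc' : (x : M4 F) = c • (1 : M4 F) := hc
    rcases hcases with h | h | h | h
    · exact ⟨0, by rw [hc', h, pow_zero]⟩
    · exact ⟨2, by rw [hc', h, pow_two, hi]⟩
    · exact ⟨1, by rw [hc', h, pow_one]⟩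
    · refine ⟨3, ?_⟩
      rw [hc', h]
      congr 1
      have e3 : i ^ 3 = i * i * i := by ring
      rw [e3, hi]
      ring
  -- imem
  have himem : ∀ x : G4 F, (x : M4 F) = i • (1 : M4 F) → x ∈ R := by
    intro x hx
    let instC : Fintype (Subgroup.center R) := Fintype.ofFinite _
    obtain ⟨φ, hφdef⟩ : ∃ φ : Subgroup.center R → F,
        ∀ z, φ z = (((z : R) : G4 F) : M4 F) 0 0 := ⟨fun z => (((z : R) : G4 F) : M4 F) 0 0,
          fun _ => rfl⟩
    have hφc : ∀ z : Subgroup.center R, ∀ c : F, (((z : R) : G4 F) : M4 F) = c • (1 : M4 F) →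
        φ z = c := by
      intro z c hc
      rw [hφdef, hc]
      simp
    have hφ : ∀ z : Subgroup.center R, (((z : R) : G4 F) : M4 F) = φ z • (1 : M4 F) := by
      intro z
      obtain ⟨c, hc, _⟩ := hscal z z.2
      rw [hφc z c hc]
      exact hc
    have hφinj : Function.Injective φ := by
      intro z w hzw
      apply Subtype.ext
      apply Subtype.ext
      apply Units.ext
      rw [hφ z, hφ w, hzw]
    have hsub : Finset.image φ Finset.univ ⊆ ({1, -1, i, -i} : Finset F) := by
      intro c hc
      obtain ⟨z, _, rfl⟩ := Finset.mem_image.mp hc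
      obtain ⟨c, hc, hcases⟩ := hscal z z.2
      rw [hφc z c hc]
      simp only [Finset.mem_insert, Finset.mem_singleton]
      exact hcases
    have hcardimg : (Finset.image φ Finset.univ).card = 4 := by
      rw [Finset.card_image_of_injective _ hφinj, Finset.card_univ, ← Nat.card_eq_fintype_card,
        hcen]
    have heq := Finset.eq_of_subset_of_card_le hsub (by
      rw [hcardimg]
      exact Finset.card_le_four)
    have hi_mem : i ∈ Finset.image φ Finset.univ := by
      rw [heq]
      simp
    obtain ⟨z, _, hz⟩ := Finset.mem_image.mp hi_mem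
    have hxz : x = ((z : R) : G4 F) := Units.ext (by rw [hx, hφ z, hz])
    rw [hxz]
    exact (z : R).2
  -- sq
  have hsq : ∀ x ∈ R, (x : M4 F) * (x : M4 F) = 1 ∨ (x : M4 F) * (x : M4 F) = -1 := by
    intro x hx
    obtain ⟨xr, hxr⟩ : ∃ xr : R, (xr : G4 F) = x := ⟨⟨x, hx⟩, rfl⟩
    obtain ⟨c, hc, _⟩ := hscal (xr * xr) (hBR xr)
    have hc' : (x : M4 F) * (x : M4 F) = c • (1 : M4 F) := by
      have h := hc
      simp only [Subgroup.coe_mul, Units.val_mul, hxr] at h
      exact h
    have h4 := congrArg (fun r : R => ((r : G4 F) : M4 F)) (hexp xr)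
    simp only [Subgroup.coe_pow, Units.val_pow_eq_pow_val, Subgroup.coe_one,
      Units.val_one, hxr] at h4
    have h4' : ((x : M4 F) * (x : M4 F)) * ((x : M4 F) * (x : M4 F)) = 1 := by
      rw [← h4]
      noncomm_ring
    rw [hc', Matrix.smul_mul, Matrix.mul_smul, mul_one, smul_smul] at h4'
    have h00 := congrFun (congrFun h4' 0) 0
    simp at h00
    have hf : (c - 1) * (c + 1) = 0 := by linear_combination h00
    rcases mul_eq_zero.mp hf with h | h
    · left
      rw [hc', show c = 1 by linear_combination h, one_smul]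
    · right
      rw [hc', show c = -1 by linear_combination h, neg_smul, one_smul]
  -- comm
  have hcm : ∀ x ∈ R, ∀ y ∈ R, (x : M4 F) * (y : M4 F) = (y : M4 F) * (x : M4 F) ∨
      (x : M4 F) * (y : M4 F) = -((y : M4 F) * (x : M4 F)) := by
    intro x hx y hy
    obtain ⟨xr, hxr⟩ : ∃ xr : R, (xr : G4 F) = x := ⟨⟨x, hx⟩, rfl⟩
    obtain ⟨yr, hyr⟩ : ∃ yr : R, (yr : G4 F) = y := ⟨⟨y, hy⟩, rfl⟩
    obtain ⟨c, hc, _⟩ := hscal (xr * yr * xr⁻¹ * yr⁻¹) (hAR xr yr)
    have hc' : (x : M4 F) * (y : M4 F) * ((x⁻¹ : G4 F) : M4 F) * ((y⁻¹ : G4 F) : M4 F) =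
        c • (1 : M4 F) := by
      have h := hc
      simp only [Subgroup.coe_mul, Subgroup.coe_inv, Units.val_mul, hxr, hyr] at h
      exact h
    have hxy : (x : M4 F) * (y : M4 F) = c • ((y : M4 F) * (x : M4 F)) := by
      have hu : x * y = x * y * x⁻¹ * y⁻¹ * (y * x) := by group
      have hm := congrArg (fun g : G4 F => (g : M4 F)) hu
      simp only [Units.val_mul] at hm
      rw [hm, hc', Matrix.smul_mul, one_mul]
    -- `x * x` is central
    have hxx : (x : M4 F) * (x : M4 F) * (y : M4 F) = (y : M4 F) * ((x : M4 F) * (x : M4 F)) := by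
      have h := Subgroup.mem_center_iff.mp (hBR xr) yr
      have h' := congrArg (fun r : R => ((r : G4 F) : M4 F)) h
      simp only [Subgroup.coe_mul, Units.val_mul, hxr, hyr] at h'
      exact h'.symm
    have hcc : c * c = 1 := by
      have e1 : (x : M4 F) * (x : M4 F) * (y : M4 F) =
          (c * c) • ((y : M4 F) * ((x : M4 F) * (x : M4 F))) := by
        calc (x : M4 F) * (x : M4 F) * (y : M4 F) = (x : M4 F) * ((x : M4 F) * (y : M4 F)) := by
              rw [mul_assoc]
          _ = (x : M4 F) * (c • ((y : M4 F) * (x : M4 F))) := by rw [hxy]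
          _ = c • (((x : M4 F) * (y : M4 F)) * (x : M4 F)) := by
              rw [Matrix.mul_smul, mul_assoc]
          _ = c • ((c • ((y : M4 F) * (x : M4 F))) * (x : M4 F)) := by rw [hxy]
          _ = (c * c) • ((y : M4 F) * ((x : M4 F) * (x : M4 F))) := by
              rw [Matrix.smul_mul, smul_smul, mul_assoc]
      rw [hxx] at e1
      -- multiply by the inverse of the unit `y * (x * x)`
      have e2 : ((y * (x * x) : G4 F) : M4 F) * (((y * (x * x))⁻¹ : G4 F) : M4 F) = 1 :=
        Units.mul_inv _
      simp only [Units.val_mul] at e2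
      have e3 : (1 : M4 F) = (c * c) • (1 : M4 F) := by
        calc (1 : M4 F) = (y : M4 F) * ((x : M4 F) * (x : M4 F)) *
              (((y * (x * x))⁻¹ : G4 F) : M4 F) := e2.symm
          _ = ((c * c) • ((y : M4 F) * ((x : M4 F) * (x : M4 F)))) *
              (((y * (x * x))⁻¹ : G4 F) : M4 F) := by rw [← e1]
          _ = (c * c) • (1 : M4 F) := by rw [Matrix.smul_mul, e2]
      have h00 := congrFun (congrFun e3 0) 0
      simp at h00
      exact h00.symm
    have hf : (c - 1) * (c + 1) = 0 := by linear_combination hcc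
    rcases mul_eq_zero.mp hf with h | h
    · left
      rw [hxy, show c = 1 by linear_combination h, one_smul]
    · right
      rw [hxy, show c = -1 by linear_combination h, neg_smul, one_smul]
  exact ⟨hi, hc64, hsq, hcm, hcent, himem, fun M hM => habs.2 M (by
    rintro s ⟨g, hg, rfl⟩
    exact hM g hg)⟩

example (hA : StGrpA.{u}) (hB : StGrpB.{u}) : StMat.{u} := matS hA hB

end Cfsg.Agent.H5.S4

#print axioms Cfsg.Agent.H5.S4.matS
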