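import Mathlib
import Cfsg.Agent.H99.S4Defs

/-!
# S6000-TV (team project of helper99)

No conjugate of the transvection `1 + E₀₁` normalises `R`.

Proof.  Let `y = g⁻¹ x g = 1 + N`, `N² = 0`, `N` of rank one.  If `y` normalises `R`, some `h ∈ R`
does not commute with `y` (else `y` is scalar).  Put `c₁ = y h y⁻¹ h⁻¹`, `c₂ = y² h y⁻² h⁻¹ ∈ R` and
`D = N h - h N` (range inside a 2-dimensional space, so `D` has no right inverse).  Then
`(c₁ - 1) (h y) = D` and `(c₂ - 1) (h y²) = 2 D`; hence `c_j² = 1` (if `c_j² = -1` then `c_j - 1`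
is invertible), `(c₁ + 1) D = 0 = (c₂ + 1) D`, so `(c₁ + 1)(c₂ - 1) = 0 = (c₂ + 1)(c₁ - 1)` and
`c₁ c₂ + c₂ c₁ = 2`; as `c₁ c₂ = ± c₂ c₁` this gives `c₁ c₂ = 1`, `c₂ = c₁`, i.e. `y h = h y`.
-/

set_option autoImplicit false

namespace Cfsg.Agent.H5.S4

open Cfsg.Agent.H99.S4 Matrix

universe u

theorem tvS (_htr : StTr0.{u}) : StTV.{u} := by
  intro F _ R i h2 hS x g hx hyN
  classical
  obtain ⟨y, hy⟩ : ∃ y : G4 F, y = g⁻¹ * x * g := ⟨_, rfl⟩
  rw [← hy] at hyN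
  obtain ⟨E, hE⟩ : ∃ E : M4 F, E = Matrix.single (0 : Fin 4) (1 : Fin 4) (1 : F) := ⟨_, rfl⟩
  obtain ⟨N, hN⟩ : ∃ N : M4 F, N = ((g⁻¹ : G4 F) : M4 F) * E * (g : M4 F) := ⟨_, rfl⟩
  have hEE : E * E = 0 := by
    rw [hE]
    exact Matrix.single_mul_single_of_ne _ _ _ _ (by decide) _
  have hNN : N * N = 0 := by
    rw [hN]
    calc ((g⁻¹ : G4 F) : M4 F) * E * (g : M4 F) * (((g⁻¹ : G4 F) : M4 F) * E * (g : M4 F))
        = ((g⁻¹ : G4 F) : M4 F) * (E * ((g : M4 F) * ((g⁻¹ : G4 F) : M4 F)) * E) * (g : M4 F) := by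
          simp only [mul_assoc]
      _ = 0 := by rw [Units.mul_inv, mul_one, hEE, mul_zero, zero_mul]
  have hY : (y : M4 F) = 1 + N := by
    rw [hy, Units.val_mul, Units.val_mul, hx, hN, ← hE, mul_add, add_mul, mul_one, Units.inv_mul]
  have hYY : (y : M4 F) * (y : M4 F) = 1 + (2 : F) • N := by
    have e : (1 + N) * (1 + N) = 1 + N + N + N * N := by noncomm_ring
    rw [hY, e, hNN, two_smul]
    abel
  -- the rank-one structure of `N`
  obtain ⟨v₀, hv₀⟩ : ∃ v₀ : Fin 4 → F,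
      v₀ = ((g⁻¹ : G4 F) : M4 F) *ᵥ (Function.update (0 : Fin 4 → F) 0 1) := ⟨_, rfl⟩
  have hNv : ∀ u : Fin 4 → F, N *ᵥ u = ((g : M4 F) *ᵥ u) 1 • v₀ := by
    intro u
    rw [hN, ← Matrix.mulVec_mulVec, ← Matrix.mulVec_mulVec, hE, Matrix.single_mulVec, hv₀,
      ← Matrix.mulVec_smul]
    congr 1
    ext k
    by_cases hk : k = 0
    · rw [hk]
      simp
    · simp [Function.update_of_ne hk]
  -- normaliser
  have hconj : ∀ w : G4 F, w ∈ Cfsg.Geo.subgroupNormalizer R → ∀ h : G4 F, h ∈ R →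
      w * h * w⁻¹ ∈ R := fun w hw h hh => (Subgroup.mem_set_normalizer_iff.mp hw h).mp hh
  -- Step A: some `h ∈ R` does not commute with `y`
  have hA : ∃ h ∈ R, y * h ≠ h * y := by
    by_contra hcon
    have hall : ∀ h ∈ R, y * h = h * y := by
      intro h hh
      by_contra hne
      exact hcon ⟨h, hh, hne⟩
    obtain ⟨c, hc⟩ := hS.commutant (y : M4 F) (fun h hh => by
      have h' := congrArg (fun w : G4 F => (w : M4 F)) (hall h hh)
      simpa using h')
    have hNc : N = (c - 1) • (1 : M4 F) := by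
      have h' : N = (y : M4 F) - 1 := by rw [hY]; abel
      rw [h', hc, sub_smul, one_smul]
    have hc1 : (c - 1) * (c - 1) = 0 := by
      have h' := hNN
      rw [hNc, Matrix.smul_mul, Matrix.mul_smul, mul_one, smul_smul] at h'
      have h'' := congrFun (congrFun h' 0) 0
      simpa using h''
    have hN0 : N = 0 := by
      rw [hNc, mul_self_eq_zero.mp hc1, zero_smul]
    have hE0 : E = 0 := by
      have h' : E = (g : M4 F) * N * ((g⁻¹ : G4 F) : M4 F) := by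
        rw [hN]
        calc E = ((g : M4 F) * ((g⁻¹ : G4 F) : M4 F)) * E * ((g : M4 F) * ((g⁻¹ : G4 F) : M4 F)) := by
              rw [Units.mul_inv, one_mul, mul_one]
          _ = (g : M4 F) * (((g⁻¹ : G4 F) : M4 F) * E * (g : M4 F)) * ((g⁻¹ : G4 F) : M4 F) := by
              simp only [mul_assoc]
      rw [h', hN0, mul_zero, zero_mul]
    have h01 := congrFun (congrFun hE0 0) 1
    rw [hE] at h01
    simp at h01
  obtain ⟨h, hhR, hne⟩ := hA
  obtain ⟨D, hD⟩ : ∃ D : M4 F, D = N * (h : M4 F) - (h : M4 F) * N := ⟨_, rfl⟩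
  -- Step C: `D` has no right inverse
  have hDninv : ∀ M : M4 F, D * M ≠ 1 := by
    intro M hM
    have htop : (⊤ : Submodule F (Fin 4 → F)) ≤ Submodule.span F
        ((({v₀, (h : M4 F) *ᵥ v₀} : Finset (Fin 4 → F))) : Set (Fin 4 → F)) := by
      intro u _
      have hu : u = D *ᵥ (M *ᵥ u) := by rw [Matrix.mulVec_mulVec, hM, Matrix.one_mulVec]
      rw [hu, hD, Matrix.sub_mulVec, ← Matrix.mulVec_mulVec, ← Matrix.mulVec_mulVec, hNv, hNv,
        Matrix.mulVec_smul]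
      apply Submodule.sub_mem
      · apply Submodule.smul_mem
        apply Submodule.subset_span
        simp
      · apply Submodule.smul_mem
        apply Submodule.subset_span
        simp
    have hfr := Submodule.finrank_mono htop
    have hle : Module.finrank F (Submodule.span F
        ((({v₀, (h : M4 F) *ᵥ v₀} : Finset (Fin 4 → F))) : Set (Fin 4 → F))) ≤
        ({v₀, (h : M4 F) *ᵥ v₀} : Finset (Fin 4 → F)).card :=
      finrank_span_finset_le_card (R := F) ({v₀, (h : M4 F) *ᵥ v₀} : Finset (Fin 4 → F))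
    have hcard2 : ({v₀, (h : M4 F) *ᵥ v₀} : Finset (Fin 4 → F)).card ≤ 2 := Finset.card_le_two
    rw [finrank_top, Module.finrank_fintype_fun_eq_card] at hfr
    simp at hfr
    omega
  -- general facts about an element `C` with `(C - 1) K = a • D`, `K` invertible
  have hm2 : (-2 : F) ≠ 0 := neg_ne_zero.mpr h2
  have hnoinv : ∀ (C K K' : M4 F) (a : F), a ≠ 0 → K * K' = 1 → (C - 1) * K = a • D →
      C * C = -1 → False := by
    intro C K K' a ha hKK hCK hCC
    apply hDninv (a • (K' * ((-2 : F)⁻¹ • (C + 1))))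
    rw [Matrix.mul_smul, ← Matrix.smul_mul, ← hCK]
    calc (C - 1) * K * (K' * ((-2 : F)⁻¹ • (C + 1)))
        = (C - 1) * (K * K') * ((-2 : F)⁻¹ • (C + 1)) := by simp only [mul_assoc]
      _ = (-2 : F)⁻¹ • ((C - 1) * (C + 1)) := by rw [hKK, mul_one, Matrix.mul_smul]
      _ = (-2 : F)⁻¹ • (C * C - 1) := by
          congr 1
          rw [sub_mul, mul_add, mul_add, mul_one, one_mul, one_mul]
          abel
      _ = 1 := by
          rw [hCC]
          have e : (-1 : M4 F) - 1 = (-2 : F) • (1 : M4 F) := by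
            rw [neg_smul, two_smul]
            abel
          rw [e, smul_smul, inv_mul_cancel₀ hm2, one_smul]
  have hkill : ∀ (C K : M4 F) (a : F), a ≠ 0 → (C - 1) * K = a • D →
      C * C = 1 → (C + 1) * D = 0 := by
    intro C K a ha hCK hCC
    have h' : (C + 1) * (a • D) = 0 := by
      rw [← hCK, ← mul_assoc]
      have e : (C + 1) * (C - 1) = 0 := by
        rw [add_mul, mul_sub, mul_sub, mul_one, one_mul, one_mul, hCC]
        abel
      rw [e, zero_mul]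
    rw [Matrix.mul_smul] at h'
    rcases smul_eq_zero.mp h' with h'' | h''
    · exact absurd h'' ha
    · exact h''
  have hexpr : ∀ (C K K' : M4 F) (a : F), K * K' = 1 → (C - 1) * K = a • D →
      C - 1 = a • (D * K') := by
    intro C K K' a hKK hCK
    rw [← Matrix.smul_mul, ← hCK, mul_assoc, hKK, mul_one]
  -- the two commutators
  obtain ⟨c₁, hc₁⟩ : ∃ c₁ : G4 F, c₁ = y * h * y⁻¹ * h⁻¹ := ⟨_, rfl⟩
  obtain ⟨c₂, hc₂⟩ : ∃ c₂ : G4 F, c₂ = (y * y) * h * (y * y)⁻¹ * h⁻¹ := ⟨_, rfl⟩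
  have hc₁R : c₁ ∈ R := by
    rw [hc₁]
    exact R.mul_mem (hconj y hyN h hhR) (R.inv_mem hhR)
  have hc₂R : c₂ ∈ R := by
    rw [hc₂]
    exact R.mul_mem (hconj (y * y) (Subgroup.mul_mem _ hyN hyN) h hhR) (R.inv_mem hhR)
  obtain ⟨k₁, hk₁⟩ : ∃ k₁ : G4 F, k₁ = h * y := ⟨_, rfl⟩
  obtain ⟨k₂, hk₂⟩ : ∃ k₂ : G4 F, k₂ = h * (y * y) := ⟨_, rfl⟩
  have e₁ : ((c₁ : M4 F) - 1) * (k₁ : M4 F) = (1 : F) • D := by
    have h' : c₁ * k₁ = y * h := by
      rw [hc₁, hk₁]
      group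
    have h'' := congrArg (fun w : G4 F => (w : M4 F)) h'
    simp only [Units.val_mul] at h''
    rw [sub_mul, h'', one_mul, hk₁, Units.val_mul, one_smul, hD, hY]
    rw [add_mul, mul_add, one_mul, mul_one]
    abel
  have e₂ : ((c₂ : M4 F) - 1) * (k₂ : M4 F) = (2 : F) • D := by
    have h' : c₂ * k₂ = (y * y) * h := by
      rw [hc₂, hk₂]
      group
    have h'' := congrArg (fun w : G4 F => (w : M4 F)) h'
    simp only [Units.val_mul] at h''
    rw [sub_mul, h'', one_mul, hk₂, Units.val_mul, Units.val_mul, hD, hYY]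
    rw [add_mul, mul_add, one_mul, mul_one, smul_sub, Matrix.smul_mul, Matrix.mul_smul]
    abel
  have hK₁ : (k₁ : M4 F) * ((k₁⁻¹ : G4 F) : M4 F) = 1 := Units.mul_inv k₁
  have hK₂ : (k₂ : M4 F) * ((k₂⁻¹ : G4 F) : M4 F) = 1 := Units.mul_inv k₂
  have hsq₁ : (c₁ : M4 F) * (c₁ : M4 F) = 1 := by
    rcases hS.sq c₁ hc₁R with h' | h'
    · exact h'
    · exact (hnoinv _ _ _ 1 one_ne_zero hK₁ e₁ h').elim
  have hsq₂ : (c₂ : M4 F) * (c₂ : M4 F) = 1 := by
    rcases hS.sq c₂ hc₂R with h' | h'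
    · exact h'
    · exact (hnoinv _ _ _ 2 h2 hK₂ e₂ h').elim
  have hkill₁ := hkill _ _ 1 one_ne_zero e₁ hsq₁
  have hkill₂ := hkill _ _ 2 h2 e₂ hsq₂
  have hx₁ := hexpr _ _ _ 1 hK₁ e₁
  have hx₂ := hexpr _ _ _ 2 hK₂ e₂
  have hz₁ : ((c₁ : M4 F) + 1) * ((c₂ : M4 F) - 1) = 0 := by
    rw [hx₂, Matrix.mul_smul, ← mul_assoc, hkill₁, zero_mul, smul_zero]
  have hz₂ : ((c₂ : M4 F) + 1) * ((c₁ : M4 F) - 1) = 0 := by
    rw [hx₁, Matrix.mul_smul, ← mul_assoc, hkill₂, zero_mul, smul_zero]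
  have hsum : (c₁ : M4 F) * (c₂ : M4 F) + (c₂ : M4 F) * (c₁ : M4 F) = (2 : F) • (1 : M4 F) := by
    have e1 : ((c₁ : M4 F) + 1) * ((c₂ : M4 F) - 1) =
        (c₁ : M4 F) * (c₂ : M4 F) - (c₁ : M4 F) + (c₂ : M4 F) - 1 := by
      rw [add_mul, mul_sub, mul_sub, mul_one, one_mul, one_mul]
      abel
    have e2 : ((c₂ : M4 F) + 1) * ((c₁ : M4 F) - 1) =
        (c₂ : M4 F) * (c₁ : M4 F) - (c₂ : M4 F) + (c₁ : M4 F) - 1 := by
      rw [add_mul, mul_sub, mul_sub, mul_one, one_mul, one_mul]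
      abel
    rw [e1] at hz₁
    rw [e2] at hz₂
    have e3 : (c₁ : M4 F) * (c₂ : M4 F) + (c₂ : M4 F) * (c₁ : M4 F) =
        ((c₁ : M4 F) * (c₂ : M4 F) - (c₁ : M4 F) + (c₂ : M4 F) - 1) +
          ((c₂ : M4 F) * (c₁ : M4 F) - (c₂ : M4 F) + (c₁ : M4 F) - 1) + (1 + 1) := by
      abel
    rw [e3, hz₁, hz₂, two_smul]
    abel
  rcases hS.comm c₁ hc₁R c₂ hc₂R with hcm | hcm
  · -- commuting: `c₁ c₂ = 1`, so `c₂ = c₁`
    rw [← hcm, ← two_smul F] at hsum
    have h12 : (c₁ : M4 F) * (c₂ : M4 F) = 1 := by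
      have h' : (2 : F) • ((c₁ : M4 F) * (c₂ : M4 F) - 1) = 0 := by
        rw [smul_sub, hsum]
        exact sub_self _
      rcases smul_eq_zero.mp h' with h'' | h''
      · exact absurd h'' h2
      · exact sub_eq_zero.mp h''
    have hu12 : c₁ * c₂ = c₁ * c₁ := by
      apply Units.ext
      rw [Units.val_mul, Units.val_mul, h12, hsq₁]
    have heq : c₂ = c₁ := mul_left_cancel hu12
    apply hne
    rw [hc₁, hc₂] at heq
    have h3 : y * y * h * (y * y)⁻¹ = y * h * y⁻¹ := mul_right_cancel heq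
    have h4 : y * h * y⁻¹ = h := by
      have h5 : y * (y * h * y⁻¹) * y⁻¹ = y * h * y⁻¹ := by
        calc y * (y * h * y⁻¹) * y⁻¹ = y * y * h * (y * y)⁻¹ := by group
          _ = y * h * y⁻¹ := h3
      have h6 : y * (y * h * y⁻¹) = y * h := by
        have h7 := congrArg (fun w : G4 F => w * y) h5
        simp only [inv_mul_cancel_right] at h7
        exact h7
      exact mul_left_cancel h6
    exact mul_inv_eq_iff_eq_mul.mp h4
  · -- anticommuting: `0 = 2`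
    rw [hcm, neg_add_cancel] at hsum
    have h00 := congrFun (congrFun hsum 0) 0
    simp at h00
    exact h2 h00.symm

example (htr : StTr0.{u}) : StTV.{u} := tvS htr

end Cfsg.Agent.H5.S4

#print axioms Cfsg.Agent.H5.S4.tvS
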