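import Mathlib
import Cfsg.Agent.H99.S4Defs

/-!
# S6000-TR0 (team project of helper99)

Non-scalar elements of `R` have trace zero.
-/

set_option autoImplicit false

namespace Cfsg.Agent.H5.S4

open Cfsg.Agent.H99.S4

universe u

theorem tr0 : StTr0.{u} := by
  intro F _ R i h2 hS x hxR hx
  have hnc : ¬ ∀ y ∈ R, (x : M4 F) * (y : M4 F) = (y : M4 F) * (x : M4 F) := by
    intro h
    obtain ⟨k, hk⟩ := hS.cent x hxR h
    exact hx k hk
  obtain ⟨y, hy'⟩ := not_forall.mp hnc
  obtain ⟨hyR, hy⟩ := Classical.not_imp.mp hy'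
  have hanti : (x : M4 F) * (y : M4 F) = -((y : M4 F) * (x : M4 F)) := by
    rcases hS.comm x hxR y hyR with h | h
    · exact absurd h hy
    · exact h
  have e1 : (x : M4 F) = (x : M4 F) * (y : M4 F) * ((y⁻¹ : G4 F) : M4 F) := by
    rw [mul_assoc, Units.mul_inv, mul_one]
  have h1 : Matrix.trace (x : M4 F) = - Matrix.trace (x : M4 F) := by
    calc Matrix.trace (x : M4 F)
        = Matrix.trace ((x : M4 F) * (y : M4 F) * ((y⁻¹ : G4 F) : M4 F)) :=
          congrArg Matrix.trace e1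
      _ = Matrix.trace (-((y : M4 F) * (x : M4 F)) * ((y⁻¹ : G4 F) : M4 F)) := by rw [hanti]
      _ = - Matrix.trace ((y : M4 F) * (x : M4 F) * ((y⁻¹ : G4 F) : M4 F)) := by
          rw [neg_mul, Matrix.trace_neg]
      _ = - Matrix.trace (((y⁻¹ : G4 F) : M4 F) * ((y : M4 F) * (x : M4 F))) := by
          rw [Matrix.trace_mul_comm]
      _ = - Matrix.trace (x : M4 F) := by rw [← mul_assoc, Units.inv_mul, one_mul]
  have h3 : (2 : F) * Matrix.trace (x : M4 F) = 0 := by linear_combination h1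
  exact (mul_eq_zero.mp h3).resolve_left h2

example : StTr0.{u} := tr0

end Cfsg.Agent.H5.S4

#print axioms Cfsg.Agent.H5.S4.tr0
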