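import Mathlib
import Cfsg.Agent.H5.PrimeTI2
import Cfsg.Agent.H5.DetReg
import Cfsg.Agent.H78.SelfCent2

/-!
# Characters of degree `p - 1` in groups with a self-centralizing element of order `p` (helper5)

`x` of prime order `p` with `C_G(x) = ⟨x⟩`, `t` classes of elements of order `p`, `t` odd, `p` odd,
`ψ` irreducible of degree `p - 1`.  Then `ψ = -1` on `⟨x⟩ ∖ 1`, `ψ` vanishes on `N_G(⟨x⟩) ∖ ⟨x⟩`
and `det ψ` takes the value `-1` on a generator of a Sylow 2-subgroup of the normalizer.
-/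

set_option autoImplicit false
set_option linter.unusedSectionVars false
set_option linter.style.haveILetI false

namespace Cfsg.Agent.H5.SelfCentChar

open Cfsg Cfsg.Agent.H4 Cfsg.Agent.H5 Cfsg.Agent.H5.PrimeTI
open scoped ComplexConjugate

universe u

attribute [local instance] fintypeIrr

section Arith

/-- The arithmetic excluding exceptional characters of degree `p - 1 = t e`. -/
theorem exc_arith (t e s c ε : ℤ) (ht : 3 ≤ t) (he : 2 ≤ e) (hε : ε = 1 ∨ ε = -1)
    (h1 : t * e - ε * e = c + s * (t * e + 1))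
    (h2 : 0 ≤ e - 1 + 2 * ε * c - t * c ^ 2) : False := by
  have hte : 6 ≤ t * e := by nlinarith
  have hte' : 3 * e ≤ t * e := by nlinarith
  rcases hε with rfl | rfl
  · rcases lt_trichotomy s 1 with hs | hs | hs
    · -- s ≤ 0 : c ≥ (t-1) e ≥ 2 e
      have hs0 : 0 ≤ -s := by omega
      have hc : 2 * e ≤ c := by nlinarith [mul_nonneg hs0 (by linarith : (0 : ℤ) ≤ t * e + 1)]
      have hc2 : 2 * e * c ≤ c * c := by nlinarith
      have h3 : 3 * c ^ 2 ≤ t * c ^ 2 := by nlinarith [sq_nonneg c]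
      nlinarith
    · subst hs
      have hc : c = -e - 1 := by linarith
      subst hc
      nlinarith [mul_nonneg (by linarith : (0 : ℤ) ≤ t) (sq_nonneg (-e - 1))]
    · have hs2 : 0 ≤ s - 2 := by omega
      have hc : c ≤ -e - 2 := by nlinarith [mul_nonneg hs2 (by linarith : (0 : ℤ) ≤ t * e + 1)]
      have hc2 : (e + 2) * (e + 2) ≤ c * c := by nlinarith
      have h3 : 3 * c ^ 2 ≤ t * c ^ 2 := by nlinarith [sq_nonneg c]
      nlinarith
  · rcases lt_trichotomy s 1 with hs | hs | hs
    · have hs0 : 0 ≤ -s := by omega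
      have hc : e ≤ c := by nlinarith [mul_nonneg hs0 (by linarith : (0 : ℤ) ≤ t * e + 1)]
      nlinarith [mul_nonneg (by linarith : (0 : ℤ) ≤ t) (sq_nonneg c)]
    · subst hs
      have hc : c = e - 1 := by linarith
      subst hc
      nlinarith [mul_nonneg (by linarith : (0 : ℤ) ≤ t) (sq_nonneg (e - 1))]
    · have hs2 : 0 ≤ s - 2 := by omega
      have hc : c ≤ -2 * e - 2 := by nlinarith [mul_nonneg hs2 (by linarith : (0 : ℤ) ≤ t * e + 1)]
      have hc2 : (2 * e + 2) * (2 * e + 2) ≤ c * c := by nlinarith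
      have h3 : 3 * c ^ 2 ≤ t * c ^ 2 := by nlinarith [sq_nonneg c]
      nlinarith

/-- An integer `v ≡ -1 (mod p)` with `1 + v² ≤ p` is `-1`. -/
theorem v_arith (p v s : ℤ) (hp : 3 ≤ p) (h1 : p - 1 = v + s * p) (h2 : 1 + v ^ 2 ≤ p) :
    v = -1 := by
  rcases lt_trichotomy s 1 with hs | hs | hs
  · exfalso
    have hs0 : 0 ≤ -s := by omega
    have hv : p - 1 ≤ v := by nlinarith [mul_nonneg hs0 (by linarith : (0 : ℤ) ≤ p)]
    nlinarith
  · subst hs; linarith
  · exfalso
    have hs2 : 0 ≤ s - 2 := by omega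
    have hv : v ≤ -p - 1 := by nlinarith [mul_nonneg hs2 (by linarith : (0 : ℤ) ≤ p)]
    nlinarith

end Arith

section NLevel

open Classical

variable {L : Type u} [Group L] [Fintype L] (K : Subgroup L) [K.Normal]
  (hfpf : ∀ x : L, x ∉ K → ∀ k ∈ K, x * k = k * x → k = 1)

include hfpf in
/-- A character of `L` whose restriction to the Frobenius kernel `K` has no trivial constituent
vanishes off `K`. -/
theorem vanish_off [Fintype K] (D : L → ℂ) (hD : IsCharacter L D) (h0 : ∑ k : K, D k = 0)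
    {x : L} (hx : x ∉ K) : D x = 0 := by
  have hDc : IsClassFunction L D := isClassFunction_of_isCharacter hD
  have hnat : ∀ ξ : IrrCharacter L, ∃ n : ℕ, classInner D ξ.1 = n := fun ξ =>
    classInner_isCharacter_nat hD (isCharacter_of_isIrrCharacter ξ.2)
  choose n hn using hnat
  have hexp : D = ∑ ξ : IrrCharacter L, (n ξ : ℂ) • ξ.1 := by
    have h := classFunction_eq_finsum hDc
    rw [finsum_irr_eq_sum] at h
    exact h.trans (Finset.sum_congr rfl fun ξ _ => by rw [hn ξ])
  have hfr : classInner (indFun K (fun _ : K => (1 : ℂ))) D = 0 := by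
    rw [frobenius_reciprocity K _ _ hDc]
    unfold classInner
    simp only [one_mul]
    rw [← map_sum, h0, map_zero, mul_zero]
  have hdeg : ∀ ξ : IrrCharacter L, ∃ d : ℕ, 0 < d ∧ ξ.1 1 = d := fun ξ => by
    obtain ⟨d, hd0, -, hd⟩ := Cfsg.Agent.H81.irr_degree_dvd ξ
    exact ⟨d, hd0, hd⟩
  choose d hd0 hd using hdeg
  have hsum : classInner (indFun K (fun _ : K => (1 : ℂ))) D =
      ((∑ ξ : IrrCharacter L, n ξ * (if ξ.1 ∈ relSet K then 0 else d ξ) : ℕ) : ℂ) := by
    have h1 : classInner (indFun K (fun _ : K => (1 : ℂ))) D =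
        classInner (indFun K (fun _ : K => (1 : ℂ))) (∑ ξ : IrrCharacter L, (n ξ : ℂ) • ξ.1) :=
      congrArg _ hexp
    rw [h1, classInner_sum_right, Nat.cast_sum]
    refine Finset.sum_congr rfl fun ξ _ => ?_
    rw [classInner_smul_right, inner_perm K ξ, Complex.conj_natCast]
    split_ifs with h
    · simp
    · rw [hd ξ]; push_cast; ring
  rw [hfr] at hsum
  have hsum' : ∑ ξ : IrrCharacter L, n ξ * (if ξ.1 ∈ relSet K then 0 else d ξ) = 0 := by
    exact_mod_cast hsum.symm
  have hzero : ∀ ξ : IrrCharacter L, ξ.1 ∉ relSet K → n ξ = 0 := by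
    intro ξ hξ
    have h := (Finset.sum_eq_zero_iff.mp hsum') ξ (Finset.mem_univ _)
    rw [if_neg hξ] at h
    rcases Nat.mul_eq_zero.mp h with h | h
    · exact h
    · exact absurd h (hd0 ξ).ne'
  rw [hexp, Finset.sum_apply]
  refine Finset.sum_eq_zero fun ξ _ => ?_
  rw [Pi.smul_apply, smul_eq_mul]
  by_cases hξ : ξ.1 ∈ relSet K
  · rw [relSet_vanish K hfpf hξ hx, mul_zero]
  · rw [hzero ξ hξ, Nat.cast_zero, zero_mul]

include hfpf in
/-- In a Frobenius-type group `L` with kernel `K` of odd prime order `p` and `t |L : K| = p - 1`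
with `t` odd, a character of degree `p - 1` with value `-1` on `K ∖ 1` restricts to an odd
multiple of the regular character on a cyclic Sylow 2-subgroup of even order. -/
theorem exists_gen [Fintype K] (p : ℕ) (hp : p.Prime) (hp2 : p ≠ 2) (hcardK : Nat.card K = p)
    (hK : ∃ k ∈ K, k ≠ 1) (t : ℕ) (hodd : Odd t) (hte : t * K.index = p - 1)
    (D : L → ℂ) (hD : IsCharacter L D) (hD1 : D 1 = (p : ℂ) - 1)
    (hDK : ∀ k ∈ K, k ≠ 1 → D k = -1) :
    ∃ (y : L) (m : ℕ), Odd m ∧ Even (orderOf y) ∧ D 1 = ((m * orderOf y : ℕ) : ℂ) ∧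
      ∀ j : ℕ, 0 < j → j < orderOf y → D (y ^ j) = 0 := by
  haveI : Fact p.Prime := ⟨hp⟩
  obtain ⟨x', hx'K, hx'1⟩ := hK
  have h0 : ∑ k : K, D k = 0 := by
    have hcongr : ∀ k ∈ (Finset.univ : Finset K).erase 1, D (k : L) = -1 := fun k hk =>
      hDK (k : L) k.2 (fun h' => Finset.ne_of_mem_erase hk (Subtype.ext h'))
    rw [← Finset.add_sum_erase Finset.univ _ (Finset.mem_univ (1 : K)),
      Finset.sum_congr rfl hcongr,
      Finset.sum_const, Finset.card_erase_of_mem (Finset.mem_univ _), Finset.card_univ,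
      ← Nat.card_eq_fintype_card, hcardK]
    have h1 : D ((1 : K) : L) = (p : ℂ) - 1 := hD1
    rw [h1, nsmul_eq_mul, Nat.cast_sub hp.one_le]
    push_cast; ring
  have hvan : ∀ n : L, n ∉ K → D n = 0 := fun n hn => vanish_off K hfpf D hD h0 hn
  -- a Sylow 2-subgroup of `L`
  haveI : Fact (Nat.Prime 2) := ⟨Nat.prime_two⟩
  obtain ⟨S⟩ : Nonempty (Sylow 2 L) := inferInstance
  obtain ⟨a, hSa⟩ := IsPGroup.iff_card.mp S.2
  have hcop : Nat.Coprime (2 ^ a) p := by
    apply Nat.Coprime.pow_left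
    rw [Nat.coprime_primes Nat.prime_two hp]
    exact fun h' => hp2 h'.symm
  have hSK : ∀ s : L, s ∈ (S : Subgroup L) → s ∈ K → s = 1 := by
    intro s hsS hsK
    have h1 : orderOf s ∣ 2 ^ a := by
      rw [← hSa]; exact Subgroup.orderOf_dvd_natCard _ hsS
    have h2 : orderOf s ∣ p := by
      rw [← hcardK]; exact Subgroup.orderOf_dvd_natCard _ hsK
    exact orderOf_eq_one_iff.mp (Nat.eq_one_of_dvd_coprimes hcop h1 h2)
  haveI hKcyc : IsCyclic K := isCyclic_of_prime_card hcardK
  haveI : Fact (Nat.card K).Prime := ⟨by rw [hcardK]; exact hp⟩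
  haveI : NeZero (Nat.card K) := ⟨by rw [hcardK]; exact hp.ne_zero⟩
  let f : (S : Subgroup L) →* (ZMod (Nat.card K))ˣ :=
    (IsCyclic.mulAutMulEquiv K).toMonoidHom.comp
      ((MulAut.conjNormal (H := K)).comp (S : Subgroup L).subtype)
  have hf : Function.Injective f := by
    rw [injective_iff_map_eq_one]
    intro s hs
    have hs' : MulAut.conjNormal (H := K) (s : L) = 1 := by
      apply (IsCyclic.mulAutMulEquiv K).injective
      rw [map_one]
      exact hs
    have hcomm : (s : L) * x' = x' * (s : L) := by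
      have h1 := congrArg (fun φ : MulAut K => ((φ ⟨x', hx'K⟩ : K) : L)) hs'
      simp only [MulAut.conjNormal_apply, MulAut.one_apply] at h1
      calc (s : L) * x' = (s : L) * x' * (s : L)⁻¹ * s := by group
        _ = x' * s := by rw [h1]
    have hsK : (s : L) ∈ K := by
      by_contra hnot
      exact hx'1 (hfpf (s : L) hnot x' hx'K hcomm)
    exact Subtype.ext (hSK (s : L) s.2 hsK)
  haveI hScyc : IsCyclic (S : Subgroup L) := isCyclic_of_injective f hf
  obtain ⟨y₀, hy₀⟩ := IsCyclic.exists_generator (α := (S : Subgroup L))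
  have hord : orderOf y₀ = 2 ^ a := by
    rw [orderOf_eq_card_of_forall_mem_zpowers hy₀, ← hSa]
  have hordy : orderOf (y₀ : L) = 2 ^ a := by
    rw [← hord, Subgroup.orderOf_coe]
  -- arithmetic
  generalize he : K.index = e at hte
  have hNcard : Nat.card L = p * e := by rw [← K.card_mul_index, hcardK, he]
  have hSidx : 2 ^ a * (S : Subgroup L).index = p * e := by
    rw [← hNcard, ← (S : Subgroup L).card_mul_index]
    congr 1
    exact hSa.symm
  have hodd_idx : ¬ 2 ∣ (S : Subgroup L).index := S.not_dvd_index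
  have hdvd : 2 ^ a ∣ e := hcop.dvd_of_dvd_mul_left ⟨_, hSidx.symm⟩
  obtain ⟨e', he'⟩ := hdvd
  have hidx : (S : Subgroup L).index = p * e' := by
    have h1 : 2 ^ a * (S : Subgroup L).index = 2 ^ a * (p * e') := by
      rw [hSidx, he']; ring
    exact Nat.eq_of_mul_eq_mul_left (by positivity) h1
  have he'odd : Odd e' := by
    rw [← Nat.not_even_iff_odd]
    intro hev
    apply hodd_idx
    rw [hidx]
    exact (even_iff_two_dvd.mp hev).mul_left p
  have hm' : p - 1 = t * e' * 2 ^ a := by rw [← hte, he']; ring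
  have hodd' : Odd (t * e') := hodd.mul he'odd
  have hqeven : Even (2 ^ a) := by
    have heven : Even (p - 1) := hp.even_sub_one hp2
    rw [hm'] at heven
    rcases Nat.even_mul.mp heven with h' | h'
    · exact absurd hodd' (Nat.not_odd_iff_even.mpr h')
    · exact h'
  refine ⟨(y₀ : L), t * e', hodd', by rw [hordy]; exact hqeven, ?_, ?_⟩
  · rw [hordy, ← hm', hD1, Nat.cast_sub hp.one_le]
    simp
  · intro j hj0 hj
    rw [hordy] at hj
    have hnotK : (y₀ : L) ^ j ∉ K := by
      intro hmem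
      have h1 := hSK ((y₀ : L) ^ j) ((S : Subgroup L).pow_mem y₀.2 j) hmem
      have h2 : y₀ ^ j = 1 := Subtype.ext (by rw [Subgroup.coe_pow]; exact h1)
      have h3 := orderOf_dvd_of_pow_eq_one h2
      rw [hord] at h3
      exact absurd (Nat.le_of_dvd hj0 h3) (by omega)
    exact hvan ((y₀ : L) ^ j) hnotK

end NLevel

section GLevel

open Classical

variable {G : Type u} [Group G] [Fintype G] (p : ℕ) (hp : p.Prime) (x : G)
  (h : Cfsg.Agent.H78.SC p x)

include hp h in
theorem hTI_P : ∀ g : G, g ∉ Subgroup.normalizer (Subgroup.zpowers x : Set G) →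
    ∀ k ∈ Subgroup.zpowers x, g * k * g⁻¹ ∈ Subgroup.zpowers x → k = 1 := by
  intro g hg k hk hgk
  by_contra hk1
  exact hg (h.mem_normalizer_of_conj_mem hp hk hk1 hgk)

include hp h in
theorem hC_P : ∀ k ∈ Subgroup.zpowers x, k ≠ 1 →
    Subgroup.centralizer ({k} : Set G) ≤ Subgroup.zpowers x := by
  intro k hk hk1
  obtain ⟨hsc, hz⟩ := h.of_mem_zpowers hp hk hk1
  rw [hsc.2, hz]

theorem hab_P : ∀ a ∈ Subgroup.zpowers x, ∀ b ∈ Subgroup.zpowers x, a * b = b * a := by
  intro a ha b hb
  obtain ⟨i, rfl⟩ := Subgroup.mem_zpowers_iff.mp ha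
  obtain ⟨j, rfl⟩ := Subgroup.mem_zpowers_iff.mp hb
  rw [← zpow_add, ← zpow_add, add_comm]

include h in
/-- Column orthogonality: a non-principal irreducible character with integer value `v` at `x`
has `1 + v² ≤ p`. -/
theorem one_add_sq_le (ψ : IrrCharacter G) (hψ : ψ ≠ trivialIrr G) (v : ℤ) (hv : ψ.1 x = v) :
    1 + v ^ 2 ≤ (p : ℤ) := by
  have hcard : Nat.card {c : G // c * x * c⁻¹ = x} = p := by
    have h1 : Nat.card {c : G // c * x * c⁻¹ = x} = Nat.card (Subgroup.zpowers x) := by
      apply Nat.card_congr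
      refine Equiv.subtypeEquivRight fun c => ?_
      rw [← h.2, Subgroup.mem_centralizer_singleton_iff]
      constructor
      · intro hc
        calc c * x = c * x * c⁻¹ * c := by group
          _ = x * c := by rw [hc]
      · intro hc
        rw [hc]; group
    rw [h1, h.card_zpowers]
  have hcol := column_orthogonality (G := G) x x
  rw [hcard, finsum_irr_eq_sum] at hcol
  have hreal : ∑ χ : IrrCharacter G, Complex.normSq (χ.1 x) = (p : ℝ) := by
    have h1 : ((∑ χ : IrrCharacter G, Complex.normSq (χ.1 x) : ℝ) : ℂ) = ((p : ℝ) : ℂ) := by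
      push_cast
      rw [← hcol]
      refine Finset.sum_congr rfl fun χ _ => ?_
      rw [Complex.mul_conj]
    exact_mod_cast h1
  have hle : ∑ χ ∈ ({trivialIrr G, ψ} : Finset (IrrCharacter G)), Complex.normSq (χ.1 x) ≤
      ∑ χ : IrrCharacter G, Complex.normSq (χ.1 x) :=
    Finset.sum_le_sum_of_subset_of_nonneg (Finset.subset_univ _)
      (fun χ _ _ => Complex.normSq_nonneg _)
  rw [Finset.sum_pair hψ.symm, hreal] at hle
  have h1 : Complex.normSq ((trivialIrr G).1 x) = 1 := by
    change Complex.normSq (1 : ℂ) = 1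
    simp
  have h2 : Complex.normSq (ψ.1 x) = ((v ^ 2 : ℤ) : ℝ) := by
    rw [hv, ← Complex.ofReal_intCast, Complex.normSq_ofReal]
    push_cast; ring
  rw [h1, h2] at hle
  exact_mod_cast hle

include hp h in
/-- An irreducible character of degree `p - 1` takes the value `-1` on `⟨x⟩ ∖ 1` when the number
`t` of classes of elements of order `p` is odd and `p` is odd. -/
theorem value_neg_one (hp2 : p ≠ 2) (t : ℕ) (hodd : Odd t)
    (ht : t * (Subgroup.zpowers x).relIndex
      (Subgroup.normalizer (Subgroup.zpowers x : Set G)) = p - 1)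
    (ψ : IrrCharacter G) (hψ : ψ.1 1 = (p : ℂ) - 1) :
    ∀ k ∈ Subgroup.zpowers x, k ≠ 1 → ψ.1 k = -1 := by
  have hTI := hTI_P p hp x h
  have hCP := hC_P p hp x h
  have habP := hab_P x
  have hx1 : x ≠ 1 := h.ne_one hp
  have hcardP : Nat.card (Subgroup.zpowers x) = p := h.card_zpowers
  generalize hPdef : Subgroup.zpowers x = P at *
  have hxP : x ∈ P := by rw [← hPdef]; exact Subgroup.mem_zpowers x
  have hnt : ∃ a ∈ P, a ≠ 1 := ⟨x, hxP, hx1⟩
  have hp3 : 3 ≤ p := by have := hp.two_le; omega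
  have hfpf := fpfK P hCP
  have habK := abK P habP
  have hψtriv : ψ ≠ trivialIrr G := by
    rintro rfl
    have h1 : (1 : ℂ) = (p : ℂ) - 1 := hψ
    have h2 : (p : ℂ) = 2 := by linear_combination -h1
    exact hp2 (by exact_mod_cast h2)
  have key : ∀ v s : ℤ, (∀ k ∈ P, k ≠ 1 → ψ.1 k = v) → ψ.1 1 = v + s * Nat.card P →
      ∀ k ∈ P, k ≠ 1 → ψ.1 k = -1 := by
    intro v s hv hs k hk hk1
    have hsq := one_add_sq_le p x h ψ hψtriv v (hv x hxP hx1)
    have h1 : (p : ℤ) - 1 = v + s * p := by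
      rw [hψ, hcardP] at hs
      exact_mod_cast hs
    have h2 := v_arith p v s (by exact_mod_cast hp3) h1 hsq
    rw [hv k hk hk1, h2]; simp
  have hte : t * (P.subgroupOf (Subgroup.normalizer (P : Set G))).index = p - 1 := ht
  generalize he : (P.subgroupOf (Subgroup.normalizer (P : Set G))).index = e at hte
  obtain ⟨m, hm⟩ : ∃ m, (Finset.univ.filter
      (fun χ : IrrCharacter (Subgroup.normalizer (P : Set G)) =>
        χ.1 ∈ relSet (P.subgroupOf (Subgroup.normalizer (P : Set G))))).card = m := ⟨_, rfl⟩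
  have hme : m * e = p - 1 := by
    have hc := card_rel (P.subgroupOf (Subgroup.normalizer (P : Set G))) hfpf habK
    rw [hm, card_K, hcardP, he] at hc
    have h1 : ((m * e : ℕ) : ℂ) = ((p - 1 : ℕ) : ℂ) := by
      rw [Nat.cast_sub hp.one_le]; push_cast; exact hc
    exact_mod_cast h1
  have he0 : 0 < e := by
    rcases Nat.eq_zero_or_pos e with h0 | h0
    · rw [h0, mul_zero] at hme; omega
    · exact h0
  have hmt : m = t := Nat.eq_of_mul_eq_mul_right he0 (hme.trans hte.symm)
  subst hmt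
  by_cases hm2 : 2 ≤ m
  · obtain ⟨χ', ε, θ, hχinj, hχ', hε, hθinj, hθ⟩ := exists_exc P hTI hCP habP m hm2 hm
    by_cases hex : ∀ i, θ i ≠ ψ
    · obtain ⟨v, s, hv, hs⟩ := nonexc_const P hCP habP χ' ε θ hχ' hθ hnt ψ hex
      exact key v s hv hs
    · exfalso
      push Not at hex
      obtain ⟨i₀, hi₀⟩ := hex
      obtain ⟨c, d, s, v, xx, T, -, hθ1, -, hds, -, hsq, -⟩ := degree_equation_aux2 P hTI hCP
        habP χ' ε θ hχinj hχ' hε hθinj hθ hnt hm2
      have hd' : d = p - 1 := by
        have h1 := hθ1 i₀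
        rw [hi₀, hψ] at h1
        have h2 : ((d : ℕ) : ℂ) = ((p - 1 : ℕ) : ℂ) := by
          rw [Nat.cast_sub hp.one_le]; push_cast; exact h1.symm
        exact_mod_cast h2
      have hd : (d : ℤ) = m * e := by
        rw [hd', ← hme]; push_cast; ring
      have hpe : ((p : ℕ) : ℤ) = m * e + 1 := by
        have h1 : p = m * e + 1 := by have := hp.one_le; omega
        rw [h1]; push_cast; ring
      have hm3 : 3 ≤ m := by
        rcases hodd with ⟨r, hr⟩; omega
      have he2 : 2 ≤ e := by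
        have heven : Even (m * e) := by rw [hme]; exact hp.even_sub_one hp2
        rcases Nat.even_mul.mp heven with h' | h'
        · exact absurd hodd (Nat.not_odd_iff_even.mpr h')
        · rcases h' with ⟨r, hr⟩; omega
      apply exc_arith (m : ℤ) (e : ℤ) s c ε (by exact_mod_cast hm3) (by exact_mod_cast he2) hε
      · rw [hcardP, hd, hpe, he] at hds
        exact hds
      · have hnn : 0 ≤ ∑ ψ ∈ T, v ψ ^ 2 := Finset.sum_nonneg fun ψ _ => sq_nonneg _
        rw [hsq, he] at hnn
        exact hnn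
  · have hm1 : m = 1 := by
      rcases hodd with ⟨r, hr⟩; omega
    have hK : ∃ k ∈ P.subgroupOf (Subgroup.normalizer (P : Set G)), k ≠ 1 :=
      ⟨⟨x, Subgroup.le_normalizer hxP⟩, Subgroup.mem_subgroupOf.mpr hxP,
        fun h' => hx1 (congrArg Subtype.val h')⟩
    obtain ⟨v, s, hv, hs⟩ := const_of_orth_diff (P.subgroupOf (Subgroup.normalizer (P : Set G)))
      hfpf habK hK (fun n : Subgroup.normalizer (P : Set G) => ψ.1 n)
      (fun g h => irr_isClassFunction ψ (g : G) (h : G))
      (fun ξ₁ h₁ ξ₂ h₂ => by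
        have heq : ξ₁ = ξ₂ := by
          have hcard1 : (Finset.univ.filter
              (fun χ : IrrCharacter (Subgroup.normalizer (P : Set G)) =>
                χ.1 ∈ relSet (P.subgroupOf (Subgroup.normalizer (P : Set G))))).card ≤ 1 := by
            rw [hm, hm1]
          have h3 := Finset.card_le_one.mp hcard1 ⟨ξ₁, h₁.1⟩
            (Finset.mem_filter.mpr ⟨Finset.mem_univ _, h₁⟩) ⟨ξ₂, h₂.1⟩
            (Finset.mem_filter.mpr ⟨Finset.mem_univ _, h₂⟩)
          exact congrArg Subtype.val h3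
        rw [heq, sub_self, classInner_zero_left])
      (fun τ => by
        obtain ⟨n, hn⟩ := classInner_isCharacter_nat
          (isCharacter_comp ((Subgroup.normalizer (P : Set G)).subtype.comp
            (P.subgroupOf (Subgroup.normalizer (P : Set G))).subtype)
            (isCharacter_of_isIrrCharacter ψ.2)) (isCharacter_of_isIrrCharacter τ.2)
        exact ⟨n, by rw [Int.cast_natCast, ← hn]; rfl⟩)
    rw [card_K] at hs
    exact key v s (fun k hk hk1 => hv ⟨k, Subgroup.le_normalizer hk⟩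
      (Subgroup.mem_subgroupOf.mpr hk) (fun h' => hk1 (congrArg Subtype.val h'))) hs

include hp h in
/-- The determinantal character of an irreducible character of degree `p - 1` takes the value
`-1` (when `t` and `p` are odd). -/
theorem exists_det_neg_one (hp2 : p ≠ 2) (t : ℕ) (hodd : Odd t)
    (ht : t * (Subgroup.zpowers x).relIndex
      (Subgroup.normalizer (Subgroup.zpowers x : Set G)) = p - 1)
    (ψ : IrrCharacter G) (hψ : ψ.1 1 = (p : ℂ) - 1) : ∃ y : G, detChar ψ.1 y = -1 := by
  have hval := value_neg_one p hp x h hp2 t hodd ht ψ hψ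
  have hCP := hC_P p hp x h
  have hx1 : x ≠ 1 := h.ne_one hp
  have hcardP : Nat.card (Subgroup.zpowers x) = p := h.card_zpowers
  have hxP' : x ∈ Subgroup.zpowers x := Subgroup.mem_zpowers x
  generalize hPdef : Subgroup.zpowers x = P at *
  have hfpf := fpfK P hCP
  have hcardK : Nat.card (P.subgroupOf (Subgroup.normalizer (P : Set G))) = p :=
    (card_K P).trans hcardP
  have hte : t * (P.subgroupOf (Subgroup.normalizer (P : Set G))).index = p - 1 := ht
  have hK : ∃ k ∈ P.subgroupOf (Subgroup.normalizer (P : Set G)), k ≠ 1 :=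
    ⟨⟨x, Subgroup.le_normalizer hxP'⟩, Subgroup.mem_subgroupOf.mpr hxP',
      fun h' => hx1 (congrArg Subtype.val h')⟩
  obtain ⟨y, m, hm, hq, h1, h0⟩ := exists_gen (P.subgroupOf (Subgroup.normalizer (P : Set G)))
    hfpf p hp hp2 hcardK hK t hodd hte (fun n : Subgroup.normalizer (P : Set G) => ψ.1 n)
    (isCharacter_comp (Subgroup.normalizer (P : Set G)).subtype
      (isCharacter_of_isIrrCharacter ψ.2)) hψ
    (fun k hk hk1 => hval (k : G) (Subgroup.mem_subgroupOf.mp hk)
      (fun h' => hk1 (Subtype.ext h')))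
  have hordy : orderOf (y : G) = orderOf y := Subgroup.orderOf_coe y
  refine ⟨(y : G)⁻¹, DetReg.detChar_of_regular (isCharacter_of_isIrrCharacter ψ.2) (y : G) m hm
    (by rw [hordy]; exact hq) ?_ ?_⟩
  · rw [hordy]; exact h1
  · intro j hj0 hj
    rw [hordy] at hj
    exact h0 j hj0 hj

end GLevel

end Cfsg.Agent.H5.SelfCentChar
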