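import Mathlib
import Cfsg.Prelude.Def_GeometricClasses

set_option autoImplicit false
open scoped MatrixGroups
open Matrix

namespace Cfsg.Agent.H5.Singer

/-- the linear map `k ↦ k *ᵥ v` on a subalgebra of the matrix algebra. -/
noncomputable def evalLin {F : Type*} [Field F] {n : ℕ} (K : Subalgebra F (Matrix (Fin n) (Fin n) F))
    (v : Fin n → F) : ↥K →ₗ[F] (Fin n → F) where
  toFun := fun k => (k : Matrix (Fin n) (Fin n) F) *ᵥ v
  map_add' := fun a b => by simp [Matrix.add_mulVec]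
  map_smul' := fun c a => by simp [Matrix.smul_mulVec]

theorem evalLin_apply {F : Type*} [Field F] {n : ℕ} (K : Subalgebra F (Matrix (Fin n) (Fin n) F))
    (v : Fin n → F) (k : ↥K) : evalLin K v k = (k : Matrix (Fin n) (Fin n) F) *ᵥ v := rfl

theorem eq_zero_of_mulVec_eq_zero {F : Type*} [Field F] {n : ℕ}
    (K : Subalgebra F (Matrix (Fin n) (Fin n) F))
    (hK : Cfsg.Geo.IsFieldSubalgebra n K) (v : Fin n → F) (hv : v ≠ 0)
    (k : Matrix (Fin n) (Fin n) F) (hk : k ∈ K) (h : k *ᵥ v = 0) : k = 0 := by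
  by_contra hk0
  obtain ⟨y, hy, hxy⟩ := hK.inv k hk hk0
  have hyx : y * k = 1 := by rw [← hK.comm k hk y hy]; exact hxy
  apply hv
  have : (y * k) *ᵥ v = 0 := by rw [← Matrix.mulVec_mulVec, h, Matrix.mulVec_zero]
  rwa [hyx, Matrix.one_mulVec] at this

theorem evalLin_injective {F : Type*} [Field F] {n : ℕ} (K : Subalgebra F (Matrix (Fin n) (Fin n) F))
    (hK : Cfsg.Geo.IsFieldSubalgebra n K) (v : Fin n → F) (hv : v ≠ 0) :
    Function.Injective (evalLin K v) := by
  rw [← LinearMap.ker_eq_bot, LinearMap.ker_eq_bot']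
  intro k hk
  exact Subtype.ext (eq_zero_of_mulVec_eq_zero K hK v hv k k.2 hk)

theorem evalLin_surjective {F : Type*} [Field F] {n : ℕ} (K : Subalgebra F (Matrix (Fin n) (Fin n) F))
    (hK : Cfsg.Geo.IsFieldSubalgebra n K) (v : Fin n → F) (hv : v ≠ 0) :
    Function.Surjective (evalLin K v) := by
  apply (LinearMap.injective_iff_surjective_of_finrank_eq_finrank ?_).1 (evalLin_injective K hK v hv)
  rw [hK.finrank_eq]; simp

/-- S5970-ORB (own copy): a field subalgebra of degree `n` is transitive on nonzero vectors. -/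
theorem orb {F : Type*} [Field F] {n : ℕ} (K : Subalgebra F (Matrix (Fin n) (Fin n) F))
    (hK : Cfsg.Geo.IsFieldSubalgebra n K) (v : Fin n → F) (hv : v ≠ 0) (w : Fin n → F) :
    ∃ k ∈ K, k *ᵥ v = w := by
  obtain ⟨k, hk⟩ := evalLin_surjective K hK v hv w
  exact ⟨k, k.2, hk⟩

theorem noZeroDivisors_K {F : Type*} [Field F] {n : ℕ} (K : Subalgebra F (Matrix (Fin n) (Fin n) F))
    (hK : Cfsg.Geo.IsFieldSubalgebra n K) : NoZeroDivisors ↥K := by
  refine ⟨fun {a b} hab => ?_⟩
  by_contra hne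
  push Not at hne
  obtain ⟨ha, hb⟩ := hne
  obtain ⟨y, hy, hxy⟩ := hK.inv a a.2 (fun h => ha (Subtype.ext h))
  have hyx : y * (a : Matrix (Fin n) (Fin n) F) = 1 := by rw [← hK.comm a a.2 y hy]; exact hxy
  apply hb
  apply Subtype.ext
  have h1 : (a : Matrix (Fin n) (Fin n) F) * (b : Matrix (Fin n) (Fin n) F) = 0 := by
    have := congrArg Subtype.val hab
    simpa using this
  calc (b : Matrix (Fin n) (Fin n) F) = (y * a) * b := by rw [hyx, one_mul]
    _ = 0 := by rw [mul_assoc, h1, mul_zero]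

theorem isDomain_K {F : Type*} [Field F] {n : ℕ} (hn : 0 < n)
    (K : Subalgebra F (Matrix (Fin n) (Fin n) F))
    (hK : Cfsg.Geo.IsFieldSubalgebra n K) : IsDomain ↥K := by
  haveI := noZeroDivisors_K K hK
  haveI : Nontrivial ↥K := Module.nontrivial_of_finrank_pos (R := F) (by rw [hK.finrank_eq]; exact hn)
  exact NoZeroDivisors.to_isDomain _

/-- S5970-EIG: eigenspaces of nonscalar elements of the normaliser of a field subalgebra of prime
degree are lines. -/
theorem normalizer_eigen_dep {F : Type*} [Field F] {n : ℕ} (hn : n.Prime)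
    (K : Subalgebra F (Matrix (Fin n) (Fin n) F)) (hK : Cfsg.Geo.IsFieldSubalgebra n K)
    (g : GL (Fin n) F) (hg : g ∈ Cfsg.Geo.subalgebraNormalizer K)
    (hns : ∀ c : F, (g : Matrix (Fin n) (Fin n) F) ≠ c • (1 : Matrix (Fin n) (Fin n) F))
    (c : F) (v w : Fin n → F) (hv : (g : Matrix (Fin n) (Fin n) F) *ᵥ v = c • v)
    (hw : (g : Matrix (Fin n) (Fin n) F) *ᵥ w = c • w) : ¬ LinearIndependent F ![v, w] := by
  intro hli
  have hv0 : v ≠ 0 := by
    have := hli.ne_zero 0
    simpa using this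
  have hginv : ((g⁻¹ : GL (Fin n) F) : Matrix (Fin n) (Fin n) F) * (g : Matrix (Fin n) (Fin n) F) = 1 := by
    rw [← Units.val_mul, inv_mul_cancel, Units.val_one]
  have hc0 : c ≠ 0 := by
    intro hc
    rw [hc, zero_smul] at hv
    apply hv0
    have : (((g⁻¹ : GL (Fin n) F) : Matrix (Fin n) (Fin n) F) * (g : Matrix (Fin n) (Fin n) F)) *ᵥ v = 0 := by
      rw [← Matrix.mulVec_mulVec, hv, Matrix.mulVec_zero]
    rwa [hginv, Matrix.one_mulVec] at this
  obtain ⟨k, hk, hkw⟩ := orb K hK v hv0 w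
  have hk' : (g : Matrix (Fin n) (Fin n) F) * k * ((g⁻¹ : GL (Fin n) F) : Matrix (Fin n) (Fin n) F) ∈ K :=
    (hg k).1 hk
  -- g k = k g
  have hcomm : (g : Matrix (Fin n) (Fin n) F) * k = k * (g : Matrix (Fin n) (Fin n) F) := by
    have h1 : ((g : Matrix (Fin n) (Fin n) F) * k * ((g⁻¹ : GL (Fin n) F) : Matrix (Fin n) (Fin n) F) - k) *ᵥ v = 0 := by
      have e1 : ((g : Matrix (Fin n) (Fin n) F) * k * ((g⁻¹ : GL (Fin n) F) : Matrix (Fin n) (Fin n) F)) *ᵥ (c • v) = c • w := by
        rw [← hv, Matrix.mulVec_mulVec, mul_assoc, mul_assoc, hginv, mul_one, ← Matrix.mulVec_mulVec, hkw, hw]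
      rw [Matrix.mulVec_smul] at e1
      have e2 : ((g : Matrix (Fin n) (Fin n) F) * k * ((g⁻¹ : GL (Fin n) F) : Matrix (Fin n) (Fin n) F)) *ᵥ v = w := by
        have := congrArg (fun u => c⁻¹ • u) e1
        simpa [smul_smul, inv_mul_cancel₀ hc0] using this
      rw [Matrix.sub_mulVec, e2, hkw, sub_self]
    have h2 := eq_zero_of_mulVec_eq_zero K hK v hv0 _ (K.sub_mem hk' hk) h1
    have h3 : (g : Matrix (Fin n) (Fin n) F) * k * ((g⁻¹ : GL (Fin n) F) : Matrix (Fin n) (Fin n) F) = k :=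
      sub_eq_zero.1 h2
    calc (g : Matrix (Fin n) (Fin n) F) * k
        = (g : Matrix (Fin n) (Fin n) F) * k * (((g⁻¹ : GL (Fin n) F) : Matrix (Fin n) (Fin n) F) * (g : Matrix (Fin n) (Fin n) F)) := by
          rw [hginv, mul_one]
      _ = k * (g : Matrix (Fin n) (Fin n) F) := by rw [← mul_assoc, h3]
  -- the subalgebra of K commuting with g
  haveI : IsDomain ↥K := isDomain_K hn.pos K hK
  haveI : IsSimpleOrder (Subalgebra F ↥K) :=
    Subalgebra.isSimpleOrder_of_finrank_prime F ↥K (by rw [hK.finrank_eq]; exact hn)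
  let L : Subalgebra F ↥K :=
    (Subalgebra.centralizer F ({(g : Matrix (Fin n) (Fin n) F)} : Set (Matrix (Fin n) (Fin n) F))).comap K.val
  have hL : ∀ a : ↥K, a ∈ L ↔ (g : Matrix (Fin n) (Fin n) F) * (a : Matrix (Fin n) (Fin n) F)
      = (a : Matrix (Fin n) (Fin n) F) * (g : Matrix (Fin n) (Fin n) F) := by
    intro a
    simp only [L, Subalgebra.mem_comap, Subalgebra.mem_centralizer_iff, Set.mem_singleton_iff,
      forall_eq, Subalgebra.coe_val]
  have hkL : (⟨k, hk⟩ : ↥K) ∈ L := (hL _).2 hcomm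
  rcases eq_bot_or_eq_top L with hbot | htop
  · rw [hbot, Algebra.mem_bot] at hkL
    obtain ⟨a, ha⟩ := hkL
    have hka : k = a • (1 : Matrix (Fin n) (Fin n) F) := by
      have := congrArg Subtype.val ha
      simp only [Subalgebra.coe_algebraMap] at this
      rw [← this, Algebra.algebraMap_eq_smul_one]
    have hwa : w = a • v := by
      rw [← hkw, hka, Matrix.smul_mulVec, Matrix.one_mulVec]
    rw [LinearIndependent.pair_iff] at hli
    have := hli a (-1) (by rw [hwa]; simp)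
    exact absurd this.2 (by simp)
  · apply hns c
    apply Matrix.toLin'.injective
    apply LinearMap.ext
    intro u
    obtain ⟨a, ha, hau⟩ := orb K hK v hv0 u
    have haL : (⟨a, ha⟩ : ↥K) ∈ L := by rw [htop]; exact Algebra.mem_top
    have hac := (hL _).1 haL
    simp only at hac
    rw [Matrix.toLin'_apply, Matrix.toLin'_apply, ← hau, Matrix.mulVec_mulVec, hac,
      ← Matrix.mulVec_mulVec, hv, Matrix.mulVec_smul, Matrix.smul_mulVec, Matrix.one_mulVec]

end Cfsg.Agent.H5.Singer
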