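import Mathlib
import Cfsg.Prelude.Def_GeometricClasses
import Cfsg.Agent.H5.SingerEig

set_option autoImplicit false
open scoped MatrixGroups
open Matrix

namespace Cfsg.Agent.H5.Singer

/-- In a finite domain, `a ^ card = a`. -/
theorem pow_natCard_eq_self {L : Type*} [Ring L] [IsDomain L] [Finite L] (a : L) :
    a ^ Nat.card L = a := by
  classical
  letI : Fintype L := Fintype.ofFinite L
  letI : GroupWithZero L := Fintype.groupWithZeroOfCancel L
  have hcard : 0 < Nat.card L := Nat.card_pos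
  by_cases ha : a = 0
  · subst ha
    exact zero_pow hcard.ne'
  · have h1 : a ^ (Fintype.card L - 1) = 1 := FiniteField.pow_card_sub_one_eq_one a ha
    have h2 : Nat.card L = (Fintype.card L - 1) + 1 := by
      rw [Nat.card_eq_fintype_card] at hcard ⊢
      omega
    rw [h2, pow_succ]
    rw [h1, one_mul]

/-- In a finite commutative domain with more than `q` elements, `a ↦ a ^ q` is not the identity. -/
theorem exists_pow_ne_self {L : Type*} [CommRing L] [IsDomain L] [Finite L] (q : ℕ) (hq : 1 < q)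
    (hL : q < Nat.card L) : ∃ a : L, a ^ q ≠ a := by
  classical
  by_contra hcon
  push Not at hcon
  letI : Fintype L := Fintype.ofFinite L
  have hdeg : (Polynomial.X ^ q - Polynomial.X : Polynomial L).natDegree = q := by
    have h1 : (Polynomial.X : Polynomial L).degree < (Polynomial.X ^ q : Polynomial L).degree := by
      rw [Polynomial.degree_X_pow, Polynomial.degree_X]
      exact mod_cast hq
    rw [Polynomial.natDegree_eq_of_degree_eq (Polynomial.degree_sub_eq_left_of_degree_lt h1),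
      Polynomial.natDegree_X_pow]
  have hne : (Polynomial.X ^ q - Polynomial.X : Polynomial L) ≠ 0 := by
    intro h0
    rw [h0, Polynomial.natDegree_zero] at hdeg
    omega
  have hsub : (Finset.univ : Finset L).val ⊆ (Polynomial.X ^ q - Polynomial.X : Polynomial L).roots := by
    intro a _
    rw [Polynomial.mem_roots hne, Polynomial.IsRoot.def]
    simp [hcon a]
  have := Polynomial.card_le_degree_of_subset_roots hsub
  rw [hdeg, Finset.card_univ, ← Nat.card_eq_fintype_card] at this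
  omega

theorem natCard_K {F : Type*} [Field F] [Fintype F] {n : ℕ}
    (K : Subalgebra F (Matrix (Fin n) (Fin n) F)) (hK : Cfsg.Geo.IsFieldSubalgebra n K) :
    Nat.card ↥K = Fintype.card F ^ n := by
  rw [Module.natCard_eq_pow_finrank (K := F) (V := ↥K), hK.finrank_eq, Nat.card_eq_fintype_card]

/-- Fact D: `k ^ (q ^ n) = k` on `K`. -/
theorem pow_card_pow_K {F : Type*} [Field F] [Fintype F] {n : ℕ} (hn : 0 < n)
    (K : Subalgebra F (Matrix (Fin n) (Fin n) F)) (hK : Cfsg.Geo.IsFieldSubalgebra n K)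
    (k : Matrix (Fin n) (Fin n) F) (hk : k ∈ K) : k ^ (Fintype.card F ^ n) = k := by
  haveI : IsDomain ↥K := isDomain_K hn K hK
  have h := pow_natCard_eq_self (⟨k, hk⟩ : ↥K)
  rw [natCard_K K hK] at h
  have h2 := congrArg Subtype.val h
  simpa using h2

/-- Fact E: some `k ∈ K` has `k ^ q ≠ k` (`n ≥ 2`). -/
theorem exists_pow_card_ne_K {F : Type*} [Field F] [Fintype F] {n : ℕ} (hn : 2 ≤ n)
    (K : Subalgebra F (Matrix (Fin n) (Fin n) F)) (hK : Cfsg.Geo.IsFieldSubalgebra n K) :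
    ∃ k ∈ K, k ^ Fintype.card F ≠ k := by
  haveI : IsDomain ↥K := isDomain_K (by omega) K hK
  letI cr : CommRing ↥K :=
    { (inferInstance : Ring ↥K) with
      mul_comm := fun a b => Subtype.ext (hK.comm a a.2 b b.2) }
  haveI : IsDomain ↥K := isDomain_K (by omega) K hK
  have hq : 1 < Fintype.card F := Fintype.one_lt_card
  have hlt : Fintype.card F < Nat.card ↥K := by
    rw [natCard_K K hK]
    calc Fintype.card F = Fintype.card F ^ 1 := (pow_one _).symm
      _ < Fintype.card F ^ n := Nat.pow_lt_pow_right hq (by omega)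
  obtain ⟨a, ha⟩ := exists_pow_ne_self (L := ↥K) (Fintype.card F) hq hlt
  refine ⟨a.1, a.2, fun h => ha ?_⟩
  apply Subtype.ext
  exact h

/-- additivity of `k ↦ k ^ q` on commuting matrices. -/
theorem add_pow_card_of_commute {F : Type*} [Field F] [Fintype F] {n : ℕ} (hn : 0 < n)
    (a b : Matrix (Fin n) (Fin n) F) (hab : Commute a b) :
    (a + b) ^ Fintype.card F = a ^ Fintype.card F + b ^ Fintype.card F := by
  obtain ⟨p, hp⟩ := CharP.exists F
  haveI := hp
  obtain ⟨f, hpr, hqf⟩ := FiniteField.card F p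
  haveI : Fact p.Prime := ⟨hpr⟩
  haveI : Nonempty (Fin n) := ⟨⟨0, hn⟩⟩
  rw [hqf]
  exact add_pow_char_pow_of_commute _ _ hab

/-- the `q`-power map on `K` as a linear map. -/
noncomputable def frobLin {F : Type*} [Field F] [Fintype F] {n : ℕ} (hn : 0 < n)
    (K : Subalgebra F (Matrix (Fin n) (Fin n) F)) (hK : Cfsg.Geo.IsFieldSubalgebra n K) :
    ↥K →ₗ[F] ↥K where
  toFun := fun a => ⟨(a : Matrix (Fin n) (Fin n) F) ^ Fintype.card F, K.pow_mem a.2 _⟩
  map_add' := fun a b => by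
    apply Subtype.ext
    simp only [Subalgebra.coe_add]
    exact add_pow_card_of_commute hn _ _ (hK.comm a a.2 b b.2)
  map_smul' := fun c a => by
    apply Subtype.ext
    simp only [Subalgebra.coe_smul, RingHom.id_apply]
    rw [smul_pow, FiniteField.pow_card]

theorem frobLin_apply {F : Type*} [Field F] [Fintype F] {n : ℕ} (hn : 0 < n)
    (K : Subalgebra F (Matrix (Fin n) (Fin n) F)) (hK : Cfsg.Geo.IsFieldSubalgebra n K) (a : ↥K) :
    ((frobLin hn K hK a : ↥K) : Matrix (Fin n) (Fin n) F)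
      = (a : Matrix (Fin n) (Fin n) F) ^ Fintype.card F := rfl

/-- S5970-FROB': the Frobenius of `K` as an element of the normaliser of `K`, with a fixed vector. -/
theorem exists_frobenius_normalizer' {F : Type*} [Field F] [Fintype F] {n : ℕ} (hn : 2 ≤ n)
    (K : Subalgebra F (Matrix (Fin n) (Fin n) F)) (hK : Cfsg.Geo.IsFieldSubalgebra n K) :
    ∃ s : GL (Fin n) F, s ∈ Cfsg.Geo.subalgebraNormalizer K ∧
      (s : Matrix (Fin n) (Fin n) F) ^ n = 1 ∧ (s : Matrix (Fin n) (Fin n) F) ≠ 1 ∧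
      ∃ v : Fin n → F, v ≠ 0 ∧ (s : Matrix (Fin n) (Fin n) F) *ᵥ v = v := by
  classical
  have hn0 : 0 < n := by omega
  set q := Fintype.card F with hq
  -- a nonzero vector
  let v0 : Fin n → F := fun _ => 1
  have hv0 : v0 ≠ 0 := by
    intro h
    have := congrFun h ⟨0, hn0⟩
    simp [v0] at this
  let E : ↥K ≃ₗ[F] (Fin n → F) :=
    LinearEquiv.ofBijective (evalLin K v0) ⟨evalLin_injective K hK v0 hv0, evalLin_surjective K hK v0 hv0⟩
  have hE : ∀ a : ↥K, E a = (a : Matrix (Fin n) (Fin n) F) *ᵥ v0 := fun a => rfl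
  let S : (Fin n → F) →ₗ[F] (Fin n → F) := (E.toLinearMap ∘ₗ frobLin hn0 K hK) ∘ₗ E.symm.toLinearMap
  let M : Matrix (Fin n) (Fin n) F := LinearMap.toMatrix' S
  -- key property
  have hM : ∀ a : Matrix (Fin n) (Fin n) F, a ∈ K → M *ᵥ (a *ᵥ v0) = (a ^ q) *ᵥ v0 := by
    intro a ha
    have h1 : E.symm (a *ᵥ v0) = ⟨a, ha⟩ := by
      rw [LinearEquiv.symm_apply_eq, hE]
    show (LinearMap.toMatrix' S) *ᵥ (a *ᵥ v0) = _
    rw [LinearMap.toMatrix'_mulVec]
    show E (frobLin hn0 K hK (E.symm (a *ᵥ v0))) = _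
    rw [h1, hE, frobLin_apply]
  -- matrix extensionality through vectors of the form a *ᵥ v0
  have hext : ∀ A B : Matrix (Fin n) (Fin n) F,
      (∀ a : Matrix (Fin n) (Fin n) F, a ∈ K → A *ᵥ (a *ᵥ v0) = B *ᵥ (a *ᵥ v0)) → A = B := by
    intro A B h
    apply Matrix.toLin'.injective
    apply LinearMap.ext
    intro u
    obtain ⟨a, ha, hau⟩ := orb K hK v0 hv0 u
    rw [Matrix.toLin'_apply, Matrix.toLin'_apply, ← hau]
    exact h a ha
  -- M k = k^q M
  have hMk : ∀ k : Matrix (Fin n) (Fin n) F, k ∈ K → M * k = k ^ q * M := by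
    intro k hk
    apply hext
    intro a ha
    calc (M * k) *ᵥ (a *ᵥ v0) = M *ᵥ ((k * a) *ᵥ v0) := by
          rw [← Matrix.mulVec_mulVec, Matrix.mulVec_mulVec v0 k a]
      _ = ((k * a) ^ q) *ᵥ v0 := hM _ (K.mul_mem hk ha)
      _ = (k ^ q * a ^ q) *ᵥ v0 := by rw [(show Commute k a from hK.comm k hk a ha).mul_pow]
      _ = (k ^ q) *ᵥ (M *ᵥ (a *ᵥ v0)) := by rw [hM a ha, Matrix.mulVec_mulVec]
      _ = (k ^ q * M) *ᵥ (a *ᵥ v0) := by rw [Matrix.mulVec_mulVec]
  -- iterates
  have hMj : ∀ j : ℕ, ∀ a : Matrix (Fin n) (Fin n) F, a ∈ K →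
      (M ^ j) *ᵥ (a *ᵥ v0) = (a ^ (q ^ j)) *ᵥ v0 := by
    intro j
    induction j with
    | zero => intro a ha; simp
    | succ j ih =>
      intro a ha
      rw [pow_succ, ← Matrix.mulVec_mulVec, hM a ha, ih _ (K.pow_mem ha q), ← pow_mul, ← pow_succ']
  have hMn : M ^ n = 1 := by
    apply hext
    intro a ha
    rw [hMj n a ha, pow_card_pow_K hn0 K hK a ha, Matrix.one_mulVec]
  have hn1 : n = (n - 1) + 1 := by omega
  have hMM' : M * M ^ (n - 1) = 1 := by rw [← pow_succ', ← hn1, hMn]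
  have hM'M : M ^ (n - 1) * M = 1 := by rw [← pow_succ, ← hn1, hMn]
  let s : GL (Fin n) F := ⟨M, M ^ (n - 1), hMM', hM'M⟩
  have hsval : (s : Matrix (Fin n) (Fin n) F) = M := rfl
  have hsinv : ((s⁻¹ : GL (Fin n) F) : Matrix (Fin n) (Fin n) F) = M ^ (n - 1) := rfl
  refine ⟨s, ?_, ?_, ?_, v0, hv0, ?_⟩
  · intro k
    show k ∈ K ↔ (s : Matrix (Fin n) (Fin n) F) * k * ((s⁻¹ : GL (Fin n) F) : Matrix (Fin n) (Fin n) F) ∈ K
    rw [hsval, hsinv]
    constructor
    · intro hk
      rw [hMk k hk, mul_assoc, hMM', mul_one]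
      exact K.pow_mem hk q
    · intro hm
      set m := M * k * M ^ (n - 1) with hmdef
      have hm' : m ^ (q ^ (n - 1)) ∈ K := K.pow_mem hm _
      have hmq : (m ^ (q ^ (n - 1))) ^ q = m := by
        rw [← pow_mul, ← pow_succ, ← hn1]
        exact pow_card_pow_K hn0 K hK m hm
      have h1 : M * (m ^ (q ^ (n - 1))) * M ^ (n - 1) = m := by
        rw [hMk _ hm', mul_assoc, hMM', mul_one, hmq]
      have h2 : k = m ^ (q ^ (n - 1)) := by
        calc k = (M ^ (n - 1) * M) * k * (M ^ (n - 1) * M) := by rw [hM'M, one_mul, mul_one]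
          _ = M ^ (n - 1) * (M * k * M ^ (n - 1)) * M := by simp only [mul_assoc]
          _ = M ^ (n - 1) * (M * (m ^ (q ^ (n - 1))) * M ^ (n - 1)) * M := by rw [h1]
          _ = (M ^ (n - 1) * M) * (m ^ (q ^ (n - 1))) * (M ^ (n - 1) * M) := by simp only [mul_assoc]
          _ = m ^ (q ^ (n - 1)) := by rw [hM'M, one_mul, mul_one]
      rw [h2]
      exact hm'
  · rw [hsval]; exact hMn
  · rw [hsval]
    intro hM1
    obtain ⟨a, ha, hane⟩ := exists_pow_card_ne_K hn K hK
    apply hane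
    have h1 := hM a ha
    rw [hM1, Matrix.one_mulVec] at h1
    have h2 : (a ^ q - a) *ᵥ v0 = 0 := by rw [Matrix.sub_mulVec, ← h1, sub_self]
    have h3 := eq_zero_of_mulVec_eq_zero K hK v0 hv0 _ (K.sub_mem (K.pow_mem ha q) ha) h2
    exact sub_eq_zero.1 h3
  · rw [hsval]
    have h1 := hM 1 K.one_mem
    rwa [Matrix.one_mulVec, one_pow, Matrix.one_mulVec] at h1

/-- S5970-FROB: the Frobenius of `K` as an element of the normaliser of `K`. -/
theorem exists_frobenius_normalizer {F : Type*} [Field F] [Fintype F] {n : ℕ} (hn : 2 ≤ n)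
    (K : Subalgebra F (Matrix (Fin n) (Fin n) F)) (hK : Cfsg.Geo.IsFieldSubalgebra n K) :
    ∃ s : GL (Fin n) F, s ∈ Cfsg.Geo.subalgebraNormalizer K ∧
      (s : Matrix (Fin n) (Fin n) F) ^ n = 1 ∧ (s : Matrix (Fin n) (Fin n) F) ≠ 1 := by
  obtain ⟨s, h1, h2, h3, _⟩ := exists_frobenius_normalizer' hn K hK
  exact ⟨s, h1, h2, h3⟩

end Cfsg.Agent.H5.Singer
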