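import Cfsg.Agent.H23.StbDecDefs2

/-! SD-NF2 (piece of helper23's S2156 project): an automorphism mapping `X_{±α_i}` onto
`X_{±α_{π i}}` through additive bijections is brought into normal form by an element of `Ĥ`. -/

set_option autoImplicit false

universe u

namespace Cfsg.Agent.H5.StbD

open Cfsg.Lie Cfsg.Agent.H23 Cfsg.Agent.H23.Stb Cfsg.Agent.H23.StbD

/-- multiplication by a nonzero scalar as an additive equivalence -/
def scaleEquiv {F : Type u} [Field F] (a : F) (ha : a ≠ 0) : F ≃+ F where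
  toFun t := a * t
  invFun t := a⁻¹ * t
  left_inv t := by
    show a⁻¹ * (a * t) = t
    rw [← mul_assoc, inv_mul_cancel₀ ha, one_mul]
  right_inv t := by
    show a * (a⁻¹ * t) = t
    rw [← mul_assoc, mul_inv_cancel₀ ha, one_mul]
  map_add' x y := mul_add a x y

theorem scaleEquiv_apply {F : Type u} [Field F] (a : F) (ha : a ≠ 0) (t : F) :
    scaleEquiv a ha t = a * t := rfl

/-- SD-NF2 -/
theorem nf2 (h1 : StHatEx.{u}) (h2 : StHatAut.{u}) (h3 : StPsiG.{u}) (h4 : StEdge.{u}) :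
    StNF2.{u} := by
  intro D F _ z η rT w0 hC m hm θ π φ ψ hπ hinj hpos hneg
  classical
  have hφ1 : ∀ i, φ i 1 ≠ 0 := by
    intro i h0
    have h : φ i 1 = φ i 0 := by rw [h0, map_zero]
    exact one_ne_zero ((φ i).injective h)
  obtain ⟨c, hcdef⟩ : ∃ c : ℕ → F, c = fun j =>
      if h : ∃ i, i < D.rank ∧ π i = j then (φ (Classical.choose h) 1)⁻¹ else 1 := ⟨_, rfl⟩
  have hc_val : ∀ i < D.rank, c (π i) = (φ i 1)⁻¹ := by
    intro i hi
    have h : ∃ i', i' < D.rank ∧ π i' = π i := ⟨i, hi, rfl⟩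
    rw [hcdef]
    show (if h : ∃ i', i' < D.rank ∧ π i' = π i then (φ (Classical.choose h) 1)⁻¹ else 1) = _
    rw [dif_pos h]
    have hs := Classical.choose_spec h
    rw [hinj _ hs.1 i hi hs.2]
  have hc_ne : ∀ j < D.rank, c j ≠ 0 := by
    intro j _
    rw [hcdef]
    show (if h : ∃ i', i' < D.rank ∧ π i' = j then (φ (Classical.choose h) 1)⁻¹ else 1) ≠ 0
    split_ifs with h
    · exact inv_ne_zero (hφ1 _)
    · exact one_ne_zero
  obtain ⟨k, hk, hkx⟩ := h1 D F z η hC.hP m hm c hc_ne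
  obtain ⟨δ, hδ⟩ := h2 D F z hC.hP.sem k hk
  have hδpos : ∀ j < D.rank, ∀ t : F,
      δ (xG hC.hP.sem (D.simple j) t) = xG hC.hP.sem (D.simple j) (c j * t) := by
    intro j hj t
    apply Subtype.ext
    rw [hδ]
    exact (hkx j hj t).1
  have hδneg : ∀ j < D.rank, ∀ t : F,
      δ (xG hC.hP.sem (D.neg (D.simple j)) t) =
        xG hC.hP.sem (D.neg (D.simple j)) ((c j)⁻¹ * t) := by
    intro j hj t
    apply Subtype.ext
    rw [hδ]
    exact (hkx j hj t).2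
  obtain ⟨φ', hφ'⟩ : ∃ φ' : ℕ → F ≃+ F, φ' = fun i =>
      (φ i).trans (scaleEquiv (φ i 1)⁻¹ (inv_ne_zero (hφ1 i))) := ⟨_, rfl⟩
  obtain ⟨ψ', hψ'⟩ : ∃ ψ' : ℕ → F ≃+ F, ψ' = fun i =>
      (ψ i).trans (scaleEquiv (φ i 1) (hφ1 i)) := ⟨_, rfl⟩
  have hφ'app : ∀ i t, φ' i t = (φ i 1)⁻¹ * φ i t := by
    intro i t; rw [hφ']; rfl
  have hψ'app : ∀ i t, ψ' i t = φ i 1 * ψ i t := by
    intro i t; rw [hψ']; rfl
  have hpos' : ∀ i < D.rank, ∀ t : F, (θ.trans δ) (xG hC.hP.sem (D.simple i) t) =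
      xG hC.hP.sem (D.simple (π i)) (φ' i t) := by
    intro i hi t
    rw [MulEquiv.trans_apply, hpos i hi t, hδpos (π i) (hπ i hi), hc_val i hi, hφ'app]
  have hneg' : ∀ i < D.rank, ∀ t : F, (θ.trans δ) (xG hC.hP.sem (D.neg (D.simple i)) t) =
      xG hC.hP.sem (D.neg (D.simple (π i))) (ψ' i t) := by
    intro i hi t
    rw [MulEquiv.trans_apply, hneg i hi t, hδneg (π i) (hπ i hi), hc_val i hi, inv_inv, hψ'app]
  have hone : ∀ i, φ' i 1 = 1 := by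
    intro i
    rw [hφ'app, inv_mul_cancel₀ (hφ1 i)]
  have hpsi : ∀ i < D.rank, (∀ t : F, ψ' i t = φ' i t) ∧
      (∀ a : F, a ≠ 0 → φ' i a⁻¹ = (φ' i a)⁻¹) ∧
      (∀ a : F, a ≠ 0 → (θ.trans δ) (hG hC.hP.sem (D.simple i) a) =
        hG hC.hP.sem (D.simple (π i)) (φ' i a)) := by
    intro i hi
    exact h3 D F z η rT w0 hC (θ.trans δ) i (π i) hi (hπ i hi) (φ' i) (ψ' i) (hpos' i hi)
      (hneg' i hi) (hone i)
  refine ⟨δ, φ', ⟨k, hk, hδ⟩, hpos', ?_, fun i _ => hone i, fun i hi => (hpsi i hi).2.1, ?_⟩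
  · intro i hi t
    rw [hneg' i hi t, (hpsi i hi).1 t]
  · intro i hi j hj a ha u
    exact h4 D F z η hC.hP (θ.trans δ) i j (π i) (π j) hi hj (hπ i hi) (hπ j hj) (φ' i) (φ' j)
      (hpos' i hi) (hpsi j hj).2.2 a ha u

example (h1 : StHatEx.{u}) (h2 : StHatAut.{u}) (h3 : StPsiG.{u}) (h4 : StEdge.{u}) :
    StNF2.{u} := nf2 h1 h2 h3 h4

end Cfsg.Agent.H5.StbD

#print axioms Cfsg.Agent.H5.StbD.nf2
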