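import Mathlib
import Cfsg.Agent.H83.UPDefs

/-!
# S6001-FIX (team project of helper83)

Elements of odd prime order `r` of the normalizer of the Pauli group: `y` is scalar, or
`tr(y) tr(y⁻¹) = #Fix(σ)` with `#Fix(σ) ∈ {1, 4}` (`r = 3`) or `#Fix(σ) = 1` (`r = 5`).

The trace identity comes from the averaging identity applied to `y⁻¹`:
`4 tr(y) tr(y⁻¹) = Σ_v tr(y P(v) y⁻¹ P(v)ᵀ) = Σ_v c(v) tr(P(σ v) P(v)ᵀ) = 4 Σ_{σ v = v} c(v)`,
and `c(v) = 1` for a fixed `v` (`c(v)^r = 1 = c(v)^4`).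
-/

set_option autoImplicit false

namespace Cfsg.Agent.H5.UP

open Cfsg.Agent.H83.UP Matrix

universe u

theorem fix (hB : StPBasic.{u}) (_hLI : StPLI.{u}) (hAvg : StPAvg.{u}) (hC : StPCent.{u})
    (hPerm : StPerm.{u}) (hCount : StCount) : StFix.{u} := by
  intro F _ ι y r h2 hι hN hr hr2 hyr
  classical
  obtain ⟨hP0, _, hPmul, _, hPt, _, hPtr⟩ := hB F
  obtain ⟨σ, c, hyP, hc4, hσadd, hσsymp, hσbij⟩ := hPerm F ι y h2 hι hN
  have h4 : (4 : F) ≠ 0 := by
    have e : (4 : F) = 2 * 2 := by norm_num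
    rw [e]
    exact mul_ne_zero h2 h2
  have htr1 : Matrix.trace (1 : Matrix (Fin 4) (Fin 4) F) = 4 := by
    simp [Matrix.trace_one]
  -- the transpose of a Pauli matrix is `±` itself
  have hPT : ∀ v : Fin 4 → ZMod 2, ∃ ε : F,
      (pauli v : Matrix (Fin 4) (Fin 4) F)ᵀ = ε • pauli v := by
    intro v
    obtain ⟨ε, hε, hvv⟩ := hPmul v v
    have hvv0 : v + v = 0 := by
      funext i
      exact CharTwo.add_self_eq_zero (v i)
    rw [hvv0, hP0] at hvv
    have hεε : ε * ε = 1 := by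
      rcases hε with h | h <;> rw [h] <;> ring
    refine ⟨ε, ?_⟩
    calc (pauli v : Matrix (Fin 4) (Fin 4) F)ᵀ
        = (pauli v : Matrix (Fin 4) (Fin 4) F)ᵀ * ((ε * ε) • (1 : Matrix (Fin 4) (Fin 4) F)) := by
          rw [hεε, one_smul, mul_one]
      _ = ε • ((pauli v : Matrix (Fin 4) (Fin 4) F)ᵀ * (ε • (1 : Matrix (Fin 4) (Fin 4) F))) := by
          rw [Matrix.mul_smul, Matrix.mul_smul, smul_smul]
      _ = ε • ((pauli v : Matrix (Fin 4) (Fin 4) F)ᵀ * (pauli v * pauli v)) := by rw [hvv]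
      _ = ε • pauli v := by rw [← mul_assoc, hPt v, one_mul]
  have hortho : ∀ v w : Fin 4 → ZMod 2, v ≠ w →
      Matrix.trace ((pauli v : Matrix (Fin 4) (Fin 4) F)ᵀ * pauli w) = 0 := by
    intro v w hvw
    obtain ⟨ε, hε⟩ := hPT v
    obtain ⟨ε', _, hvw'⟩ := hPmul v w
    have hne : v + w ≠ 0 := by
      intro h0
      apply hvw
      funext i
      have h' := congrFun h0 i
      simp only [Pi.add_apply, Pi.zero_apply] at h'
      exact CharTwo.add_eq_zero.mp h'
    rw [hε, Matrix.smul_mul, hvw', smul_smul, Matrix.trace_smul, hPtr (v + w) hne, smul_zero]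
  -- iterating the normalizing relation
  have hiter : ∀ (n : ℕ) (v : Fin 4 → ZMod 2), ∃ C : F,
      y ^ n * pauli v = C • (pauli (σ^[n] v) * y ^ n) := by
    intro n
    induction n with
    | zero =>
      intro v
      exact ⟨1, by simp⟩
    | succ n ih =>
      intro v
      obtain ⟨C, hC'⟩ := ih v
      refine ⟨C * c (σ^[n] v), ?_⟩
      calc y ^ (n + 1) * pauli v = y * (y ^ n * pauli v) := by rw [pow_succ', mul_assoc]
        _ = C • ((y * pauli (σ^[n] v)) * y ^ n) := by rw [hC', Matrix.mul_smul, mul_assoc]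
        _ = (C * c (σ^[n] v)) • (pauli (σ^[n + 1] v) * y ^ (n + 1)) := by
            rw [hyP, Matrix.smul_mul, smul_smul, Function.iterate_succ_apply', mul_assoc,
              ← pow_succ']
  have hσr : ∀ v, σ^[r] v = v := by
    intro v
    by_contra hne
    obtain ⟨C, hC'⟩ := hiter r v
    rw [hyr, one_mul, mul_one] at hC'
    have h1 : Matrix.trace ((pauli v : Matrix (Fin 4) (Fin 4) F)ᵀ * (C • pauli (σ^[r] v))) = 0 := by
      rw [Matrix.mul_smul, Matrix.trace_smul, hortho v _ (Ne.symm hne), smul_zero]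
    rw [← hC', hPt v, htr1] at h1
    exact h4 h1
  -- `c v = 1` on fixed points
  have hcop : Nat.gcd r 4 = 1 := by
    have h' : Nat.Coprime r 2 := (Nat.coprime_primes hr Nat.prime_two).mpr hr2
    have h'' : Nat.Coprime r (2 ^ 2) := Nat.Coprime.pow_right 2 h'
    exact h''
  have hc1 : ∀ v, σ v = v → c v = 1 := by
    intro v hv
    have hpow : ∀ n : ℕ, y ^ n * pauli v = c v ^ n • (pauli v * y ^ n) := by
      intro n
      induction n with
      | zero => simp
      | succ n ih =>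
        calc y ^ (n + 1) * pauli v = y * (y ^ n * pauli v) := by rw [pow_succ', mul_assoc]
          _ = c v ^ n • ((y * pauli v) * y ^ n) := by rw [ih, Matrix.mul_smul, mul_assoc]
          _ = c v ^ (n + 1) • (pauli v * y ^ (n + 1)) := by
              rw [hyP v, hv, Matrix.smul_mul, smul_smul, mul_assoc, ← pow_succ, ← pow_succ']
    have h1 := hpow r
    rw [hyr, one_mul, mul_one] at h1
    have h3 : Matrix.trace ((pauli v : Matrix (Fin 4) (Fin 4) F)ᵀ * (c v ^ r • pauli v)) =
        c v ^ r * 4 := by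
      rw [Matrix.mul_smul, Matrix.trace_smul, hPt v, htr1, smul_eq_mul]
    rw [← h1, hPt v, htr1] at h3
    have hcr : c v ^ r = 1 := by
      have h5 : (1 : F) * 4 = c v ^ r * 4 := by rw [one_mul]; exact h3
      exact (mul_right_cancel₀ h4 h5).symm
    have h6 : c v ^ Nat.gcd r 4 = 1 := pow_gcd_eq_one.mpr ⟨hcr, hc4 v⟩
    rw [hcop, pow_one] at h6
    exact h6
  -- the trace identity
  have hyinv : y * y⁻¹ = 1 := Matrix.mul_nonsing_inv y hN.1
  have hmain : Matrix.trace y * Matrix.trace y⁻¹ = (Nat.card {v // σ v = v} : F) := by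
    have hT := hAvg F y⁻¹
    have h1 : Matrix.trace (y * ∑ v : Fin 4 → ZMod 2, pauli v * y⁻¹ * (pauli v)ᵀ) =
        4 * (Matrix.trace y * Matrix.trace y⁻¹) := by
      rw [hT, Matrix.mul_smul, mul_one, Matrix.trace_smul, smul_eq_mul]
      ring
    have h2' : Matrix.trace (y * ∑ v : Fin 4 → ZMod 2, pauli v * y⁻¹ * (pauli v)ᵀ) =
        ∑ v : Fin 4 → ZMod 2, (if σ v = v then (4 : F) else 0) := by
      rw [Finset.mul_sum, Matrix.trace_sum]
      apply Finset.sum_congr rfl
      intro v _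
      have e1 : y * (pauli v * y⁻¹ * (pauli v)ᵀ) =
          c v • (pauli (σ v) * (pauli v : Matrix (Fin 4) (Fin 4) F)ᵀ) := by
        calc y * (pauli v * y⁻¹ * (pauli v)ᵀ) = (y * pauli v) * y⁻¹ * (pauli v)ᵀ := by
              simp only [mul_assoc]
          _ = c v • (pauli (σ v) * (y * y⁻¹) * (pauli v)ᵀ) := by
              rw [hyP v]
              simp only [Matrix.smul_mul, mul_assoc]
          _ = c v • (pauli (σ v) * (pauli v)ᵀ) := by rw [hyinv, mul_one]
      rw [e1, Matrix.trace_smul, Matrix.trace_mul_comm]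
      by_cases hv : σ v = v
      · rw [if_pos hv, hv, hPt v, htr1, hc1 v hv, one_smul]
      · rw [if_neg hv, hortho v (σ v) (Ne.symm hv), smul_zero]
    have h3 : ∑ v : Fin 4 → ZMod 2, (if σ v = v then (4 : F) else 0) =
        4 * (Nat.card {v // σ v = v} : F) := by
      rw [← Finset.sum_filter, Finset.sum_const, nsmul_eq_mul, mul_comm]
      congr 2
      rw [Nat.card_eq_fintype_card, Fintype.card_subtype]
    have h5 : 4 * (Matrix.trace y * Matrix.trace y⁻¹) = 4 * (Nat.card {v // σ v = v} : F) := by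
      rw [← h1, h2', h3]
    exact mul_left_cancel₀ h4 h5
  rcases hCount σ r hr hr2 hσadd hσsymp hσr with hid | ⟨hr3, h14⟩ | ⟨hr5, h1⟩
  · left
    apply hC F y h2
    intro v
    rw [hyP v, hid v, hc1 v (hid v), one_smul]
  · right; left
    refine ⟨hr3, ?_⟩
    rcases h14 with h | h
    · left
      rw [hmain, h]
      simp
    · right
      rw [hmain, h]
      norm_num
  · right; right
    refine ⟨hr5, ?_⟩
    rw [hmain, h1]
    simp

example (hB : StPBasic.{u}) (hLI : StPLI.{u}) (hAvg : StPAvg.{u}) (hC : StPCent.{u})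
    (hPerm : StPerm.{u}) (hCount : StCount) : StFix.{u} := fix hB hLI hAvg hC hPerm hCount

end Cfsg.Agent.H5.UP

#print axioms Cfsg.Agent.H5.UP.fix
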